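import Cfsg.Agent.Blk.MPrin
import Cfsg.Agent.Cyc.Simples
import Cfsg.Agent.BlkInd.PPart
import Cfsg.Agent.Transfer.Frobenius

/-!
# A local criterion for normal `p`-complements

If every `p`-regular element `x` of `G` lies in a normal `p'`-subgroup of `C_G(Q)` for some `p`-subgroup `Q`,
then `G` has a normal `p`-complement (the principal block has only one simple module).
-/

set_option autoImplicit false
set_option linter.style.haveILetI false
set_option linter.unusedSectionVars false

namespace Cfsg.Agent.H75.LocNPC

open MonoidAlgebra Cfsg.Agent.Blk Cfsg.Agent.Cyc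

universe u v w

variable {k : Type v} [Field k] {G : Type u} [Group G] [Fintype G] {p : ℕ} [Fact p.Prime] [CharP k p]

/-- only the centralizer of `Q` matters when a `Q`-fixed element acts on a class function -/
theorem sum_br {Q : Subgroup G} (hQ : IsPGroup p Q) {b : MonoidAlgebra k G} (hb : Fixed Q b)
    (τ : G → k) (hτ : ∀ x g, τ (x * g * x⁻¹) = τ g) {c : G}
    (hc : c ∈ Subgroup.centralizer (Q : Set G)) :
    ∑ h : G, b.coeff h * τ (h * c) = ∑ h : G, (br Q b).coeff h * τ (h * c) := by
  classical
  let _ : MulAction Q G := MulAction.compHom G (MulAut.conj.comp Q.subtype)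
  have hsmul : ∀ (u : Q) (g : G), u • g = u * g * (u : G)⁻¹ := fun u g => rfl
  have h1 := sum_eq_sum_fixed (k := k) hQ (X := G) (fun h => b.coeff h * τ (h * c)) (by
    intro u g
    have e1 : (u : G) * c = c * u := Subgroup.mem_centralizer_iff.1 hc u u.2
    have e2 : (u : G) * g * (u : G)⁻¹ * c = u * (g * c) * (u : G)⁻¹ := by
      calc (u : G) * g * (u : G)⁻¹ * c = u * g * ((u : G)⁻¹ * (c * u)) * (u : G)⁻¹ := by group
        _ = u * g * ((u : G)⁻¹ * (u * c)) * (u : G)⁻¹ := by rw [e1]
        _ = _ := by group
    rw [hsmul, hb.coeff_conj u.2, e2, hτ])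
  have hfix : ∀ g : G, (∀ u : Q, u • g = g) ↔ g ∈ Subgroup.centralizer (Q : Set G) := by
    intro g
    rw [Subgroup.mem_centralizer_iff]
    constructor
    · intro h u hu
      have := h ⟨u, hu⟩
      rw [hsmul] at this
      calc u * g = u * g * u⁻¹ * u := by group
        _ = g * u := by rw [this]
    · intro h u
      rw [hsmul, h u u.2]; group
  rw [h1, Finset.sum_filter]
  refine Finset.sum_congr rfl fun h _ => ?_
  by_cases hh : h ∈ Subgroup.centralizer (Q : Set G)
  · rw [if_pos ((hfix h).2 hh), br_coeff_of_mem _ hh]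
  · rw [if_neg (fun h2 => hh ((hfix h).1 h2)), br_coeff_of_notMem _ hh, zero_mul]

/-- the Brauer map sends the principal block idempotent to the principal block idempotent. -/
theorem br_prin {b : MonoidAlgebra k G} (hb : IsBlk ⊤ b) (hb1 : aug b = 1) {Q : Subgroup G}
    (hQ : IsPGroup p Q) :
    IsBlk (Subgroup.centralizer (Q : Set G)) (br Q b) ∧ aug (br Q b) = 1 := by
  obtain ⟨s, hs, hs1⟩ := exists_all_blks k (Subgroup.centralizer (Q : Set G))
  obtain ⟨e, he, he1⟩ := exists_prin k (Subgroup.centralizer (Q : Set G))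
  have hZ : InZ (Subgroup.centralizer (Q : Set G)) (br Q b) := by
    have h0 : Fixed (Subgroup.centralizer ((⊥ : Subgroup G) : Set G)) b :=
      hb.fixed.mono le_top
    exact inZ_br (k := k) bot_le h0
  have key : br Q b = e := by
    calc br Q b = br Q b * ∑ f ∈ s, f := by rw [hs1, mul_one]
      _ = ∑ f ∈ s, br Q b * f := Finset.mul_sum _ _ _
      _ = br Q b * e := by
        refine Finset.sum_eq_single e ?_ (fun h => absurd ((hs e).2 he) h)
        intro f hf hfe
        have hfb := (hs f).1 hf
        have hp : MPair p Q f := ⟨hQ, hfb⟩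
        have hbb : br Q b * br Q b = br Q b := by
          rw [← br_mul hQ (hb.fixed.mono le_top) (hb.fixed.mono le_top), hb.idem]
        rcases hfb.prim (br Q b) hZ.1 hZ.2 hbb with h | h
        · exfalso
          rw [← hZ.comm hfb.supp] at h
          have h1 := (third_main hb hb1 hp).1 h
          exact hfe (prin_unique hfb h1 he he1)
        · rw [hZ.comm hfb.supp, h]
      _ = e := (third_main hb hb1 ⟨hQ, he⟩).2 he1
  rw [key]
  exact ⟨he, he1⟩

/-- elements of a normal `p'`-subgroup are absorbed by the principal block idempotent. -/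
theorem prin_mul_single {H K : Subgroup G} {e : MonoidAlgebra k G} (he : IsBlk H e)
    (he1 : aug e = 1) (hKH : K ≤ H) (hKn : ∀ c ∈ H, ∀ y ∈ K, c * y * c⁻¹ ∈ K)
    (hKp : ¬ p ∣ Nat.card K) {x : G} (hx : x ∈ K) : e * single x 1 = e := by
  classical
  have hK0 : (Nat.card K : k) ≠ 0 := by
    rwa [Ne, CharP.cast_eq_zero_iff k p]
  set S : MonoidAlgebra k G := ofFun fun g => if g ∈ K then (1 : k) else 0 with hS
  have hSc : ∀ g, S.coeff g = if g ∈ K then (1 : k) else 0 := fun g => by rw [hS, ofFun_coeff]
  have hSx : ∀ y ∈ K, S * single y 1 = S := by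
    intro y hy
    apply ga_ext; intro g
    rw [coeff_mul_single_apply, hSc, hSc, mul_one]
    have : g * y⁻¹ ∈ K ↔ g ∈ K := by
      constructor
      · intro h
        have := K.mul_mem h hy
        rwa [inv_mul_cancel_right] at this
      · intro h; exact K.mul_mem h (K.inv_mem hy)
    simp only [this]
  have hcard : ∑ g : G, S.coeff g = (Nat.card K : k) := by
    rw [Finset.sum_congr rfl fun g _ => hSc g, Finset.sum_ite, Finset.sum_const_zero, add_zero,
      Finset.sum_const, nsmul_eq_mul, mul_one]
    congr 1
    rw [Nat.card_eq_fintype_card, Fintype.card_subtype]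
  have hSS : S * S = (Nat.card K : k) • S := by
    apply ga_ext; intro g
    rw [mul_coeff, coeff_smul_apply, smul_eq_mul, ← hcard, Finset.sum_mul]
    refine Finset.sum_congr rfl fun h _ => ?_
    rw [hSc h]
    split_ifs with hh
    · rw [one_mul, one_mul, hSc, hSc]
      have : h⁻¹ * g ∈ K ↔ g ∈ K := by
        constructor
        · intro h1
          have := K.mul_mem hh h1
          rwa [mul_inv_cancel_left] at this
        · intro h1; exact K.mul_mem (K.inv_mem hh) h1
      simp only [this]
    · rw [zero_mul, zero_mul]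
  have hsupp : Supp H S := by
    intro g hg
    rw [hSc, if_neg (fun h => hg (hKH h))]
  have hfix : Fixed H S := by
    rw [fixed_iff]
    intro u hu g
    rw [hSc, hSc]
    have : u * g * u⁻¹ ∈ K ↔ g ∈ K := by
      constructor
      · intro h1
        have := hKn u⁻¹ (H.inv_mem hu) _ h1
        have e1 : u⁻¹ * (u * g * u⁻¹) * u⁻¹⁻¹ = g := by group
        rwa [e1] at this
      · intro h1; exact hKn u hu g h1
    simp only [this]
  set E : MonoidAlgebra k G := (Nat.card K : k)⁻¹ • S with hE
  have hEE : E * E = E := by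
    rw [hE, smul_mul_smul_comm, hSS, smul_smul]
    congr 1
    field_simp
  have haugS : aug S = (Nat.card K : k) := by rw [aug_eq, hcard]
  have haugE : aug E = 1 := by
    rw [hE, aug_smul, haugS, inv_mul_cancel₀ hK0]
  have heE : e * E = e := by
    rcases he.prim E (hsupp.smul _) (hfix.smul _) hEE with h | h
    · exact h
    · exfalso
      have := congrArg aug h
      rw [aug_mul, he1, haugE, aug_zero, mul_one] at this
      exact one_ne_zero this
  calc e * single x 1 = e * E * single x 1 := by rw [heE]
    _ = e * (E * single x 1) := mul_assoc _ _ _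
    _ = e * E := by rw [hE, smul_mul_assoc, hSx x hx]
    _ = e := heE

section reps

variable {V : Type w} [AddCommGroup V] [Module k V]

theorem trace_sum (ρ : Representation k G V) [FiniteDimensional k V] (z : MonoidAlgebra k G) (g : G) :
    LinearMap.trace k V (act ρ z * ρ g) = ∑ h : G, z.coeff h * LinearMap.trace k V (ρ (h * g)) := by
  rw [act_eq_sum, Finset.sum_mul, map_sum]
  refine Finset.sum_congr rfl fun h _ => ?_
  rw [smul_mul_assoc, map_smul, smul_eq_mul, map_mul ρ]

/-- the trace of a module of the principal block is locally constant. -/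
theorem trace_const (ρ : Representation k G V) [FiniteDimensional k V] {b : MonoidAlgebra k G}
    (hb : IsBlk ⊤ b) (hb1 : aug b = 1) (hact : act ρ b = LinearMap.id)
    {Q K : Subgroup G} (hQ : IsPGroup p Q) (hKC : K ≤ Subgroup.centralizer (Q : Set G))
    (hKn : ∀ c ∈ Subgroup.centralizer (Q : Set G), ∀ y ∈ K, c * y * c⁻¹ ∈ K)
    (hKp : ¬ p ∣ Nat.card K) {x : G} (hx : x ∈ K) :
    LinearMap.trace k V (ρ x) = LinearMap.trace k V (ρ 1) := by
  obtain ⟨hbr, hbr1⟩ := br_prin hb hb1 hQ
  have hmul := prin_mul_single hbr hbr1 hKC hKn hKp hx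
  have hτ : ∀ y g : G, LinearMap.trace k V (ρ (y * g * y⁻¹)) = LinearMap.trace k V (ρ g) := by
    intro y g
    simp only [map_mul]
    rw [LinearMap.trace_mul_comm, ← mul_assoc, ← map_mul, inv_mul_cancel, map_one, one_mul]
  have key : ∀ c ∈ Subgroup.centralizer (Q : Set G),
      LinearMap.trace k V (ρ c) = LinearMap.trace k V (act ρ (br Q b) * ρ c) := by
    intro c hc
    rw [trace_sum, ← sum_br hQ (hb.fixed.mono le_top) (fun g => LinearMap.trace k V (ρ g)) hτ hc,
      ← trace_sum, hact]
    rfl
  have e1 : act ρ (br Q b) * ρ x = act ρ (br Q b) := by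
    have : act ρ (br Q b * single x 1) = act ρ (br Q b) * ρ x := by
      rw [act_mul, act_single]; rfl
    rw [← this, hmul]
  rw [key x (hKC hx), e1, key 1 (Subgroup.one_mem _), map_one, mul_one]

/-- irreducible modules of the principal block with constant trace are trivial. -/
theorem irr_trivial [IsAlgClosed k] [FiniteDimensional k V] (ρ : Representation k G V)
    (hirr : Irr ρ) (htr : ∀ x : G, ¬ p ∣ orderOf x → LinearMap.trace k V (ρ x) = LinearMap.trace k V (ρ 1))
    (g : G) : ρ g = 1 := by
  classical
  by_contra hne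
  have htr' : ∀ g : G, LinearMap.trace k V (ρ g) = LinearMap.trace k V (ρ 1) := by
    intro g
    obtain ⟨x, c, h1, h2, ⟨n, hn⟩, h4, -, -⟩ := BlkInd.exists_decomp (p := p) Fact.out g
    rw [← h1, trace_eq_of_pPart (p := p) ρ h2.symm (n := n) (by rw [← hn]; exact pow_orderOf_eq_one x)]
    exact htr c h4
  obtain ⟨v, hv⟩ := hirr.1
  let W := ↥(Submodule.span k {v})
  let σ : Representation k G W := 1
  have hW1 : Module.finrank k W = 1 := finrank_span_singleton hv
  have hσirr : Irr σ := by
    refine ⟨⟨⟨v, Submodule.mem_span_singleton_self v⟩, fun h => hv (congrArg Subtype.val h)⟩, ?_⟩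
    intro N _
    haveI : IsSimpleModule k W := isSimpleModule_iff_finrank_eq_one.mpr hW1
    exact eq_bot_or_eq_top N
  let S : Bool → Type w := fun i => match i with | true => V | false => W
  letI i1 : ∀ i, AddCommGroup (S i) := fun i => match i with
    | true => inferInstanceAs (AddCommGroup V)
    | false => inferInstanceAs (AddCommGroup W)
  letI i2 : ∀ i, Module k (S i) := fun i => match i with
    | true => inferInstanceAs (Module k V)
    | false => inferInstanceAs (Module k W)
  haveI i3 : ∀ i, FiniteDimensional k (S i) := fun i => match i with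
    | true => inferInstanceAs (FiniteDimensional k V)
    | false => inferInstanceAs (FiniteDimensional k W)
  let τ : ∀ i, Representation k G (S i) := fun i => match i with
    | true => ρ
    | false => σ
  have hτirr : ∀ i, Irr (τ i) := fun i => match i with
    | true => hirr
    | false => hσirr
  have h12 : ∀ θ : V →ₗ[k] W, IsHom ρ σ θ → θ = 0 := by
    intro θ hθ
    by_contra h0
    have hinj := hirr.injective_of_ne_zero hθ h0
    apply hne
    ext u
    apply hinj
    exact isHom_iff.1 hθ g u
  have h21 : ∀ θ : W →ₗ[k] V, IsHom σ ρ θ → θ = 0 := by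
    intro θ hθ
    by_contra h0
    have hsur := hirr.surjective_of_ne_zero hθ h0
    apply hne
    ext u
    obtain ⟨w', rfl⟩ := hsur u
    exact (isHom_iff.1 hθ g w').symm
  have hli := trace_linearIndependent τ hτirr (by
    intro i j hij
    match i, j, hij with
    | true, true, h => exact absurd rfl h
    | false, false, h => exact absurd rfl h
    | true, false, _ => exact h12
    | false, true, _ => exact h21)
  rw [Fintype.linearIndependent_iff] at hli
  have h1 := hli (fun i => match i with
    | true => 1
    | false => - LinearMap.trace k V (ρ 1)) (by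
    funext y
    rw [Finset.sum_apply, Fintype.sum_bool]
    change 1 * LinearMap.trace k V (ρ y) + (- LinearMap.trace k V (ρ 1)) * LinearMap.trace k W (σ y) = 0
    have : LinearMap.trace k W (σ y) = 1 := by
      change LinearMap.trace k W (1 : W →ₗ[k] W) = 1
      rw [LinearMap.trace_one, hW1, Nat.cast_one]
    rw [this, htr' y]; ring) true
  exact one_ne_zero h1

/-- if all irreducible modules of the principal block are trivial, `p`-regular elements act trivially on
all of its modules. -/
theorem act_trivial {b : MonoidAlgebra k G}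
    (hall : ∀ (V : Type w) [AddCommGroup V] [Module k V] [FiniteDimensional k V]
      (ρ : Representation k G V), Irr ρ → act ρ b = LinearMap.id → ∀ g, ρ g = 1)
    {x : G} (hx : ¬ p ∣ orderOf x) :
    ∀ (n : ℕ) (V : Type w) [AddCommGroup V] [Module k V] [FiniteDimensional k V]
      (ρ : Representation k G V), Module.finrank k V = n → act ρ b = LinearMap.id → ρ x = 1 := by
  intro n
  induction n using Nat.strong_induction_on with
  | _ n ih =>
  intro V _ _ _ ρ hn hact
  by_cases h0 : ∃ v : V, v ≠ 0
  swap
  · push Not at h0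
    ext v
    rw [h0 (ρ x v), h0 ((1 : V →ₗ[k] V) v)]
  by_cases hirr : ∀ N : Submodule k V, Stable ρ N → N = ⊥ ∨ N = ⊤
  · exact hall V ρ ⟨h0, hirr⟩ hact x
  push Not at hirr
  obtain ⟨N, hN, hN0, hN1⟩ := hirr
  have hsub : subRep ρ N hN x = 1 := by
    refine ih (Module.finrank k N) ?_ N (subRep ρ N hN) rfl ?_
    · rw [← hn]; exact Submodule.finrank_lt hN1
    · ext v
      rw [act_subRep_coe, hact]; rfl
  have hquot : quotRep ρ N hN x = 1 := by
    refine ih (Module.finrank k (V ⧸ N)) ?_ (V ⧸ N) (quotRep ρ N hN) rfl ?_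
    · rw [← hn]
      have h2 := Submodule.finrank_quotient_add_finrank N
      have h3 : 0 < Module.finrank k N := by
        rw [Module.finrank_pos_iff]
        exact (Submodule.nontrivial_iff_ne_bot).2 hN0
      omega
    · ext v
      simp only [LinearMap.comp_apply, Submodule.mkQ_apply]
      rw [act_quotRep_mk, hact]; rfl
  set D : V →ₗ[k] V := ρ x - 1 with hD
  have hD1 : ∀ v, D v ∈ N := by
    intro v
    have := LinearMap.congr_fun hquot (Submodule.Quotient.mk v)
    rw [quotRep_mk] at this
    exact (Submodule.Quotient.eq N).1 this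
  have hD2 : ∀ v ∈ N, D v = 0 := by
    intro v hv
    have := congrArg Subtype.val (LinearMap.congr_fun hsub ⟨v, hv⟩)
    rw [subRep_coe] at this
    rw [hD, LinearMap.sub_apply, this]
    exact sub_self _
  have hDD : D * D = 0 := by
    ext v
    exact hD2 _ (hD1 v)
  have hpow : ∀ m : ℕ, (ρ x) ^ m = 1 + (m : k) • D := by
    intro m
    have hx1 : ρ x = 1 + D := by rw [hD]; abel
    induction m with
    | zero => simp
    | succ m ihm =>
      rw [pow_succ, ihm, hx1, add_mul, mul_add, mul_add, smul_mul_assoc, smul_mul_assoc, hDD,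
        one_mul, one_mul, mul_one, smul_zero, Nat.cast_succ, add_smul, one_smul]
      abel
  have h1 := hpow (orderOf x)
  rw [← map_pow, pow_orderOf_eq_one, map_one] at h1
  have h2 : ((orderOf x : ℕ) : k) ≠ 0 := by rwa [Ne, CharP.cast_eq_zero_iff k p]
  have h3 : D = 0 := by
    have h4 : ((orderOf x : ℕ) : k) • D = 0 := by
      have h5 : (1 : V →ₗ[k] V) + 0 = 1 + ((orderOf x : ℕ) : k) • D := by rw [add_zero]; exact h1
      exact (add_left_cancel h5).symm
    exact (smul_eq_zero.1 h4).resolve_left h2
  rw [hD] at h3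
  exact sub_eq_zero.1 h3

end reps

/-- **local criterion**: if every `p`-regular element lies in a normal `p'`-subgroup of the centralizer of a
`p`-subgroup, the group has a normal `p`-complement. -/
theorem hasNPC_of_local {G : Type u} [Group G] [Finite G] (p : ℕ) [Fact p.Prime]
    (h : ∀ x : G, ¬ p ∣ orderOf x → ∃ Q K : Subgroup G, IsPGroup p Q ∧
      K ≤ Subgroup.centralizer (Q : Set G) ∧
      (∀ c ∈ Subgroup.centralizer (Q : Set G), ∀ y ∈ K, c * y * c⁻¹ ∈ K) ∧
      ¬ p ∣ Nat.card K ∧ x ∈ K) : HasNormalPComplement p G := by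
  classical
  haveI := Fintype.ofFinite G
  let k := AlgebraicClosure (ZMod p)
  haveI : CharP k p := inferInstance
  obtain ⟨b, hb, hb1⟩ := exists_prin k (⊤ : Subgroup G)
  have hirr : ∀ (V : Type u) [AddCommGroup V] [Module k V] [FiniteDimensional k V]
      (ρ : Representation k G V), Irr ρ → act ρ b = LinearMap.id → ∀ g, ρ g = 1 := by
    intro V _ _ _ ρ hρ hact g
    refine irr_trivial (p := p) ρ hρ (fun x hx => ?_) g
    obtain ⟨Q, K, hQ, hKC, hKn, hKp, hxK⟩ := h x hx
    exact trace_const ρ hb hb1 hact hQ hKC hKn hKp hxK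
  -- the left ideal generated by `b`
  let A := MonoidAlgebra k G
  let L : Representation k G A :=
    { toFun := fun g => LinearMap.mulLeft k (single g (1 : k) : A)
      map_one' := by
        refine LinearMap.ext fun a => ?_
        change single 1 (1 : k) * a = a
        rw [← one_def, one_mul]
      map_mul' := by
        intro g h
        refine LinearMap.ext fun a => ?_
        change single (g * h) (1 : k) * a = single g 1 * (single h 1 * a)
        rw [← mul_assoc, single_mul_single, mul_one] }
  have hLact : ∀ z a : A, act L z a = z * a := by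
    intro z a
    have hz : z = ∑ g : G, z.coeff g • single g (1 : k) := by
      apply ga_ext; intro g
      rw [coeff_sum, Finset.sum_apply']
      simp [coeff_single, Finsupp.single_apply]
    rw [act_apply]
    conv_rhs => rw [hz, Finset.sum_mul]
    exact Finset.sum_congr rfl fun g _ => (smul_mul_assoc _ _ _).symm
  have hbc : ∀ a : A, b * a = a * b := fun a =>
    (show InZ ⊤ b from ⟨hb.supp, hb.fixed⟩).comm (supp_top a)
  let N : Submodule k A :=
    { carrier := {a | b * a = a}
      add_mem' := by
        intro a c ha hc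
        change b * (a + c) = a + c
        rw [mul_add, ha, hc]
      zero_mem' := mul_zero b
      smul_mem' := by
        intro c a ha
        change b * (c • a) = c • a
        rw [mul_smul_comm, ha] }
  have hN : Stable L N := by
    intro g a ha
    change b * (single g 1 * a) = single g 1 * a
    rw [← mul_assoc, hbc, mul_assoc]
    congr 1
  have hbN : b ∈ N := hb.idem
  have hfix : ∀ x : G, ¬ p ∣ orderOf x → (single x (1 : k) : A) * b = b := by
    intro x hx
    have h1 := act_trivial (p := p) (b := b) hirr hx _ N (subRep L N hN) rfl (by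
      refine LinearMap.ext fun v => Subtype.ext ?_
      rw [act_subRep_coe, hLact]
      exact v.2)
    exact congrArg Subtype.val (LinearMap.congr_fun h1 ⟨b, hbN⟩)
  let T : Subgroup G :=
    { carrier := {g | (single g (1 : k) : A) * b = b}
      mul_mem' := by
        intro x y hx hy
        change single (x * y) (1 : k) * b = b
        have : (single (x * y) (1 : k) : A) = single x 1 * single y 1 := by
          rw [single_mul_single, mul_one]
        rw [this, mul_assoc, hy, hx]
      one_mem' := by
        change single 1 (1 : k) * b = b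
        rw [← one_def, one_mul]
      inv_mem' := by
        intro x hx
        change single x⁻¹ (1 : k) * b = b
        have hx' : (single x (1 : k) : A) * b = b := hx
        have h1 : (single x⁻¹ (1 : k) : A) * single x 1 = 1 := by
          rw [single_mul_single, mul_one, inv_mul_cancel, one_def]
        calc (single x⁻¹ (1 : k) : A) * b = single x⁻¹ 1 * (single x 1 * b) := by rw [hx']
          _ = b := by rw [← mul_assoc, h1, one_mul] }
  rw [Cfsg.Agent.Transfer.hasNPC_iff_mul]
  intro x y hx hy
  have hcop : ∀ z : G, (orderOf z).Coprime p ↔ ¬ p ∣ orderOf z := fun z =>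
    Nat.coprime_comm.trans (Nat.Prime.coprime_iff_not_dvd Fact.out)
  rw [hcop] at hx hy ⊢
  intro hd
  have hxy : x * y ∈ T := T.mul_mem (hfix x hx) (hfix y hy)
  obtain ⟨m, hm⟩ := hd
  have hm0 : m ≠ 0 := by
    rintro rfl
    rw [mul_zero] at hm
    exact (orderOf_pos (x * y)).ne' hm
  set g := (x * y) ^ m with hg
  have hgT : g ∈ T := T.pow_mem hxy m
  have hgo : orderOf g = p := by
    rw [hg, orderOf_pow_of_dvd hm0 (by rw [hm]; exact dvd_mul_left _ _), hm]
    exact Nat.mul_div_cancel _ (Nat.pos_of_ne_zero hm0)
  have hP : IsPGroup p (Subgroup.zpowers g) := by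
    rw [IsPGroup.iff_card]
    exact ⟨1, by rw [Nat.card_zpowers, hgo, pow_one]⟩
  have hcoef : ∀ u ∈ Subgroup.zpowers g, ∀ c : G, b.coeff (u * c) = b.coeff c := by
    intro u hu c
    have hu' : u ∈ T := (Subgroup.zpowers_le.2 hgT) hu
    have : (single u (1 : k) : A) * b = b := hu'
    conv_lhs => rw [← this]
    rw [coeff_single_mul_apply, one_mul, inv_mul_cancel_left]
  have h1 := sum_eq_sum_fixed (k := k) hP (X := G) (fun c => b.coeff c) (by
    intro u c
    exact hcoef u u.2 c)
  have h2 : aug b = 0 := by
    rw [aug_eq]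
    refine h1.trans (Finset.sum_eq_zero fun c hc => ?_)
    exfalso
    have := ((@Finset.mem_filter _ _ (_) _ _).1 hc).2 ⟨g, Subgroup.mem_zpowers g⟩
    have h3 : g * c = c := this
    have h4 : g = 1 := by simpa using h3
    rw [h4, orderOf_one] at hgo
    exact (Fact.out : p.Prime).one_lt.ne hgo
  rw [hb1] at h2
  exact one_ne_zero h2

/-- version with normal `p`-complements of centralizers. -/
theorem hasNPC_of_centralizers {G : Type u} [Group G] [Finite G] (p : ℕ) [Fact p.Prime]
    (h : ∀ x : G, ¬ p ∣ orderOf x → ∃ Q : Subgroup G, IsPGroup p Q ∧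
      x ∈ Subgroup.centralizer (Q : Set G) ∧
      HasNormalPComplement p ↥(Subgroup.centralizer (Q : Set G))) : HasNormalPComplement p G := by
  refine hasNPC_of_local p fun x hx => ?_
  obtain ⟨Q, hQ, hxC, hC⟩ := h x hx
  obtain ⟨N, hN, hN1, m, hN2⟩ := Cfsg.Agent.Transfer.hasNPC_iff_exists.1 hC
  refine ⟨Q, N.map (Subgroup.centralizer (Q : Set G)).subtype, hQ, ?_, ?_, ?_, ?_⟩
  · rintro _ ⟨y, -, rfl⟩; exact y.2
  · rintro c hc _ ⟨y, hy, rfl⟩
    exact ⟨⟨c, hc⟩ * y * ⟨c, hc⟩⁻¹, hN.conj_mem y hy _, rfl⟩
  · rw [Subgroup.card_map_of_injective (Subgroup.subtype_injective _)]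
    exact (Nat.Prime.coprime_iff_not_dvd Fact.out).1 hN1.symm
  · refine ⟨⟨x, hxC⟩, ?_, rfl⟩
    rw [SetLike.mem_coe, Cfsg.Agent.Transfer.mem_iff_coprime_of_card_of_index hN1 hN2,
      ← Subgroup.orderOf_coe]
    exact (Nat.Prime.coprime_iff_not_dvd Fact.out).2 hx |>.symm

end Cfsg.Agent.H75.LocNPC
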