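import Cfsg.Agent.Blk.Orth2

/-!
# Two primes (owner: helper75)
-/

set_option autoImplicit false
set_option linter.style.haveILetI false
set_option linter.unusedSectionVars false

namespace Cfsg.Agent.H75

open scoped ComplexConjugate
open Cfsg Cfsg.Agent.CharBase Cfsg.Agent.Blk

universe u

section

variable {G : Type u} [Group G] [Fintype G] {M : Ideal AlgInt} {p : ℕ}

/-- composition of block kernels -/
theorem blockKernel_comp (B B' : Set (IrrCharacter G)) (x y : G) :
    ∑ z : G, blockKernel B x z * blockKernel B' z y = (Nat.card G : ℂ) * blockKernel (B ∩ B') x y := by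
  classical
  have := Fintype.ofFinite (IrrCharacter G)
  have h1 : ∀ z : G, blockKernel B x z * blockKernel B' z y =
      ∑ ψ : IrrCharacter G, if ψ ∈ B' then
        conj ((ψ : G → ℂ) y) * (blockKernel B x z * (ψ : G → ℂ) z) else 0 := by
    intro z
    rw [show blockKernel B' z y = ∑ ψ : IrrCharacter G, if ψ ∈ B' then
      (ψ : G → ℂ) z * conj ((ψ : G → ℂ) y) else 0 from finsum_mem_eq_sum_ite _ _, Finset.mul_sum]
    refine Finset.sum_congr rfl fun ψ _ => ?_
    split_ifs
    · ring
    · simp
  rw [Finset.sum_congr rfl fun z _ => h1 z, Finset.sum_comm,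
    show blockKernel (B ∩ B') x y = ∑ ψ : IrrCharacter G, if ψ ∈ B ∩ B' then
      (ψ : G → ℂ) x * conj ((ψ : G → ℂ) y) else 0 from finsum_mem_eq_sum_ite _ _, Finset.mul_sum]
  refine Finset.sum_congr rfl fun ψ _ => ?_
  by_cases h : ψ ∈ B'
  · simp only [if_pos h]
    rw [← Finset.mul_sum, sum_blockKernel_mul]
    by_cases h' : ψ ∈ B
    · rw [if_pos h', if_pos ⟨h', h⟩]; ring
    · rw [if_neg h', if_neg (fun h'' => h' h''.1)]; simp
  · simp only [if_neg h, Finset.sum_const_zero]
    rw [if_neg (fun h'' => h h''.2), mul_zero]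

/-- symmetric form of weak block orthogonality -/
theorem blockKernel_eq_zero' (hM : IsPModular p M) {B : Set (IrrCharacter G)}
    (hB : IsPBlock M B) {x y : G} (hx : p ∣ orderOf x) (hy : ¬ p ∣ orderOf y) :
    blockKernel B x y = 0 := by
  rw [← conj_blockKernel, blockKernel_eq_zero hM hB hy hx, map_zero]

end

end Cfsg.Agent.H75
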