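import Cfsg.Agent.H75.Tools
import Cfsg.Agent.H75.Inflate
import Cfsg.Agent.H75.ItoConv
import Cfsg.Agent.Coh.DegBound
import Cfsg.Agent.Char.Gallagher
import Cfsg.Agent.Char.AvgN
import Cfsg.Agent.Solv.Core
import Cfsg.Agent.Solv.Frattini
import Cfsg.Agent.Solv.MinNormal
import Cfsg.Agent.Cop.Basic

/-!
# Broline's theorem on kernels of characters, Garrison's bound on the nilpotent length
(owner: helper75)
-/

set_option autoImplicit false
set_option linter.style.haveILetI false
set_option linter.unusedSectionVars false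

namespace Cfsg.Agent.H75

open scoped ComplexConjugate commutatorElement Pointwise
open Cfsg Cfsg.Agent.CharBase

universe u

variable {G : Type u} [Group G]

theorem eq_of_constituent_of_deg [Fintype G] {φ θ : G → ℂ} (hφ : IsCharacter G φ)
    (hθ : IsIrrCharacter G θ) (h : classInner φ θ ≠ 0) (h1 : φ 1 = θ 1) : φ = θ := by
  classical
  have : Fintype (IrrCharacter G) := Fintype.ofFinite _
  obtain ⟨m, hm, hsum⟩ := exists_mult_of_isCharacter hφ
  have hmθ : 1 ≤ m ⟨θ, hθ⟩ := by
    have h2 := hm ⟨θ, hθ⟩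
    simp only at h2
    rw [h2] at h
    exact Nat.one_le_iff_ne_zero.mpr (by exact_mod_cast h)
  have hd : ∑ ψ : IrrCharacter G, m ψ * deg ψ = deg ⟨θ, hθ⟩ := by
    have h3 : φ 1 = ∑ ψ : IrrCharacter G, ((m ψ * deg ψ : ℕ) : ℂ) := by
      conv_lhs => rw [hsum]
      simp only [Finset.sum_apply, Pi.smul_apply]
      refine Finset.sum_congr rfl fun ψ _ => ?_
      rw [deg_spec, nsmul_eq_mul]; push_cast; rfl
    have h4 : θ 1 = (deg ⟨θ, hθ⟩ : ℂ) := deg_spec (⟨θ, hθ⟩ : IrrCharacter G)
    rw [h1, h4, ← Nat.cast_sum] at h3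
    exact_mod_cast h3.symm
  have hpos := deg_pos (⟨θ, hθ⟩ : IrrCharacter G)
  rw [← Finset.add_sum_erase _ _ (Finset.mem_univ (⟨θ, hθ⟩ : IrrCharacter G))] at hd
  have h5 : m ⟨θ, hθ⟩ = 1 := by
    by_contra hne
    have : 2 ≤ m ⟨θ, hθ⟩ := by omega
    nlinarith [Nat.zero_le (∑ x ∈ Finset.univ.erase (⟨θ, hθ⟩ : IrrCharacter G), m x * deg x)]
  rw [h5, one_mul] at hd
  have h6 : ∑ x ∈ Finset.univ.erase (⟨θ, hθ⟩ : IrrCharacter G), m x * deg x = 0 := by omega
  rw [Finset.sum_eq_zero_iff] at h6
  rw [hsum, ← Finset.add_sum_erase _ _ (Finset.mem_univ (⟨θ, hθ⟩ : IrrCharacter G)), h5, one_smul,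
    Finset.sum_eq_zero, add_zero]
  intro ψ hψ
  have h7 := h6 ψ hψ
  have h8 : m ψ = 0 := (Nat.mul_eq_zero.mp h7).resolve_right (deg_pos ψ).ne'
  rw [h8, zero_smul]

theorem restrict_irr_of_sup [Finite G] (H K : Subgroup G) [K.Normal] (hKH : K ⊔ H = ⊤)
    {χ : G → ℂ} (hχ : IsIrrCharacter G χ) (hK : ∀ k ∈ K, χ k = χ 1) :
    IsIrrCharacter H (fun h : H => χ h) := by
  obtain ⟨χ', hχ', he⟩ := exists_deflate_irr K hχ hK
  have hs : Function.Surjective ((QuotientGroup.mk' K).comp H.subtype) := by
    intro y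
    obtain ⟨g, rfl⟩ := QuotientGroup.mk'_surjective K y
    have hg : g ∈ K ⊔ H := by rw [hKH]; trivial
    rw [Subgroup.mem_sup_of_normal_left] at hg
    obtain ⟨k, hk, h, hh, rfl⟩ := hg
    refine ⟨⟨h, hh⟩, ?_⟩
    change QuotientGroup.mk' K h = _
    rw [map_mul]
    have : QuotientGroup.mk' K k = 1 := by
      rw [QuotientGroup.mk'_apply, QuotientGroup.eq_one_iff]; exact hk
    rw [this, one_mul]
  have h1 := isIrrCharacter_comp_surjective hχ' _ hs
  have h2 : (fun h : H => χ h) = χ' ∘ ((QuotientGroup.mk' K).comp H.subtype) := by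
    funext h
    exact (he h).symm
  rw [h2]; exact h1

/-- The key step in Broline's theorem. -/
theorem broline_aux [Fintype G] (χ : IrrCharacter G) (K : Subgroup G) [K.Normal]
    (hK : ∀ g : G, g ∈ K ↔ (χ : G → ℂ) g = (χ : G → ℂ) 1) (H : Subgroup G) (hH : IsCoatom H)
    (hKH : K ⊔ H = ⊤) :
    (∃ ψ : IrrCharacter G, deg χ < deg ψ ∧ ∃ L : Subgroup G,
      (∀ g : G, g ∈ L ↔ (ψ : G → ℂ) g = (ψ : G → ℂ) 1) ∧ L < K) ∨
    ∀ h ∈ H, (χ : G → ℂ) h ≠ 0 → h ∈ H.normalCore := by
  classical
  haveI := Fintype.ofFinite (IrrCharacter G)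
  have hθ : IsIrrCharacter H (fun h : H => (χ : G → ℂ) h) :=
    restrict_irr_of_sup H K hKH χ.2 (fun k hk => (hK k).mp hk)
  have hKnH : ¬ K ≤ H := fun h => hH.1 (by rw [← hKH]; exact (sup_eq_right.mpr h).symm)
  by_cases hex : ∃ ψ : IrrCharacter G, classInner (fun h : H => (ψ : G → ℂ) h)
      (fun h : H => (χ : G → ℂ) h) ≠ 0 ∧ deg χ < deg ψ
  · obtain ⟨ψ, hψ1, hψ2⟩ := hex
    left
    obtain ⟨L, hLn, hLmem⟩ : ∃ L : Subgroup G, L.Normal ∧
        ∀ g : G, g ∈ L ↔ (ψ : G → ℂ) g = (ψ : G → ℂ) 1 :=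
      ⟨charKer (irr_isCharacter ψ), charKer_normal _, fun g => mem_charKer (irr_isCharacter ψ) g⟩
    have hLH : L ≤ H := by
      by_contra hc
      have hsup : L ⊔ H = ⊤ := by
        rcases hH.le_iff.mp (le_sup_right : H ≤ L ⊔ H) with h | h
        · exact h
        · exact absurd (h ▸ le_sup_left) hc
      have h1 := restrict_irr_of_sup H L hsup ψ.2 (fun k hk => (hLmem k).mp hk)
      have h2 : (fun h : H => (ψ : G → ℂ) h) = fun h : H => (χ : G → ℂ) h :=
        Char.eq_of_classInner_ne_zero h1 hθ hψ1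
      have h3 := congrFun h2 1
      simp only [Subgroup.coe_one] at h3
      rw [deg_spec, deg_spec] at h3
      have : deg ψ = deg χ := by exact_mod_cast h3
      omega
    refine ⟨ψ, hψ2, L, hLmem, ?_⟩
    have hLK : L ≤ K := by
      intro g hg
      rw [hK]
      have h1 := (hLmem g).mp hg
      have h2 : (fun h : H => (ψ : G → ℂ) h) ⟨g, hLH hg⟩ = (fun h : H => (ψ : G → ℂ) h) 1 := by
        simp only [Subgroup.coe_one]; exact h1
      have h3 := Coh.ker_of_constituent (isCharacter_restrict (irr_isCharacter ψ) H) hθ hψ1 h2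
      simp only [Subgroup.coe_one] at h3
      exact h3
    refine lt_of_le_of_ne hLK fun h => hKnH (h ▸ hLH)
  · right
    push Not at hex
    have hge : ∀ ψ : IrrCharacter G, classInner (fun h : H => (ψ : G → ℂ) h)
        (fun h : H => (χ : G → ℂ) h) ≠ 0 → (fun h : H => (ψ : G → ℂ) h) = fun h : H => (χ : G → ℂ) h := by
      intro ψ hψ
      refine eq_of_constituent_of_deg (isCharacter_restrict (irr_isCharacter ψ) H) hθ hψ ?_
      have h1 := deg_le_of_constituent (isCharacter_restrict (irr_isCharacter ψ) H)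
        (n := deg ψ) (by simp only [Subgroup.coe_one]; exact deg_spec ψ) ⟨_, hθ⟩ hψ
      have h2 : deg (⟨_, hθ⟩ : IrrCharacter H) = deg χ := by
        have e1 := deg_spec (⟨_, hθ⟩ : IrrCharacter H)
        simp only [Subgroup.coe_one] at e1
        rw [deg_spec] at e1
        exact_mod_cast e1.symm
      rw [h2] at h1
      have h3 := hex ψ hψ
      simp only [Subgroup.coe_one]
      rw [deg_spec, deg_spec, le_antisymm h3 h1]
    -- the induced character
    set Θ : G → ℂ := indFun H (fun h : H => (χ : G → ℂ) h) with hΘ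
    have hΘcl : IsClassFunction G Θ := Char.indFun_isClassFunction H _
    have hcoef : ∀ ψ : IrrCharacter G, classInner Θ (ψ : G → ℂ) =
        classInner (fun h : H => (χ : G → ℂ) h) (fun h : H => (ψ : G → ℂ) h) := fun ψ =>
      Char.frobenius_reciprocity H _ _ (irr_isClassFunction ψ)
    have hval : ∀ h : H, Θ h = (∑ ψ : IrrCharacter G, classInner Θ (ψ : G → ℂ)) * (χ : G → ℂ) h := by
      intro h
      rw [classFun_apply_eq_sum hΘcl (h : G), Finset.sum_mul]
      refine Finset.sum_congr rfl fun ψ _ => ?_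
      by_cases h0 : classInner Θ (ψ : G → ℂ) = 0
      · rw [h0, zero_mul, zero_mul]
      · congr 1
        have h1 : classInner (fun h : H => (ψ : G → ℂ) h) (fun h : H => (χ : G → ℂ) h) ≠ 0 := by
          rw [Char.classInner_conj_symm]
          rw [hcoef] at h0
          intro hc
          exact h0 ((map_eq_zero _).mp hc)
        exact congrFun (hge ψ h1) h
    have hχ1 : (χ : G → ℂ) 1 ≠ 0 := irr_one_ne_zero χ.2
    have hn : (∑ ψ : IrrCharacter G, classInner Θ (ψ : G → ℂ)) = H.index := by
      have h1 := hval 1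
      have h2 := Char.indFun_one_apply H (fun h : H => (χ : G → ℂ) h)
      simp only [Subgroup.coe_one] at h1 h2
      rw [← hΘ, h1] at h2
      exact mul_right_cancel₀ hχ1 h2
    intro h hh hne
    have h1 := hval ⟨h, hh⟩
    rw [hn] at h1
    have hmul : Θ h = (χ : G → ℂ) h * indFun H (fun _ : H => (1 : ℂ)) h := by
      have h2 := Char.indFun_mul_restrict H (fun _ : H => (1 : ℂ)) (χ : G → ℂ) (irr_isClassFunction χ)
      simp only [one_mul] at h2
      rw [hΘ, h2]; ring
    simp only at h1
    rw [hmul, mul_comm] at h1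
    have h3 : indFun H (fun _ : H => (1 : ℂ)) h = H.index := mul_right_cancel₀ hne h1
    -- all conjugates of h are in H
    have h4 : (∑ x : G, extendByZero H (fun _ : H => (1 : ℂ)) (x⁻¹ * h * x)) = Nat.card G := by
      have h5 : (Nat.card H : ℂ) ≠ 0 := Char.card_ne_zero_complex H
      unfold indFun at h3
      have h6 : (∑ x : G, extendByZero H (fun _ : H => (1 : ℂ)) (x⁻¹ * h * x)) =
          (Nat.card H : ℂ) * H.index := by
        rw [← h3, ← mul_assoc, mul_inv_cancel₀ h5, one_mul]
      rw [h6, ← Nat.cast_mul, H.card_mul_index]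
    have h7 : (Finset.univ.filter (fun x : G => x⁻¹ * h * x ∈ H)).card = Fintype.card G := by
      have h8 : (∑ x : G, extendByZero H (fun _ : H => (1 : ℂ)) (x⁻¹ * h * x)) =
          ((Finset.univ.filter (fun x : G => x⁻¹ * h * x ∈ H)).card : ℂ) := by
        rw [Finset.card_filter]
        push_cast
        refine Finset.sum_congr rfl fun x _ => ?_
        split_ifs with hx
        · rw [Char.extendByZero_of_mem H _ hx]
        · rw [Char.extendByZero_of_notMem H _ hx]
      rw [h8, Nat.card_eq_fintype_card] at h4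
      exact_mod_cast h4
    have h9 : ∀ x : G, x⁻¹ * h * x ∈ H := by
      intro x
      have h10 : Finset.univ.filter (fun x : G => x⁻¹ * h * x ∈ H) = Finset.univ := by
        rw [← Finset.card_eq_iff_eq_univ]; exact h7
      have := Finset.mem_univ x
      rw [← h10, Finset.mem_filter] at this
      exact this.2
    intro b
    have := h9 b⁻¹
    simpa using this

theorem frattini_mid [Finite G] {K M : Subgroup G} [M.Normal] (hMK : M ≤ K) {p : ℕ} [Fact p.Prime]
    (P : Sylow p K) (hP : (P : Subgroup K).map K.subtype ≤ M) :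
    Subgroup.normalizer (((P : Subgroup K).map K.subtype : Subgroup G) : Set G) ⊔ M = ⊤ := by
  have h1 : Nat.card ((P : Subgroup K).map K.subtype) = p ^ (Nat.card K).factorization p := by
    rw [Cop.card_map_subtype, Sylow.card_eq_multiplicity]
  have h2 : (Nat.card K).factorization p = (Nat.card M).factorization p := by
    apply le_antisymm
    · have h3 := Subgroup.card_dvd_of_le hP
      rw [h1] at h3
      exact ((Fact.out : p.Prime).pow_dvd_iff_le_factorization Nat.card_pos.ne').mp h3
    · exact (Nat.factorization_le_iff_dvd Nat.card_pos.ne' Nat.card_pos.ne').mpr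
        (Subgroup.card_dvd_of_le hMK) p
  obtain ⟨P', hP'⟩ := Cop.exists_sylow_map_eq hP (by rw [h1, h2])
  rw [← hP']
  exact Sylow.normalizer_sup_eq_top P'

theorem exists_nonnormal_sylow [Finite G] (M : Subgroup G) (hM : ¬ Group.IsNilpotent M) :
    ∃ p : ℕ, ∃ _ : Fact p.Prime, ∃ P : Sylow p M, ¬ ((P : Subgroup M).map M.subtype).Normal := by
  by_contra hcon
  push Not at hcon
  apply hM
  refine ((Group.isNilpotent_of_finite_tfae (G := M)).out 0 3).mpr ?_
  intro p hp P
  have h1 := hcon p hp P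
  have h2 : (P : Subgroup M) = ((P : Subgroup M).map M.subtype).comap M.subtype :=
    (Subgroup.comap_map_eq_self_of_injective M.subtype_injective _).symm
  rw [h2]
  infer_instance

theorem broline [Fintype G] (χ : IrrCharacter G) (K : Subgroup G) [hKn : K.Normal]
    (hK : ∀ g : G, g ∈ K ↔ (χ : G → ℂ) g = (χ : G → ℂ) 1)
    (h : ¬ K ≤ fittingSubgroup G ∨ (K = fittingSubgroup G ∧ Group.IsSolvable (G ⧸ K) ∧ K ≠ ⊤)) :
    ∃ ψ : IrrCharacter G, deg χ < deg ψ ∧ ∃ L : Subgroup G,
      (∀ g : G, g ∈ L ↔ (ψ : G → ℂ) g = (ψ : G → ℂ) 1) ∧ L < K := by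
  classical
  by_contra hcon
  have hχ1 : (χ : G → ℂ) 1 ≠ 0 := irr_one_ne_zero χ.2
  rcases h with h | ⟨h, hs, hKt⟩
  · have hnil : ¬ Group.IsNilpotent K := fun hn => h (le_sSup ⟨hKn, hn⟩)
    obtain ⟨p, hp, P, hP⟩ := exists_nonnormal_sylow K hnil
    have hne : Subgroup.normalizer (((P : Subgroup K).map K.subtype : Subgroup G) : Set G) ≠ ⊤ :=
      fun h => hP (Subgroup.normalizer_eq_top_iff.mp h)
    obtain ⟨H, hH, hle⟩ := (eq_top_or_exists_le_coatom _).resolve_left hne
    have hfr := Sylow.normalizer_sup_eq_top P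
    have hKH : K ⊔ H = ⊤ := by
      rw [eq_top_iff, ← hfr]
      exact sup_le (hle.trans le_sup_right) le_sup_left
    have hb := (broline_aux χ K hK H hH hKH).resolve_left hcon
    have hPH : (P : Subgroup K).map K.subtype ≤ H := Subgroup.le_normalizer.trans hle
    have hPK : (P : Subgroup K).map K.subtype ≤ K := Subgroup.map_subtype_le _
    have hPM : (P : Subgroup K).map K.subtype ≤ K ⊓ H.normalCore := by
      intro x hx
      refine ⟨hPK hx, hb x (hPH hx) ?_⟩
      rw [(hK x).mp (hPK hx)]; exact hχ1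
    have h2 := frattini_mid (M := K ⊓ H.normalCore) inf_le_left P hPM
    apply hH.1
    rw [eq_top_iff, ← h2]
    exact sup_le hle (inf_le_right.trans H.normalCore_le)
  · -- choose a chief factor above K
    have hKnil : Group.IsNilpotent K := by rw [h]; exact Solv.fitting_isNilpotent
    haveI hnt : Nontrivial (G ⧸ K) := by
      rw [← Finite.one_lt_card_iff_nontrivial, ← Subgroup.index_eq_card]
      have h1 : K.index ≠ 1 := fun h => hKt (Subgroup.index_eq_one.mp h)
      have h2 : K.index ≠ 0 := Subgroup.index_ne_zero_of_finite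
      omega
    obtain ⟨N, ⟨hNn, hN0⟩, hNmin⟩ : ∃ N : Subgroup (G ⧸ K), (N.Normal ∧ N ≠ ⊥) ∧
        ∀ N' : Subgroup (G ⧸ K), N'.Normal → N' ≤ N → N' = ⊥ ∨ N' = N := by
      obtain ⟨N, hN, hmin⟩ := (Set.toFinite {N : Subgroup (G ⧸ K) | N.Normal ∧ N ≠ ⊥}).exists_minimal
        ⟨⊤, inferInstance, top_ne_bot⟩
      refine ⟨N, hN, fun N' hN'n hN'le => ?_⟩
      by_cases h0 : N' = ⊥
      · exact Or.inl h0
      · exact Or.inr (le_antisymm hN'le (hmin ⟨hN'n, h0⟩ hN'le))
    have hNsolv : Group.IsSolvable N := inferInstance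
    obtain ⟨q, hq, hqN⟩ := Solv.minimal_normal_isPGroup N hNsolv hN0 hNmin
    haveI := Fact.mk hq
    set M : Subgroup G := N.comap (QuotientGroup.mk' K) with hM
    haveI hMn : M.Normal := by rw [hM]; infer_instance
    have hKM : K ≤ M := by
      intro x hx
      rw [hM, Subgroup.mem_comap, QuotientGroup.mk'_apply, (QuotientGroup.eq_one_iff x).mpr hx]
      exact one_mem _
    have hKneM : K ≠ M := by
      intro h1
      apply hN0
      rw [eq_bot_iff]
      intro y hy
      obtain ⟨x, rfl⟩ := QuotientGroup.mk'_surjective K y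
      have : x ∈ M := hy
      rw [← h1] at this
      rw [Subgroup.mem_bot, QuotientGroup.mk'_apply, QuotientGroup.eq_one_iff]
      exact this
    have hMmin : ∀ N' : Subgroup G, N'.Normal → K ≤ N' → N' ≤ M → N' = K ∨ N' = M := by
      intro N' hN' h1 h2
      have h3 : (N'.map (QuotientGroup.mk' K)).comap (QuotientGroup.mk' K) = N' := by
        rw [Subgroup.comap_map_eq, QuotientGroup.ker_mk', sup_eq_left.mpr h1]
      rcases hNmin (N'.map (QuotientGroup.mk' K)) (hN'.map _ (QuotientGroup.mk'_surjective K)) (by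
        rw [Subgroup.map_le_iff_le_comap]; exact h2) with h4 | h4
      · left
        rw [← h3, h4]
        ext x
        rw [Subgroup.mem_comap, Subgroup.mem_bot, QuotientGroup.mk'_apply, QuotientGroup.eq_one_iff]
      · right
        rw [← h3, h4]
    have hMq : ∀ x ∈ M, ∃ n, x ^ q ^ n ∈ K := by
      intro x hx
      obtain ⟨n, hn⟩ := hqN ⟨QuotientGroup.mk' K x, hx⟩
      refine ⟨n, ?_⟩
      have := congrArg Subtype.val hn
      simp only [SubmonoidClass.coe_pow, ← map_pow] at this
      rw [← QuotientGroup.eq_one_iff]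
      exact this
    have hMnil : ¬ Group.IsNilpotent M := fun hn => hKneM (le_antisymm hKM (by
      rw [h]; exact le_sSup ⟨hMn, hn⟩))
    obtain ⟨r, hr, Q, hQ⟩ := exists_nonnormal_sylow M hMnil
    have hQM : (Q : Subgroup M).map M.subtype ≤ M := Subgroup.map_subtype_le _
    have hrq : r = q := by
      by_contra hne
      apply hQ
      have hQK : (Q : Subgroup M).map M.subtype ≤ K := by
        rintro _ ⟨x, hx, rfl⟩
        obtain ⟨n, hn⟩ := hMq x x.2
        obtain ⟨j, hj⟩ := Q.2 ⟨x, hx⟩
        have hj' : (x : G) ^ r ^ j = 1 := by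
          have := congrArg (fun z : Q => ((z : M) : G)) hj
          simpa using this
        have hcop : Nat.Coprime (r ^ j) (q ^ n) := Nat.Coprime.pow _ _
          ((Nat.coprime_primes hr.out hq).mpr hne)
        have hb := Nat.gcd_eq_gcd_ab (r ^ j) (q ^ n)
        rw [hcop.gcd_eq_one] at hb
        have h1 : (x : G) = (x : G) ^ ((r ^ j : ℕ) * Nat.gcdA (r ^ j) (q ^ n) +
            (q ^ n : ℕ) * Nat.gcdB (r ^ j) (q ^ n) : ℤ) := by
          rw [← hb]; simp
        change (x : G) ∈ K
        rw [h1, zpow_add, zpow_mul, zpow_mul, zpow_natCast, zpow_natCast, hj', one_zpow, one_mul]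
        exact K.zpow_mem hn _
      have h1 : Nat.card ((Q : Subgroup M).map M.subtype) = r ^ (Nat.card M).factorization r := by
        rw [Cop.card_map_subtype, Sylow.card_eq_multiplicity]
      have h2 : (Nat.card M).factorization r = (Nat.card K).factorization r := by
        apply le_antisymm
        · have h3 := Subgroup.card_dvd_of_le hQK
          rw [h1] at h3
          exact (hr.out.pow_dvd_iff_le_factorization Nat.card_pos.ne').mp h3
        · exact (Nat.factorization_le_iff_dvd Nat.card_pos.ne' Nat.card_pos.ne').mpr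
            (Subgroup.card_dvd_of_le hKM) r
      obtain ⟨Q', hQ'⟩ := Cop.exists_sylow_map_eq hQK (by rw [h1, h2])
      have hQ'n : (Q' : Subgroup K).Normal := by
        have h5 : ∀ (p : ℕ) (_hp : Fact p.Prime) (P : Sylow p K), (↑P : Subgroup K).Normal :=
          ((Group.isNilpotent_of_finite_tfae (G := K)).out 0 3).mp hKnil
        exact h5 r hr Q'
      haveI : (Q' : Subgroup K).Characteristic := Q'.characteristic_of_normal hQ'n
      rw [← hQ']
      infer_instance
    subst hrq
    set Q1 : Subgroup G := (Q : Subgroup M).map M.subtype with hQ1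
    have hMKQ : K ⊔ Q1 = M := by
      have h1 : K.subgroupOf M ⊔ (Q : Subgroup M) = ⊤ := by
        rw [← Subgroup.index_eq_one]
        have h2 : (K.subgroupOf M ⊔ (Q : Subgroup M)).index ∣ (K.subgroupOf M).index :=
          Subgroup.index_dvd_of_le le_sup_left
        have h3 : (K.subgroupOf M ⊔ (Q : Subgroup M)).index ∣ (Q : Subgroup M).index :=
          Subgroup.index_dvd_of_le le_sup_right
        have h4 : IsPGroup r (M ⧸ K.subgroupOf M) := by
          intro y
          obtain ⟨x, rfl⟩ := QuotientGroup.mk_surjective y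
          obtain ⟨n, hn⟩ := hMq x x.2
          refine ⟨n, ?_⟩
          rw [← QuotientGroup.mk_pow, QuotientGroup.eq_one_iff, Subgroup.mem_subgroupOf]
          exact hn
        obtain ⟨k, hk⟩ := IsPGroup.iff_card.mp h4
        rw [← Subgroup.index_eq_card] at hk
        rw [hk] at h2
        have h5 : Nat.Coprime (r ^ k) (Q : Subgroup M).index :=
          Nat.Coprime.pow_left k ((Nat.Prime.coprime_iff_not_dvd hq).mpr Q.not_dvd_index)
        exact Nat.eq_one_of_dvd_coprimes h5 h2 h3
      have h2 := congrArg (Subgroup.map M.subtype) h1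
      rw [Subgroup.map_sup, Subgroup.subgroupOf_map_subtype, inf_of_le_left hKM,
        ← MonoidHom.range_eq_map, Subgroup.range_subtype] at h2
      exact h2
    have hne : Subgroup.normalizer (Q1 : Set G) ≠ ⊤ := fun h => hQ (Subgroup.normalizer_eq_top_iff.mp h)
    obtain ⟨H, hH, hle⟩ := (eq_top_or_exists_le_coatom _).resolve_left hne
    have hQH : Q1 ≤ H := Subgroup.le_normalizer.trans hle
    have hfr : Subgroup.normalizer (Q1 : Set G) ⊔ M = ⊤ := Sylow.normalizer_sup_eq_top Q
    have hKH : K ⊔ H = ⊤ := by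
      rw [eq_top_iff, ← hfr, ← hMKQ]
      exact sup_le (hle.trans le_sup_right) (sup_le le_sup_left (hQH.trans le_sup_right))
    have hb := (broline_aux χ K hK H hH hKH).resolve_left hcon
    have hKHC : K ⊓ H ≤ H.normalCore := by
      rintro x ⟨hx1, hx2⟩
      refine hb x hx2 ?_
      rw [(hK x).mp hx1]; exact hχ1
    have hQC : ¬ Q1 ≤ H.normalCore := by
      intro hc
      have h2 := frattini_mid (M := M ⊓ H.normalCore) inf_le_left Q (le_inf hQM hc)
      apply hH.1
      rw [eq_top_iff, ← h2]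
      exact sup_le hle (inf_le_right.trans H.normalCore_le)
    have hMC : M ⊓ H.normalCore ≤ K := by
      by_contra hc
      haveI : ((M ⊓ H.normalCore) ⊔ K).Normal := inferInstance
      rcases hMmin ((M ⊓ H.normalCore) ⊔ K) inferInstance le_sup_right
        (sup_le inf_le_left hKM) with h1 | h1
      · exact hc (le_sup_left.trans h1.le)
      · apply hQC
        intro x hx
        have hxM : x ∈ M := hQM hx
        rw [← h1, Subgroup.mem_sup_of_normal_left] at hxM
        obtain ⟨a, ha, k, hk, rfl⟩ := hxM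
        have h2 : k ∈ H := by
          have h3 : a ∈ H := H.normalCore_le ha.2
          have h4 := H.mul_mem (H.inv_mem h3) (hQH hx)
          simpa using h4
        exact mul_mem ha.2 (hKHC ⟨hk, h2⟩)
    have hvan : ∀ x ∈ M, x ∉ K → (χ : G → ℂ) x = 0 := by
      intro x hx hxK
      rw [← hMKQ, Subgroup.mem_sup_of_normal_left] at hx
      obtain ⟨k, hk, y, hy, rfl⟩ := hx
      have h1 : y ∉ K := fun hy' => hxK (mul_mem hk hy')
      have h2 : (χ : G → ℂ) (k * y) = (χ : G → ℂ) y :=
        char_mul_of_mem_ker (irr_isCharacter χ) ((hK k).mp hk) y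
      rw [h2]
      by_contra h3
      exact h1 (hMC ⟨hQM hy, hb y (hQH hy) h3⟩)
    have hin : classInner (fun n : M => (χ : G → ℂ) n) (fun _ => 1) ≠ 0 := by
      unfold classInner
      refine mul_ne_zero (inv_ne_zero (Char.card_ne_zero_complex M)) ?_
      have h1 : ∀ x : M, (χ : G → ℂ) x * conj (1 : ℂ) = if (x : G) ∈ K then (χ : G → ℂ) 1 else 0 := by
        intro x
        rw [map_one, mul_one]
        split_ifs with hx
        · exact (hK x).mp hx
        · exact hvan x x.2 hx
      simp only [h1]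
      rw [← Finset.sum_filter, Finset.sum_const, nsmul_eq_mul]
      refine mul_ne_zero ?_ hχ1
      rw [Nat.cast_ne_zero, ← Nat.pos_iff_ne_zero, Finset.card_pos]
      exact ⟨1, by simp [one_mem]⟩
    have hconst := Char.irr_const_of_classInner_ne_zero M χ.2 hin
    apply hKneM
    refine le_antisymm hKM fun x hx => ?_
    rw [hK]
    have h1 := hconst ⟨x, hx⟩ 1
    simpa using h1

end Cfsg.Agent.H75
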