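import Cfsg.Agent.H75.Frob
import Cfsg.Agent.Char.Galois

/-!
# Restriction of a character to a cyclic subgroup (owner: helper75)

`exists_count`: if `x ^ n = 1` then `χ (x ^ k) = ∑ j, c j ψ(j k)` with natural multiplicities `c`.
-/

set_option autoImplicit false
set_option linter.style.haveILetI false
set_option linter.unusedSectionVars false

namespace Cfsg.Agent.H75

open Cfsg Cfsg.Agent.CharBase
open scoped BigOperators ComplexConjugate
open ZMod (stdAddChar)

universe u

section

variable {n : ℕ} [NeZero n]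

theorem exists_stdAddChar {ω : ℂ} (h : ω ^ n = 1) : ∃ j : ZMod n, (stdAddChar j : ℂ) = ω := by
  have h1 : (stdAddChar (1 : ZMod n) : ℂ) = Complex.exp (2 * Real.pi * Complex.I / n) := by
    have := ZMod.stdAddChar_coe (N := n) 1
    simpa using this
  have h2 := Complex.isPrimitiveRoot_exp n (NeZero.ne n)
  obtain ⟨i, -, hi⟩ := h2.eq_pow_of_pow_eq_one h
  refine ⟨(i : ZMod n), ?_⟩
  rw [← hi, ← h1, ← AddChar.map_nsmul_eq_pow]
  simp

theorem stdAddChar_mul_natCast (j : ZMod n) (k : ℕ) :
    (stdAddChar (j * (k : ZMod n)) : ℂ) = (stdAddChar j : ℂ) ^ k := by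
  rw [← AddChar.map_nsmul_eq_pow, nsmul_eq_mul, mul_comm]

theorem conj_stdAddChar (j : ZMod n) : conj (stdAddChar j : ℂ) = stdAddChar (-j) := by
  rw [AddChar.map_neg_eq_conj]

/-- multiplicities of a character on a cyclic group -/
theorem exists_count {G : Type u} [Group G] [Finite G] {χ : G → ℂ} (hχ : IsCharacter G χ) (x : G)
    (hx : x ^ n = 1) :
    ∃ c : ZMod n → ℕ, ∀ k : ℕ, χ (x ^ k) = ∑ j : ZMod n, (c j : ℂ) * stdAddChar (j * (k : ZMod n)) := by
  classical
  obtain ⟨s, hs1, hs2, hs3⟩ := Cfsg.Agent.Char.exists_roots_pow hχ x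
  have hs4 : ∀ ω ∈ s, ∃ j : ZMod n, (stdAddChar j : ℂ) = ω := by
    intro ω hω
    apply exists_stdAddChar
    obtain ⟨d, hd⟩ := orderOf_dvd_of_pow_eq_one hx
    rw [hd, pow_mul, hs2 ω hω, one_pow]
  let f : ℂ → ZMod n := fun ω => if h : ∃ j : ZMod n, (stdAddChar j : ℂ) = ω then h.choose else 0
  have hf : ∀ ω ∈ s, (stdAddChar (f ω) : ℂ) = ω := by
    intro ω hω
    have h := hs4 ω hω
    simp only [f, dif_pos h]
    exact h.choose_spec
  refine ⟨fun j => (s.map f).count j, fun k => ?_⟩
  rw [hs3 k]
  have h1 : s.map (· ^ k) = (s.map f).map (fun j => (stdAddChar (j * (k : ZMod n)) : ℂ)) := by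
    rw [Multiset.map_map]
    apply Multiset.map_congr rfl
    intro ω hω
    rw [Function.comp_apply, stdAddChar_mul_natCast, hf ω hω]
  rw [h1, Finset.sum_multiset_map_count]
  simp only [nsmul_eq_mul]
  apply Finset.sum_subset (Finset.subset_univ _)
  intro j _ hj
  rw [Multiset.mem_toFinset] at hj
  rw [Multiset.count_eq_zero_of_notMem hj]
  simp

/-- orthogonality for the standard character -/
theorem sum_stdAddChar (j : ZMod n) :
    ∑ k : ZMod n, (stdAddChar (k * j) : ℂ) = if j = 0 then (n : ℂ) else 0 := by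
  have := AddChar.sum_mulShift j (ZMod.isPrimitive_stdAddChar n)
  rw [this, ZMod.card]
  split_ifs <;> simp

/-- inversion -/
theorem count_inversion {F : ZMod n → ℂ} {c : ZMod n → ℕ}
    (hF : ∀ k, F k = ∑ j, (c j : ℂ) * stdAddChar (j * k)) (i : ZMod n) :
    (n : ℂ) * c i = ∑ k, F k * stdAddChar (-(i * k)) := by
  calc (n : ℂ) * c i = ∑ j, (c j : ℂ) * (if j - i = 0 then (n : ℂ) else 0) := by
        rw [Finset.sum_eq_single i]
        · simp [mul_comm]
        · intro j _ hj
          rw [if_neg (sub_ne_zero.mpr hj), mul_zero]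
        · intro h; exact absurd (Finset.mem_univ i) h
    _ = ∑ j, (c j : ℂ) * ∑ k : ZMod n, (stdAddChar (k * (j - i)) : ℂ) := by
        simp_rw [sum_stdAddChar]
    _ = ∑ j, ∑ k, (c j : ℂ) * stdAddChar (j * k) * stdAddChar (-(i * k)) := by
        apply Finset.sum_congr rfl
        intro j _
        rw [Finset.mul_sum]
        apply Finset.sum_congr rfl
        intro k _
        rw [mul_assoc, ← AddChar.map_add_eq_mul]
        congr 2
        ring
    _ = ∑ k, F k * stdAddChar (-(i * k)) := by
        rw [Finset.sum_comm]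
        apply Finset.sum_congr rfl
        intro k _
        rw [hF, Finset.sum_mul]

/-- Parseval -/
theorem sum_normSq_eq {F : ZMod n → ℂ} {c : ZMod n → ℕ}
    (hF : ∀ k, F k = ∑ j, (c j : ℂ) * stdAddChar (j * k)) :
    ∑ k, F k * conj (F k) = (n : ℂ) * ∑ j, (c j : ℂ) ^ 2 := by
  calc ∑ k, F k * conj (F k) = ∑ k, ∑ j, (c j : ℂ) * (F k * stdAddChar (-(j * k))) := by
        apply Finset.sum_congr rfl
        intro k _
        have h1 : conj (F k) = ∑ j, (c j : ℂ) * stdAddChar (-(j * k)) := by
          rw [hF k, map_sum]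
          apply Finset.sum_congr rfl
          intro j _
          rw [map_mul, conj_stdAddChar]
          simp
        rw [h1, Finset.mul_sum]
        apply Finset.sum_congr rfl
        intro j _
        ring
    _ = ∑ j, (c j : ℂ) * ∑ k, (F k * stdAddChar (-(j * k))) := by
        rw [Finset.sum_comm]
        apply Finset.sum_congr rfl
        intro j _
        rw [Finset.mul_sum]
    _ = (n : ℂ) * ∑ j, (c j : ℂ) ^ 2 := by
        rw [Finset.mul_sum]
        apply Finset.sum_congr rfl
        intro j _
        rw [← count_inversion hF j]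
        ring

end

/-- divisibility of sums of functions invariant under a subgroup -/
theorem card_dvd_sum_of_invariant {A : Type*} [Group A] [Fintype A] (H : Subgroup A) (f : A → ℕ)
    (hf : ∀ a : A, ∀ h ∈ H, f (a * h) = f a) : Nat.card H ∣ ∑ a : A, f a := by
  classical
  haveI : Fintype (A ⧸ H) := Fintype.ofFinite _
  haveI : Fintype H := Fintype.ofFinite _
  rw [← Finset.sum_fiberwise (s := Finset.univ) (g := fun a : A => (QuotientGroup.mk a : A ⧸ H))]
  apply Finset.dvd_sum
  intro q _
  induction q using QuotientGroup.induction_on with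
  | H b =>
    have h1 : ∑ a ∈ Finset.univ with (QuotientGroup.mk a : A ⧸ H) = QuotientGroup.mk b, f a =
        ∑ h : H, f (b * h) := by
      symm
      refine Finset.sum_bij' (fun h _ => b * h) (fun a ha => ⟨b⁻¹ * a, ?_⟩) ?_ ?_ ?_ ?_ ?_
      · rw [Finset.mem_filter] at ha
        exact QuotientGroup.eq.mp ha.2.symm
      · intro h _
        rw [Finset.mem_filter]
        refine ⟨Finset.mem_univ _, ?_⟩
        rw [QuotientGroup.eq]
        have : (b * (h : A))⁻¹ * b = (h : A)⁻¹ := by group
        rw [this]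
        exact inv_mem h.2
      · intro a _; exact Finset.mem_univ _
      · intro h _
        apply Subtype.ext
        change b⁻¹ * (b * (h : A)) = h
        group
      · intro a _
        change b * (b⁻¹ * a) = a
        group
      · intro h _; rfl
    rw [h1, Finset.sum_congr rfl (fun (h : H) _ => hf b h h.2), Finset.sum_const, Finset.card_univ,
      smul_eq_mul, Nat.card_eq_fintype_card]
    exact Dvd.intro _ rfl

theorem card_mul_sum_quotient {A : Type*} [Group A] [Fintype A] (H : Subgroup A) [Fintype (A ⧸ H)]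
    (f : A → ℝ) (hf : ∀ a : A, ∀ h ∈ H, f (a * h) = f a) :
    ∑ a : A, f a = Nat.card H * ∑ q : A ⧸ H, f q.out := by
  classical
  haveI : Fintype H := Fintype.ofFinite _
  rw [← Finset.sum_fiberwise (s := Finset.univ) (g := fun a : A => (QuotientGroup.mk a : A ⧸ H)),
    Finset.mul_sum]
  apply Finset.sum_congr rfl
  intro q _
  have h1 : ∑ a ∈ Finset.univ with (QuotientGroup.mk a : A ⧸ H) = q, f a =
      ∑ h : H, f (q.out * h) := by
    symm
    refine Finset.sum_bij' (fun h _ => q.out * h) (fun a ha => ⟨q.out⁻¹ * a, ?_⟩) ?_ ?_ ?_ ?_ ?_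
    · rw [Finset.mem_filter] at ha
      apply QuotientGroup.eq.mp
      rw [ha.2]
      exact Quotient.out_eq' q
    · intro h _
      rw [Finset.mem_filter]
      refine ⟨Finset.mem_univ _, ?_⟩
      have h2 : (QuotientGroup.mk (q.out * (h : A)) : A ⧸ H) = QuotientGroup.mk q.out := by
        rw [QuotientGroup.eq]
        have : (q.out * (h : A))⁻¹ * q.out = (h : A)⁻¹ := by group
        rw [this]
        exact inv_mem h.2
      rw [h2]
      exact Quotient.out_eq' q
    · intro a _; exact Finset.mem_univ _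
    · intro h _
      apply Subtype.ext
      change q.out⁻¹ * (q.out * (h : A)) = h
      group
    · intro a _
      change q.out * (q.out⁻¹ * a) = a
      group
    · intro h _; rfl
  rw [h1, Finset.sum_congr rfl (fun (h : H) _ => hf q.out h h.2), Finset.sum_const, Finset.card_univ,
    nsmul_eq_mul, Nat.card_eq_fintype_card]

end Cfsg.Agent.H75
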