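import Cfsg.Agent.H75.Cyc

/-!
# Galois orbits of irreducible characters on an element of prime order (owner: helper75)
-/

set_option autoImplicit false
set_option linter.style.haveILetI false
set_option linter.unusedSectionVars false

namespace Cfsg.Agent.H75

open Cfsg Cfsg.Agent.CharBase
open scoped BigOperators ComplexConjugate
open ZMod (stdAddChar)

universe u

theorem sum_eq_zero_add_units {K : Type*} [Field K] [Fintype K] [DecidableEq K] {M : Type*}
    [AddCommMonoid M] (f : K → M) : ∑ a : K, f a = f 0 + ∑ u : Kˣ, f u := by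
  rw [← Finset.add_sum_erase _ _ (Finset.mem_univ (0 : K))]
  congr 1
  refine Finset.sum_bij' (fun a ha => Units.mk0 a (Finset.ne_of_mem_erase ha)) (fun u _ => (u : K))
    ?_ ?_ ?_ ?_ ?_
  · intro a ha; exact Finset.mem_univ _
  · intro u _; exact Finset.mem_erase.mpr ⟨u.ne_zero, Finset.mem_univ _⟩
  · intro a ha; rfl
  · intro u _; exact Units.mk0_val u u.ne_zero
  · intro a ha; rfl

/-- the subgroup of `(ZMod p)ˣ` fixing a function -/
def invSub {p : ℕ} (F : ZMod p → ℂ) : Subgroup (ZMod p)ˣ where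
  carrier := {u | ∀ k : ZMod p, F (u * k) = F k}
  mul_mem' := by
    intro a b ha hb k
    rw [Units.val_mul, mul_assoc, ha, hb]
  one_mem' := by intro k; rw [Units.val_one, one_mul]
  inv_mem' := by
    intro a ha k
    rw [← ha (↑a⁻¹ * k), ← mul_assoc, Units.mul_inv, one_mul]

variable {G : Type u} [Group G] [Finite G] {p : ℕ} [Fact p.Prime]

theorem exists_coprime_rep (u : (ZMod p)ˣ) {m : ℕ} [NeZero m] (h : p ∣ m) :
    ∃ k : ℕ, k.Coprime m ∧ (k : ZMod p) = u := by
  obtain ⟨v, rfl⟩ := ZMod.unitsMap_surjective h u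
  refine ⟨(v : ZMod m).val, ZMod.val_coe_unit_coprime v, ?_⟩
  rw [ZMod.unitsMap_val]
  exact ZMod.natCast_val (v : ZMod m)

theorem pow_eq_of_natCast_eq {x : G} (hx : orderOf x = p) {a b : ℕ}
    (h : (a : ZMod p) = (b : ZMod p)) : x ^ a = x ^ b := by
  rw [pow_eq_pow_iff_modEq, hx]
  exact (ZMod.natCast_eq_natCast_iff _ _ _).mp h

/-- the Galois orbit bound -/
theorem galois_bound {x : G} (hx : orderOf x = p) (χ : IrrCharacter G) (h1 : (χ : G → ℂ) 1 ≠ 1) :
    ∑ u : (ZMod p)ˣ, Complex.normSq ((χ : G → ℂ) (x ^ (u : ZMod p).val)) ≤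
      Nat.card (invSub (fun k : ZMod p => (χ : G → ℂ) (x ^ k.val))) *
        ((Nat.card (Subgroup.centralizer ({x} : Set G)) : ℝ) - 1) := by
  classical
  haveI : Fintype (IrrCharacter G) := Fintype.ofFinite _
  set F : ZMod p → ℂ := fun k => (χ : G → ℂ) (x ^ k.val) with hF
  set H := invSub F with hH
  haveI : Fintype ((ZMod p)ˣ ⧸ H) := Fintype.ofFinite _
  have hpG : p ∣ Nat.card G := by rw [← hx]; exact orderOf_dvd_natCard x
  haveI : NeZero (Nat.card G) := ⟨Nat.card_pos.ne'⟩
  have hcF : ∀ a : ℕ, (χ : G → ℂ) (x ^ a) = F (a : ZMod p) := by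
    intro a
    simp only [hF]
    rw [pow_eq_of_natCast_eq hx (a := a) (b := (a : ZMod p).val)]
    rw [ZMod.natCast_zmod_val]
  have hinv : ∀ a : (ZMod p)ˣ, ∀ h ∈ H, Complex.normSq (F ↑(a * h)) = Complex.normSq (F a) := by
    intro a h hh
    rw [mul_comm a h, Units.val_mul]
    exact congrArg _ (hh a)
  have hsum := card_mul_sum_quotient H (fun u : (ZMod p)ˣ => Complex.normSq (F u)) hinv
  change ∑ u : (ZMod p)ˣ, Complex.normSq (F u) ≤ _
  rw [hsum]
  apply mul_le_mul_of_nonneg_left _ (Nat.cast_nonneg _)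
  choose k hk hku using fun q : (ZMod p)ˣ ⧸ H => exists_coprime_rep (m := Nat.card G) q.out hpG
  let χq : (ZMod p)ˣ ⧸ H → IrrCharacter G := fun q =>
    ⟨fun g => (χ : G → ℂ) (g ^ k q), Char.isIrrCharacter_pow χ.2 (hk q)⟩
  have hχq : ∀ q (m : ZMod p), (χq q : G → ℂ) (x ^ m.val) = F (q.out * m) := by
    intro q m
    change (χ : G → ℂ) ((x ^ m.val) ^ k q) = _
    rw [← pow_mul, hcF, Nat.cast_mul, ZMod.natCast_zmod_val, hku, mul_comm]
  have hinj : Function.Injective χq := by
    intro q q' hqq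
    have h2 : ∀ m : ZMod p, F (q.out * m) = F (q'.out * m) := by
      intro m
      rw [← hχq, ← hχq, hqq]
    have h3 : (q.out)⁻¹ * q'.out ∈ H := by
      intro m
      have := h2 (↑(q.out)⁻¹ * m)
      rw [← mul_assoc, Units.mul_inv, one_mul] at this
      rw [this, Units.val_mul]
      congr 1
      ring
    rw [← Quotient.out_eq' q, ← Quotient.out_eq' q']
    exact QuotientGroup.eq.mpr h3
  have hne : ∀ q, χq q ≠ oneIrr G := by
    intro q h
    have h2 : (χq q : G → ℂ) 1 = 1 := by rw [h]; rfl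
    apply h1
    have h3 : (χq q : G → ℂ) 1 = (χ : G → ℂ) 1 := by
      change (χ : G → ℂ) (1 ^ k q) = _
      rw [one_pow]
    rw [← h3, h2]
  let φ : Option ((ZMod p)ˣ ⧸ H) → IrrCharacter G := fun o => o.elim (oneIrr G) χq
  have hφ : Function.Injective φ := by
    intro a b hab
    cases a with
    | none =>
      cases b with
      | none => rfl
      | some b => exact absurd hab.symm (hne b)
    | some a =>
      cases b with
      | none => exact absurd hab (hne a)
      | some b => exact congrArg some (hinj hab)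
  have hcol : ∑ ψ : IrrCharacter G, Complex.normSq ((ψ : G → ℂ) x) =
      (Nat.card (Subgroup.centralizer ({x} : Set G)) : ℝ) := by
    have := column_orthogonality_of_isConj (IsConj.refl x)
    simp_rw [Complex.mul_conj] at this
    exact_mod_cast this
  have hle : ∑ o, Complex.normSq ((φ o : G → ℂ) x) ≤
      ∑ ψ : IrrCharacter G, Complex.normSq ((ψ : G → ℂ) x) := by
    rw [← Finset.sum_image (s := Finset.univ) (g := φ)
      (f := fun ψ : IrrCharacter G => Complex.normSq ((ψ : G → ℂ) x))
      (fun a _ b _ h => hφ h)]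
    apply Finset.sum_le_sum_of_subset_of_nonneg (Finset.subset_univ _)
    intro i _ _
    exact Complex.normSq_nonneg _
  rw [Fintype.sum_option, hcol] at hle
  have h5 : Complex.normSq ((φ none : G → ℂ) x) = 1 := by
    change Complex.normSq (1 : ℂ) = 1
    simp
  have h6 : ∀ q, Complex.normSq ((φ (some q) : G → ℂ) x) = Complex.normSq (F (q.out : (ZMod p)ˣ)) := by
    intro q
    change Complex.normSq ((χq q : G → ℂ) x) = _
    have h7 := hχq q 1
    rw [mul_one] at h7
    rw [← h7]
    congr 2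
    have : (1 : ZMod p).val = 1 := ZMod.val_one p
    rw [this, pow_one]
  rw [h5, Finset.sum_congr rfl (fun q _ => h6 q)] at hle
  linarith

end Cfsg.Agent.H75
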