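import Cfsg.Agent.H75.Cyc2

/-!
# Irreducible characters of degree `p - 1` on a self-centralizing element of order `p`
(owner: helper75)
-/

set_option autoImplicit false
set_option linter.style.haveILetI false
set_option linter.unusedSectionVars false

namespace Cfsg.Agent.H75

open Cfsg Cfsg.Agent.CharBase
open scoped BigOperators ComplexConjugate
open ZMod (stdAddChar)

universe u

/-- pure arithmetic core -/
theorem arith_core {p : ℕ} [hp : Fact p.Prime] (H : Subgroup (ZMod p)ˣ) (hH : H ≠ ⊥)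
    (c : ZMod p → ℕ) (hc : ∀ h ∈ H, ∀ j : ZMod p, c (h * j) = c j)
    (hsum : ∑ j, c j = p - 1) (hb : p * ∑ j, (c j) ^ 2 ≤ (p - 1) * (p - 1 + Nat.card H)) :
    c 0 = 0 ∧ ∀ j, j ≠ 0 → c j = 1 := by
  classical
  have hp2 := hp.out.two_le
  set h := Nat.card H with hh
  have hh2 : 2 ≤ h := by
    have h1 : 0 < h := Nat.card_pos
    have h2 : h ≠ 1 := fun h3 => hH (Subgroup.card_eq_one.mp h3)
    omega
  have hdvd : h ∣ p - 1 := by
    have h1 := Subgroup.card_subgroup_dvd_card H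
    rwa [Nat.card_eq_fintype_card (α := (ZMod p)ˣ), ZMod.card_units] at h1
  have hA : h ∣ ∑ u : (ZMod p)ˣ, c u := by
    apply card_dvd_sum_of_invariant H
    intro a b hb
    rw [mul_comm a b, Units.val_mul, hc b hb]
  have hB : h ∣ ∑ u : (ZMod p)ˣ, (c u) ^ 2 := by
    apply card_dvd_sum_of_invariant H
    intro a b hb
    rw [mul_comm a b, Units.val_mul, hc b hb]
  have hs1 : ∑ j, c j = c 0 + ∑ u : (ZMod p)ˣ, c u := sum_eq_zero_add_units c
  have hs2 : ∑ j, (c j) ^ 2 = (c 0) ^ 2 + ∑ u : (ZMod p)ˣ, (c u) ^ 2 :=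
    sum_eq_zero_add_units (fun j => (c j) ^ 2)
  set A := ∑ u : (ZMod p)ˣ, c u with hAdef
  set B := ∑ u : (ZMod p)ˣ, (c u) ^ 2 with hBdef
  have hAB : A ≤ B := Finset.sum_le_sum (fun u _ => by
    rcases Nat.eq_zero_or_pos (c u) with h0 | h0
    · rw [h0]; simp
    · nlinarith)
  have hS : ∑ j, (c j) ^ 2 < p - 1 + h := by
    by_contra hcon
    push Not at hcon
    have h1 : p * (p - 1 + h) ≤ (p - 1) * (p - 1 + h) := (Nat.mul_le_mul_left p hcon).trans hb
    have h2 : p ≤ p - 1 := Nat.le_of_mul_le_mul_right h1 (by omega)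
    omega
  rw [hs1] at hsum
  rw [hs2] at hS
  have hc0 : c 0 = 0 := by
    by_contra h0
    have h1 : h ∣ c 0 := by
      have h2 : h ∣ c 0 + A := by rw [hsum]; exact hdvd
      exact (Nat.dvd_add_left hA).mp h2
    have h2 : h ≤ c 0 := Nat.le_of_dvd (Nat.pos_of_ne_zero h0) h1
    have h3 : 2 * c 0 ≤ (c 0) ^ 2 := by nlinarith
    omega
  have hA' : A = p - 1 := by omega
  have hBA : B = A := by
    rw [hc0] at hS
    have h1 : h ∣ B - A := Nat.dvd_sub hB hA
    have h2 : B - A < h := by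
      simp only [ne_eq, OfNat.ofNat_ne_zero, not_false_eq_true, zero_pow, zero_add] at hS
      omega
    have h3 : B - A = 0 := Nat.eq_zero_of_dvd_of_lt h1 h2
    omega
  have hle : ∀ u : (ZMod p)ˣ, c u ≤ 1 := by
    intro u
    have h1 : ∀ u ∈ (Finset.univ : Finset (ZMod p)ˣ), c u ≤ (c u) ^ 2 := by
      intro u _
      rcases Nat.eq_zero_or_pos (c u) with h0 | h0
      · rw [h0]; simp
      · nlinarith
    have h2 := (Finset.sum_eq_sum_iff_of_le h1).mp hBA.symm u (Finset.mem_univ u)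
    by_contra h3
    push Not at h3
    nlinarith
  refine ⟨hc0, ?_⟩
  have h1 : ∑ u : (ZMod p)ˣ, c u = ∑ u : (ZMod p)ˣ, 1 := by
    rw [← hAdef, hA', Finset.sum_const, Finset.card_univ, ZMod.card_units]
    simp
  have h2 := (Finset.sum_eq_sum_iff_of_le (fun u _ => hle u)).mp h1
  intro j hj
  exact h2 (Units.mk0 j hj) (Finset.mem_univ _)

variable {G : Type u} [Group G] [Finite G] {p : ℕ} [hp : Fact p.Prime]

theorem char_eq_neg_one {x : G} (hx : orderOf x = p)
    (hC : Nat.card (Subgroup.centralizer ({x} : Set G)) = p) (χ : IrrCharacter G)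
    (h1 : (χ : G → ℂ) 1 + 1 = p) (hp2 : p ≠ 2) {m : ℕ} (hm : (m : ZMod p) ≠ 1)
    (hm0 : (m : ZMod p) ≠ 0) (hconj : IsConj x (x ^ m)) (k : ℕ) (hk : (k : ZMod p) ≠ 0) :
    (χ : G → ℂ) (x ^ k) = -1 := by
  classical
  have hpp := hp.out.two_le
  have hne : (χ : G → ℂ) 1 ≠ 1 := by
    intro h
    rw [h] at h1
    apply hp2
    have : ((1 + 1 : ℕ) : ℂ) = (p : ℂ) := by rw [← h1]; norm_num
    exact_mod_cast this.symm
  have hgb := galois_bound hx χ hne
  set F : ZMod p → ℂ := fun k => (χ : G → ℂ) (x ^ k.val) with hF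
  have hcF : ∀ a : ℕ, (χ : G → ℂ) (x ^ a) = F (a : ZMod p) := by
    intro a
    simp only [hF]
    rw [pow_eq_of_natCast_eq hx (a := a) (b := (a : ZMod p).val)]
    rw [ZMod.natCast_zmod_val]
  obtain ⟨c, hc⟩ := exists_count (n := p) (irr_isCharacter χ) x (by rw [← hx]; exact pow_orderOf_eq_one x)
  have hFc : ∀ k, F k = ∑ j, (c j : ℂ) * stdAddChar (j * k) := by
    intro k
    simp only [hF]
    rw [hc, ZMod.natCast_zmod_val]
  have hinvc : ∀ h ∈ invSub F, ∀ j : ZMod p, c (h * j) = c j := by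
    intro h hh j
    have h2 := count_inversion hFc ((h : ZMod p) * j)
    have h3 := count_inversion hFc j
    have h4 : ∑ k, F k * (stdAddChar (-((h : ZMod p) * j * k)) : ℂ) = ∑ k, F k * stdAddChar (-(j * k)) := by
      rw [← Equiv.sum_comp (Units.mulLeft h) (fun k : ZMod p => F k * (stdAddChar (-(j * k)) : ℂ))]
      apply Finset.sum_congr rfl
      intro k _
      rw [Units.mulLeft_apply, hh k]
      congr 3
      ring
    rw [h4, ← h3] at h2
    have hp0 : (p : ℂ) ≠ 0 := by exact_mod_cast hp.out.ne_zero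
    exact_mod_cast mul_left_cancel₀ hp0 h2
  -- the subgroup is non-trivial
  have hnb : invSub F ≠ ⊥ := by
    intro hb
    have hmem : Units.mk0 (m : ZMod p) hm0 ∈ invSub F := by
      intro k
      rw [Units.val_mk0]
      have h2 : F ((m : ZMod p) * k) = (χ : G → ℂ) (x ^ (m * k.val)) := by
        rw [hcF]; push_cast; rw [ZMod.natCast_zmod_val]
      rw [h2, pow_mul]
      simp only [hF]
      obtain ⟨g, hg⟩ := isConj_iff.mp hconj
      rw [← hg, conj_pow]
      exact (classFun_eq_of_isConj (irr_isClassFunction χ) (isConj_iff.mpr ⟨g, rfl⟩)).symm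
    rw [hb, Subgroup.mem_bot] at hmem
    exact hm (congrArg Units.val hmem)
  have hFzero : F 0 = (p : ℂ) - 1 := by
    simp only [hF, ZMod.val_zero, pow_zero]
    rw [← h1]; ring
  have hsum : ∑ j, c j = p - 1 := by
    have h2 := hFc 0
    rw [hFzero] at h2
    simp only [mul_zero, AddChar.map_zero_eq_one, mul_one] at h2
    have h3 : ((∑ j, c j : ℕ) : ℂ) = ((p - 1 : ℕ) : ℂ) := by
      rw [Nat.cast_sub (by omega)]
      push_cast
      exact h2.symm
    exact_mod_cast h3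
  have hpars : ∑ k, Complex.normSq (F k) = (p : ℝ) * ∑ j, (c j : ℝ) ^ 2 := by
    have h2 := sum_normSq_eq hFc
    simp_rw [Complex.mul_conj] at h2
    exact_mod_cast h2
  have hb : p * ∑ j, (c j) ^ 2 ≤ (p - 1) * (p - 1 + Nat.card (invSub F)) := by
    rw [sum_eq_zero_add_units (fun k => Complex.normSq (F k)), hFzero] at hpars
    have h3 : Complex.normSq ((p : ℂ) - 1) = ((p : ℝ) - 1) * ((p : ℝ) - 1) := by
      have : ((p : ℂ) - 1) = (((p : ℝ) - 1 : ℝ) : ℂ) := by push_cast; rfl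
      rw [this, Complex.normSq_ofReal]
    rw [h3] at hpars
    rw [hC] at hgb
    have h4 : (p : ℝ) * ∑ j, (c j : ℝ) ^ 2 ≤
        ((p : ℝ) - 1) * ((p : ℝ) - 1) + Nat.card (invSub F) * ((p : ℝ) - 1) := by
      rw [← hpars]
      exact add_le_add_right hgb _
    have h5 : ((p * ∑ j, (c j) ^ 2 : ℕ) : ℝ) ≤
        (((p - 1) * (p - 1 + Nat.card (invSub F)) : ℕ) : ℝ) := by
      push_cast [Nat.cast_sub (show 1 ≤ p by omega)]
      calc _ ≤ _ := h4
        _ = _ := by ring
    exact_mod_cast h5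
  obtain ⟨hc0, hc1⟩ := arith_core (invSub F) hnb c hinvc hsum hb
  rw [hcF, hFc]
  have h6 : ∑ j, (c j : ℂ) * stdAddChar (j * (k : ZMod p)) =
      ∑ j : ZMod p, (stdAddChar (j * (k : ZMod p)) : ℂ) - 1 := by
    rw [← Finset.add_sum_erase _ _ (Finset.mem_univ (0 : ZMod p)),
      ← Finset.add_sum_erase Finset.univ (fun j : ZMod p => (stdAddChar (j * (k : ZMod p)) : ℂ))
        (Finset.mem_univ (0 : ZMod p)), hc0, Nat.cast_zero, zero_mul, zero_add, zero_mul,
      AddChar.map_zero_eq_one, add_sub_cancel_left]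
    apply Finset.sum_congr rfl
    intro j hj
    rw [hc1 j (Finset.ne_of_mem_erase hj), Nat.cast_one, one_mul]
  rw [h6, sum_stdAddChar, if_neg hk]
  ring

end Cfsg.Agent.H75
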