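import Cfsg.Agent.H75.Cyc2
import Cfsg.Agent.Blk.Osima
import Cfsg.Agent.Char.FrobTI

/-!
# Few eigenvalues on a central element of prime order, for characters of the principal block
(owner: helper75)
-/

set_option autoImplicit false
set_option linter.style.haveILetI false
set_option linter.unusedSectionVars false

namespace Cfsg.Agent.H75

open Cfsg Cfsg.Agent.CharBase Cfsg.Agent.Blk
open scoped BigOperators ComplexConjugate
open ZMod (stdAddChar)

universe u

variable {G : Type u} [Group G] [Fintype G] {p : ℕ} [hp : Fact p.Prime]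

theorem centralizer_pow_eq {x : G} (hx : orderOf x = p) {k : ℕ} (hk : ¬ p ∣ k) :
    Subgroup.centralizer ({x ^ k} : Set G) = Subgroup.centralizer ({x} : Set G) := by
  have hcop : Nat.Coprime k (orderOf x) := by
    rw [hx]; exact ((Nat.Prime.coprime_iff_not_dvd hp.out).mpr hk).symm
  obtain ⟨m, hm⟩ := exists_pow_eq_self_of_coprime hcop
  ext g
  rw [Subgroup.mem_centralizer_singleton_iff, Subgroup.mem_centralizer_singleton_iff]
  constructor
  · intro h
    have h1 : Commute g ((x ^ k) ^ m) := (show Commute g (x ^ k) from h).pow_right m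
    rw [hm] at h1
    exact h1
  · intro h
    exact ((show Commute g x from h).pow_right k)

theorem few_eigenvalues {M : Ideal AlgInt} (hM : IsPModular p M) {x : G} (hx : orderOf x = p)
    (χ : IrrCharacter G) (hB : χ ∈ principalBlock M G)
    {d : ℕ} (hd : (χ : G → ℂ) 1 = d) {c : ZMod p → ℕ}
    (hc : ∀ k : ℕ, (χ : G → ℂ) (x ^ k) = ∑ j : ZMod p, (c j : ℂ) * stdAddChar (j * (k : ZMod p))) :
    (Finset.univ.filter (fun j => c j ≠ 0)).card ≤
      Nat.gcd d (Subgroup.centralizer ({x} : Set G)).index := by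
  classical
  haveI : M.IsPrime := hM.2.1.isPrime
  set I := (Subgroup.centralizer ({x} : Set G)).index with hI
  set h := Nat.gcd d I with hh
  have hp0 : (p : ℂ) ≠ 0 := Nat.cast_ne_zero.mpr hp.out.ne_zero
  have hd0 : d ≠ 0 := by
    rintro rfl
    apply irr_one_ne_zero χ.2
    rw [hd]; simp
  have hdC : (d : ℂ) ≠ 0 := Nat.cast_ne_zero.mpr hd0
  obtain ⟨u, v, huv⟩ : ∃ u v : ℤ, (h : ℤ) = d * u + I * v :=
    ⟨_, _, Nat.gcd_eq_gcd_ab d I⟩
  have huvC : (h : ℂ) = d * u + I * v := by exact_mod_cast congrArg (fun t : ℤ => (t : ℂ)) huv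
  set F : ZMod p → ℂ := fun k => (χ : G → ℂ) (x ^ k.val) with hF
  have hFc : ∀ k, F k = ∑ j, (c j : ℂ) * stdAddChar (j * k) := by
    intro k
    simp only [hF]
    rw [hc, ZMod.natCast_zmod_val]
  set θ : ZMod p → ℂ := fun k => (h : ℂ) * F k / d with hθ
  have hθ_eq : ∀ k, k ≠ 0 → θ k = u * F k + v * centralChar (χ : G → ℂ) (x ^ k.val) := by
    intro k hk
    have hk' : ¬ p ∣ k.val := by
      intro h1
      have h2 := ZMod.val_lt k
      have h3 := Nat.eq_zero_of_dvd_of_lt h1 h2
      exact hk ((ZMod.val_eq_zero k).mp h3)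
    have h1 : centralChar (χ : G → ℂ) (x ^ k.val) = I * F k / d := by
      rw [centralChar, centralizer_pow_eq hx hk', hd]
    rw [h1]
    simp only [hθ]
    rw [huvC]
    field_simp
  have hθint : ∀ k, IsIntegral ℤ (θ k) := by
    intro k
    by_cases hk : k = 0
    · subst hk
      have : θ 0 = h := by
        simp only [hθ, hF, ZMod.val_zero, pow_zero, hd]
        field_simp
      rw [this]
      exact isIntegral_int_natCast h
    · rw [hθ_eq k hk]
      exact ((isIntegral_int_intCast u).mul (irr_isIntegral χ _)).add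
        ((isIntegral_int_intCast v).mul (isIntegral_centralChar' χ _))
  have hψint : ∀ j : ZMod p, IsIntegral ℤ (stdAddChar j : ℂ) := by
    intro j
    refine IsIntegral.of_pow (n := p) hp.out.pos ?_
    rw [← AddChar.map_nsmul_eq_pow]
    simp [isIntegral_one]
  have hψone : ∀ j : ZMod p, MemLocalIdeal M ((stdAddChar j : ℂ) - 1) := by
    intro j
    refine mli_sub_one_of_pow_eq_one (n := 1) hM ?_
    rw [pow_one, ← AddChar.map_nsmul_eq_pow]
    simp
  -- the integers `e`
  have hev : ∀ j : ZMod p, (p : ℂ) * h * c j / d = ∑ k, θ k * stdAddChar (-(j * k)) := by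
    intro j
    have h1 := count_inversion hFc j
    have h2 : ∑ k, θ k * (stdAddChar (-(j * k)) : ℂ) = (h : ℂ) / d * ∑ k, F k * stdAddChar (-(j * k)) := by
      rw [Finset.mul_sum]
      refine Finset.sum_congr rfl fun k _ => ?_
      simp only [hθ]
      ring
    rw [h2, ← h1]
    ring
  have hex : ∀ j : ZMod p, ∃ e : ℤ, (p : ℂ) * h * c j / d = e := by
    intro j
    refine Cfsg.Agent.Char.FT.int_of_rat_isIntegral ((p : ℚ) * h * c j / d) (by push_cast; rfl) ?_
    rw [hev j]
    exact IsIntegral.sum _ fun k _ => (hθint k).mul (hψint _)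
  choose e he using hex
  have hcongr : ∀ i j : ZMod p, (p : ℤ) ∣ e i - e j := by
    intro i j
    rw [← mli_intCast_iff hM]
    push_cast
    rw [← he i, ← he j, hev i, hev j, ← Finset.sum_sub_distrib]
    refine mli_sum _ _ fun k _ => ?_
    have h1 : θ k * (stdAddChar (-(i * k)) : ℂ) - θ k * stdAddChar (-(j * k)) =
        θ k * stdAddChar (-(j * k)) * ((stdAddChar (j * k - i * k) : ℂ) - 1) := by
      rw [mul_sub, mul_one, mul_assoc, ← AddChar.map_add_eq_mul]
      congr 3
      ring
    rw [h1]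
    exact mli_mul_left (mlr_of_isIntegral ((hθint k).mul (hψint _))) (hψone _)
  have hepos : ∀ j, 0 ≤ e j := by
    intro j
    have h1 : ((p * h * c j : ℕ) : ℂ) = ((d * e j : ℤ) : ℂ) := by
      push_cast
      rw [← he j]
      field_simp
    have h2 : ((p * h * c j : ℕ) : ℤ) = d * e j := by exact_mod_cast h1
    by_contra hneg
    push Not at hneg
    have h3 : (0 : ℤ) ≤ ((p * h * c j : ℕ) : ℤ) := Int.natCast_nonneg _
    have h4 : (d : ℤ) * e j < 0 := mul_neg_of_pos_of_neg (by exact_mod_cast Nat.pos_of_ne_zero hd0) hneg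
    omega
  have hcsum : (∑ j, (c j : ℂ)) = d := by
    have h1 := hFc 0
    simp only [mul_zero, AddChar.map_zero_eq_one, mul_one] at h1
    rw [← h1]
    simp only [hF, ZMod.val_zero, pow_zero, hd]
  have hesum : ∑ j, e j = p * h := by
    have h1 : ∑ j, (e j : ℂ) = p * h := by
      rw [← Finset.sum_congr rfl fun j _ => he j]
      have h2 : ∀ j : ZMod p, (p : ℂ) * h * c j / d = (p * h / d) * c j := fun j => by ring
      rw [Finset.sum_congr rfl fun j _ => h2 j, ← Finset.mul_sum, hcsum]
      field_simp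
    exact_mod_cast h1
  -- reduction modulo `p`
  set t : ℤ := e 0 % p with ht
  have hpz : (0 : ℤ) < p := by exact_mod_cast hp.out.pos
  have ht0 : 0 ≤ t := Int.emod_nonneg _ hpz.ne'
  have htp : t < p := Int.emod_lt_of_pos _ hpz
  have hk : ∀ j, ∃ k : ℕ, e j = t + p * k := by
    intro j
    have h1 : (p : ℤ) ∣ e j - t := by
      have h2 := hcongr j 0
      have h3 : (p : ℤ) ∣ e 0 - t := by
        rw [ht]; exact Int.dvd_self_sub_emod
      have := dvd_add h2 h3
      simpa using this
    obtain ⟨k, hk⟩ := h1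
    have h2 : 0 ≤ k := by
      by_contra hneg
      push Not at hneg
      have h3 := hepos j
      nlinarith
    exact ⟨k.toNat, by rw [Int.toNat_of_nonneg h2]; linarith⟩
  choose k hk using hk
  have hksum : (∑ j, (k j : ℤ)) = h - t := by
    have h1 : ∑ j : ZMod p, (t + p * (k j : ℤ)) = p * h := by
      rw [← hesum]
      exact Finset.sum_congr rfl fun j _ => (hk j).symm
    rw [Finset.sum_add_distrib, Finset.sum_const, Finset.card_univ, ZMod.card, ← Finset.mul_sum,
      nsmul_eq_mul] at h1
    have h2 : (p : ℤ) * (∑ j, (k j : ℤ)) = p * (h - t) := by linarith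
    exact mul_left_cancel₀ hpz.ne' h2
  have h10 : (1 : ZMod p) ≠ 0 := one_ne_zero
  have hα1 : θ 1 = ∑ j, (k j : ℂ) * stdAddChar j := by
    have h1 : (p : ℂ) * θ 1 = ∑ j, (e j : ℂ) * stdAddChar j := by
      have h2 : ∀ j : ZMod p, (e j : ℂ) * stdAddChar j = (p * h / d) * ((c j : ℂ) * stdAddChar (j * 1)) := by
        intro j
        rw [← he j, mul_one]; ring
      rw [Finset.sum_congr rfl fun j _ => h2 j, ← Finset.mul_sum, ← hFc 1]
      simp only [hθ]
      ring
    have h2 : ∑ j, (e j : ℂ) * stdAddChar j = (p : ℂ) * ∑ j, (k j : ℂ) * stdAddChar j := by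
      have h3 : ∀ j : ZMod p, (e j : ℂ) * stdAddChar j =
          (t : ℂ) * stdAddChar (j * 1) + p * ((k j : ℂ) * stdAddChar j) := by
        intro j
        rw [hk j, mul_one]
        push_cast
        ring
      rw [Finset.sum_congr rfl fun j _ => h3 j, Finset.sum_add_distrib, ← Finset.mul_sum, ← Finset.mul_sum,
        sum_stdAddChar, if_neg h10, mul_zero, zero_add]
    rw [h2] at h1
    exact mul_left_cancel₀ hp0 h1
  have hα2 : MemLocalIdeal M (θ 1 - ((h - t : ℤ) : ℂ)) := by
    rw [hα1, ← hksum]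
    push_cast
    rw [← Finset.sum_sub_distrib]
    refine mli_sum _ _ fun j _ => ?_
    have : (k j : ℂ) * stdAddChar j - k j = k j * ((stdAddChar j : ℂ) - 1) := by ring
    rw [this]
    exact mli_mul_left (mlr_natCast _) (hψone j)
  have hχ1 : MemLocalIdeal M (F 1 - d) := by
    rw [hFc, ← hcsum, ← Finset.sum_sub_distrib]
    refine mli_sum _ _ fun j _ => ?_
    have : (c j : ℂ) * stdAddChar (j * 1) - c j = c j * ((stdAddChar (j * 1) : ℂ) - 1) := by ring
    rw [this]
    exact mli_mul_left (mlr_natCast _) (hψone _)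
  have hω : MemLocalIdeal M (centralChar (χ : G → ℂ) (x ^ (1 : ZMod p).val) - I) := by
    have h1 := hB (x ^ (1 : ZMod p).val)
    have h2 : centralChar (fun _ : G => (1 : ℂ)) (x ^ (1 : ZMod p).val) = I := by
      have hk' : ¬ p ∣ (1 : ZMod p).val := by
        intro h1
        exact h10 ((ZMod.val_eq_zero _).mp (Nat.eq_zero_of_dvd_of_lt h1 (ZMod.val_lt _)))
      rw [centralChar, centralizer_pow_eq hx hk', mul_one, div_one]
    rw [h2] at h1
    exact mli_symm h1
  have hα3 : MemLocalIdeal M (θ 1 - h) := by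
    rw [hθ_eq 1 h10, huvC]
    have : (u : ℂ) * F 1 + v * centralChar (χ : G → ℂ) (x ^ (1 : ZMod p).val) - (d * u + I * v) =
        u * (F 1 - d) + v * (centralChar (χ : G → ℂ) (x ^ (1 : ZMod p).val) - I) := by ring
    rw [this]
    exact mli_add (mli_mul_left (mlr_intCast _) hχ1) (mli_mul_left (mlr_intCast _) hω)
  have ht1 : (p : ℤ) ∣ t := by
    rw [← mli_intCast_iff hM]
    have := mli_sub hα2 hα3
    have h1 : θ 1 - ((h - t : ℤ) : ℂ) - (θ 1 - h) = (t : ℂ) := by push_cast; ring
    rwa [h1] at this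
  have ht2 : t = 0 := Int.eq_zero_of_dvd_of_nonneg_of_lt ht0 htp ht1
  have hksum' : ∑ j, k j = h := by
    rw [ht2, sub_zero] at hksum
    exact_mod_cast hksum
  calc (Finset.univ.filter (fun j => c j ≠ 0)).card = ∑ j ∈ Finset.univ.filter (fun j => c j ≠ 0), 1 := by simp
    _ ≤ ∑ j ∈ Finset.univ.filter (fun j => c j ≠ 0), k j := by
        refine Finset.sum_le_sum fun j hj => ?_
        rw [Finset.mem_filter] at hj
        by_contra hlt
        have hk0 : k j = 0 := by omega
        have h1 := he j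
        rw [hk j, ht2, hk0] at h1
        simp only [Nat.cast_zero, mul_zero, add_zero, Int.cast_zero] at h1
        rw [div_eq_zero_iff] at h1
        rcases h1 with h1 | h1
        · have h2 : (h : ℂ) ≠ 0 := by
            have : 0 < h := Nat.gcd_pos_of_pos_left _ (Nat.pos_of_ne_zero hd0)
            exact_mod_cast this.ne'
          have h3 : (c j : ℂ) ≠ 0 := by exact_mod_cast hj.2
          exact (mul_ne_zero (mul_ne_zero hp0 h2) h3) h1
        · exact hdC h1
    _ ≤ ∑ j, k j := Finset.sum_le_sum_of_subset (Finset.subset_univ _)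
    _ = h := hksum'

end Cfsg.Agent.H75
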