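import Cfsg.Agent.H75.Sixty
import Cfsg.Agent.H75.FewEig
import Cfsg.Agent.Blk.Orth2

/-!
# Eigenvalues, the pigeonhole principle and Blichfeldt's lemma (owner: helper75)
-/

set_option autoImplicit false
set_option linter.style.haveILetI false
set_option linter.unusedSectionVars false

namespace Cfsg.Agent.H75

open Cfsg Cfsg.Agent.CharBase Cfsg.Agent.Blk Cfsg.Agent.H75.Sixty
open scoped BigOperators ComplexConjugate
open ZMod (stdAddChar)

universe u

section

variable {G : Type u} [Group G] [Fintype G] {n : ℕ} (ρ : Representation ℂ G (Fin n → ℂ))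
  {p : ℕ} [NeZero p]

theorem trace_pr {x : G} {c : ZMod p → ℕ}
    (hc : ∀ k : ℕ, ρ.character (x ^ k) = ∑ j : ZMod p, (c j : ℂ) * stdAddChar (j * (k : ZMod p)))
    (j : ZMod p) : LinearMap.trace ℂ _ (pr (p := p) (ρ x) j) = c j := by
  have hF : ∀ k : ZMod p, ρ.character (x ^ k.val) = ∑ j : ZMod p, (c j : ℂ) * stdAddChar (j * k) := by
    intro k
    rw [hc, ZMod.natCast_zmod_val]
  have h1 := count_inversion hF j
  unfold pr
  rw [map_smul, map_sum]
  have h2 : ∀ k : ZMod p, LinearMap.trace ℂ _ ((stdAddChar (-(j * k)) : ℂ) • ρ x ^ k.val) =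
      ρ.character (x ^ k.val) * stdAddChar (-(j * k)) := by
    intro k
    rw [map_smul, smul_eq_mul, mul_comm, ← map_pow]
    rfl
  rw [Finset.sum_congr rfl fun k _ => h2 k, ← h1, smul_eq_mul, ← mul_assoc,
    inv_mul_cancel₀ (Nat.cast_ne_zero.mpr (NeZero.ne p)), one_mul]

theorem pr_eq_zero {x : G} (hx : x ^ p = 1) {c : ZMod p → ℕ}
    (hc : ∀ k : ℕ, ρ.character (x ^ k) = ∑ j : ZMod p, (c j : ℂ) * stdAddChar (j * (k : ZMod p)))
    {j : ZMod p} (hj : c j = 0) : pr (p := p) (ρ x) j = 0 := by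
  have hA : ρ x ^ p = 1 := by rw [← map_pow, hx, map_one]
  have hproj : LinearMap.IsProj (LinearMap.range (pr (p := p) (ρ x) j)) (pr (p := p) (ρ x) j) := by
    refine ⟨fun v => ⟨v, rfl⟩, ?_⟩
    rintro _ ⟨v, rfl⟩
    -- `pr j (pr j v) = pr j v`
    set w := pr (p := p) (ρ x) j v with hw
    have hw1 : ρ x w = (stdAddChar j : ℂ) • w := apply_pr hA j v
    have hpow : ∀ k : ℕ, (ρ x ^ k) w = (stdAddChar (j * (k : ZMod p)) : ℂ) • w := by
      intro k
      induction k with
      | zero => simp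
      | succ k ih =>
        rw [pow_succ, Module.End.mul_apply, hw1, map_smul, ih, smul_smul, ← AddChar.map_add_eq_mul]
        congr 2
        push_cast; ring
    unfold pr
    simp only [LinearMap.smul_apply, LinearMap.sum_apply, hpow, smul_smul, ZMod.natCast_zmod_val]
    rw [← Finset.sum_smul, smul_smul]
    have h3 : ∑ k : ZMod p, (stdAddChar (-(j * k)) : ℂ) * stdAddChar (j * k) = p := by
      have : ∀ k : ZMod p, (stdAddChar (-(j * k)) : ℂ) * stdAddChar (j * k) = 1 := by
        intro k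
        rw [← AddChar.map_add_eq_mul, neg_add_cancel, AddChar.map_zero_eq_one]
      rw [Finset.sum_congr rfl fun k _ => this k]
      simp
    rw [h3, inv_mul_cancel₀ (Nat.cast_ne_zero.mpr (NeZero.ne p)), one_smul]
  have h1 := hproj.trace
  rw [trace_pr ρ hc, hj] at h1
  have h2 : Module.finrank ℂ (LinearMap.range (pr (p := p) (ρ x) j)) = 0 := by exact_mod_cast h1.symm
  rw [Submodule.finrank_eq_zero, LinearMap.range_eq_bot] at h2
  exact h2

end

/-- simultaneous approximation -/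
theorem exists_close {p : ℕ} [hp : Fact p.Prime] (s : Finset (ZMod p)) (h : 6 ^ s.card < p) :
    ∃ t : ZMod p, t ≠ 0 ∧ ∀ j ∈ s, Complex.normSq ((stdAddChar (t * j) : ℂ) - 1) < 1 := by
  classical
  have hp0 := hp.out.pos
  let f : ZMod p → (s → Fin 6) := fun t j => ⟨6 * (t * (j : ZMod p)).val / p, by
    rw [Nat.div_lt_iff_lt_mul hp0]
    have := ZMod.val_lt (t * (j : ZMod p))
    omega⟩
  have hcard : Fintype.card (s → Fin 6) < Fintype.card (ZMod p) := by
    rw [Fintype.card_fun, Fintype.card_fin, Fintype.card_coe, ZMod.card]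
    exact h
  obtain ⟨t₁, t₂, hne, heq⟩ := Fintype.exists_ne_map_eq_of_card_lt f hcard
  refine ⟨t₁ - t₂, sub_ne_zero.mpr hne, fun j hj => ?_⟩
  have h1 := congrFun heq ⟨j, hj⟩
  have h2 : 6 * (t₁ * j).val / p = 6 * (t₂ * j).val / p := congrArg Fin.val h1
  set a := (t₁ * j).val with ha
  set b := (t₂ * j).val with hb
  have h3 : (stdAddChar ((t₁ - t₂) * j) : ℂ) = Complex.exp (2 * Real.pi * Complex.I * ((a : ℝ) - b : ℝ) / p) := by
    have h4 : (t₁ - t₂) * j = (((a : ℤ) - (b : ℤ) : ℤ) : ZMod p) := by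
      push_cast
      rw [ha, hb, ZMod.natCast_zmod_val, ZMod.natCast_zmod_val]
      ring
    rw [h4, ZMod.stdAddChar_coe]
    congr 1
    push_cast
    ring
  rw [h3]
  set y : ℝ := ((a : ℝ) - b) / p with hy
  have hpR : (0 : ℝ) < p := by exact_mod_cast hp0
  have h5 : |6 * y| < 1 := by
    have h6 : (6 * (a : ℝ) / p) - (6 * (b : ℝ) / p) = 6 * y := by rw [hy]; ring
    rw [← h6]
    have e1 := Nat.div_mul_le_self (6 * a) p
    have e2 := Nat.lt_div_mul_add (a := 6 * a) hp0
    have e3 := Nat.div_mul_le_self (6 * b) p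
    have e4 := Nat.lt_div_mul_add (a := 6 * b) hp0
    rw [h2] at e1 e2
    set q := 6 * b / p
    have e1' : (q : ℝ) * p ≤ 6 * a := by exact_mod_cast e1
    have e2' : (6 : ℝ) * a < q * p + p := by exact_mod_cast e2
    have e3' : (q : ℝ) * p ≤ 6 * b := by exact_mod_cast e3
    have e4' : (6 : ℝ) * b < q * p + p := by exact_mod_cast e4
    rw [abs_lt, ← sub_div]
    constructor
    · rw [lt_div_iff₀ hpR]; linarith
    · rw [div_lt_iff₀ hpR]; linarith
  have h6 : (2 * Real.pi * Complex.I * ((a : ℝ) - b : ℝ) / p : ℂ) = ((2 * Real.pi * y : ℝ) : ℂ) * Complex.I := by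
    rw [hy]; push_cast; ring
  rw [h6, Complex.normSq_apply]
  simp only [Complex.sub_re, Complex.sub_im, Complex.exp_ofReal_mul_I_re, Complex.exp_ofReal_mul_I_im,
    Complex.one_re, Complex.one_im, sub_zero]
  have hcs := Real.cos_sq_add_sin_sq (2 * Real.pi * y)
  have hcos : 1 / 2 < Real.cos (2 * Real.pi * y) := by
    rw [← Real.cos_pi_div_three, ← Real.cos_abs (2 * Real.pi * y)]
    apply Real.cos_lt_cos_of_nonneg_of_le_pi (abs_nonneg _) (by linarith [Real.pi_pos])
    rw [abs_mul, abs_of_pos (by positivity : (0 : ℝ) < 2 * Real.pi)]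
    rw [abs_mul, abs_of_pos (by norm_num : (0 : ℝ) < 6)] at h5
    have := Real.pi_pos
    nlinarith
  nlinarith

end Cfsg.Agent.H75
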