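import Cfsg.Agent.H75.Monomial
import Cfsg.Agent.H75.GalN
import Cfsg.Agent.H75.ItoConv
import Cfsg.Agent.H75.SchurBound

/-!
# Faithful characters of `p`-groups: order bound by degree and field (owner: helper75)
-/

set_option autoImplicit false
set_option linter.style.haveILetI false
set_option linter.unusedSectionVars false

namespace Cfsg.Agent.H75

open scoped ComplexConjugate
open Cfsg Cfsg.Agent.CharBase Cfsg.Agent.Char

universe u

section

variable {P : Type u} [Group P] [Fintype P] {p : ℕ} [hp : Fact p.Prime]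

theorem exists_index_vanish (hP : IsPGroup p P) (χ : IrrCharacter P)
    (hf : ∀ g : P, (χ : P → ℂ) g = (χ : P → ℂ) 1 → g = 1) (hd : (χ : P → ℂ) 1 ≠ 1) :
    ∃ H : Subgroup P, H.Normal ∧ H.index = p ∧ ∀ g, g ∉ H → (χ : P → ℂ) g = 0 := by
  classical
  haveI : Group.IsNilpotent P := hP.isNilpotent
  have hab : ¬ ∀ a b : P, a * b = b * a := fun h => hd (irr_one_of_comm h χ)
  obtain ⟨A, hA, hAab, hAnc⟩ := exists_abelian_normal_noncentral hab
  obtain ⟨T, hT, instT, ψ, hψ, hind⟩ := exists_proper_inertia χ hf A hAab hAnc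
  obtain ⟨n, hn⟩ := IsPGroup.iff_card.mp hP
  obtain ⟨j, hj⟩ := IsPGroup.iff_card.mp (hP.to_subgroup T)
  have hjn : j < n := by
    have h1 : Nat.card T < Nat.card P := lt_of_le_of_ne (Subgroup.card_le_card_group T)
      (fun h => hT (Subgroup.eq_top_of_card_eq T h))
    rw [hj, hn] at h1
    exact (Nat.pow_lt_pow_iff_right hp.out.one_lt).mp h1
  obtain ⟨H, hHcard, hTH⟩ := Sylow.exists_subgroup_card_pow_prime_le (G := P) p (n := j) (m := n - 1)
    (by rw [hn]; exact pow_dvd_pow p (by omega)) T hj (by omega)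
  have hidx : H.index = p := by
    have h1 := H.card_mul_index
    rw [hHcard, hn] at h1
    obtain ⟨n', rfl⟩ : ∃ n', n = n' + 1 := ⟨n - 1, by omega⟩
    rw [Nat.add_sub_cancel, pow_succ] at h1
    exact Nat.eq_of_mul_eq_mul_left (pow_pos hp.out.pos _) h1
  have hHn : H.Normal := by
    apply Subgroup.normal_of_index_eq_minFac_card
    rw [hidx, hn, Nat.Prime.pow_minFac hp.out (by omega)]
  refine ⟨H, hHn, hidx, fun g hg => ?_⟩
  rw [← hind, indFun_apply']
  rw [Finset.sum_eq_zero, mul_zero]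
  intro x _
  rw [extendByZero_of_notMem]
  intro h
  apply hg
  have h1 := hHn.conj_mem _ (hTH h) x⁻¹
  have h2 : x⁻¹ * (x * g * x⁻¹) * x⁻¹⁻¹ = g := by group
  rwa [h2] at h1

variable (H : Subgroup P) [hH : H.Normal] [Fintype H]

theorem restrict_index_p (hidx : H.index = p) {χ : P → ℂ} (hχ : IsIrrCharacter P χ)
    (hvan : ∀ g, g ∉ H → χ g = 0) {ψ : H → ℂ} (hψ : IsIrrCharacter H ψ)
    (hne : classInner (fun n : H => χ n) ψ ≠ 0) :
    (fun n : H => χ n) = ∑ φ ∈ orb H ψ, φ ∧ (orb H ψ).card = p := by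
  classical
  have h1 := clifford H hχ hψ hne
  obtain ⟨e, he⟩ := classInner_natCast (isCharacter_restrict (isCharacter_of_isIrr hχ) H)
    (isCharacter_of_isIrr hψ)
  rw [he] at h1 hne
  have hirr : ∀ φ ∈ orb H ψ, IsIrrCharacter H φ := by
    intro φ hφ
    obtain ⟨g, rfl⟩ := (mem_orb H).mp hφ
    exact isIrrCharacter_cj H g hψ
  -- the norm of the restriction
  have h2 : classInner (fun n : H => χ n) (fun n : H => χ n) = p := by
    have h3 := classInner_irr_self (⟨χ, hχ⟩ : IrrCharacter P)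
    unfold classInner at h3 ⊢
    have h4 : ∑ g : P, χ g * conj (χ g) = ∑ n : H, χ n * conj (χ n) := by
      rw [← Finset.sum_subset (Finset.subset_univ (Finset.univ.filter (fun g => g ∈ H)))]
      · symm
        refine Finset.sum_bij (fun n _ => (n : P)) ?_ ?_ ?_ ?_
        · intro n _; rw [Finset.mem_filter]; exact ⟨Finset.mem_univ _, n.2⟩
        · intro a _ b _ h; exact Subtype.ext h
        · intro g hg; exact ⟨⟨g, (Finset.mem_filter.mp hg).2⟩, Finset.mem_univ _, rfl⟩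
        · intro n _; rfl
      · intro g _ hg
        have : g ∉ H := fun h => hg (Finset.mem_filter.mpr ⟨Finset.mem_univ _, h⟩)
        rw [hvan g this, zero_mul]
    have h3' : (Nat.card P : ℂ)⁻¹ * ∑ g : P, χ g * conj (χ g) = 1 := h3
    rw [h4] at h3'
    have h5 : (Nat.card P : ℂ) = (Nat.card H : ℂ) * p := by
      rw [← Nat.cast_mul, ← hidx, H.card_mul_index]
    have hH0 : (Nat.card H : ℂ) ≠ 0 := by exact_mod_cast Nat.card_pos.ne'
    have hp0 : (p : ℂ) ≠ 0 := by exact_mod_cast hp.out.ne_zero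
    rw [h5] at h3'
    field_simp at h3' ⊢
    rw [h3']
  have h6 : classInner (∑ φ ∈ orb H ψ, φ) (∑ φ ∈ orb H ψ, φ) = (orb H ψ).card := by
    rw [classInner_sum_left]
    have : ∀ φ ∈ orb H ψ, classInner φ (∑ φ' ∈ orb H ψ, φ') = 1 := by
      intro φ hφ
      rw [classInner_sum_right]
      rw [Finset.sum_eq_single_of_mem φ hφ fun φ' hφ' hne' =>
        classInner_irr_of_ne (χ := ⟨φ, hirr φ hφ⟩) (ψ := ⟨φ', hirr φ' hφ'⟩)
          (fun h => hne' (congrArg Subtype.val h).symm)]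
      exact classInner_irr_self (⟨φ, hirr φ hφ⟩ : IrrCharacter H)
    rw [Finset.sum_congr rfl this, Finset.sum_const, nsmul_eq_mul, mul_one]
  rw [h1, classInner_smul_left, classInner_smul_right, h6] at h2
  have h7 : e * (e * (orb H ψ).card) = p := by
    have : (e : ℂ) * (conj (e : ℂ) * (orb H ψ).card) = p := h2
    rw [Complex.conj_natCast] at this
    exact_mod_cast this
  have h8 : e = 1 := by
    rcases (Nat.dvd_prime hp.out).mp (Dvd.intro _ h7) with h | h
    · exact h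
    · exfalso
      rw [h] at h7
      have h9 : p * (p * (orb H ψ).card) = p * 1 := by rw [h7, mul_one]
      have h10 := Nat.eq_of_mul_eq_mul_left hp.out.pos h9
      exact hp.out.one_lt.ne' (Nat.eq_one_of_mul_eq_one_right h10)
  rw [h8] at h7 h1
  refine ⟨?_, by simpa using h7⟩
  rw [h1]; simp

end

section GalOrb

/-- the Galois orbit of a function -/
def galOrb (p : ℕ) {H : Type u} [Group H] (f : H → ℂ) : Set (H → ℂ) :=
  {φ | ∃ k : ℕ, ¬ p ∣ k ∧ φ = tau k f}

theorem tau_tau {H : Type u} [Group H] (k l : ℕ) (f : H → ℂ) :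
    tau k (tau l f) = tau (k * l) f := by
  funext h
  simp only [tau, ← pow_mul]

theorem tau_comm {H : Type u} [Group H] (k l : ℕ) (f : H → ℂ) :
    tau k (tau l f) = tau l (tau k f) := by
  rw [tau_tau, tau_tau, mul_comm]

theorem galOrb_finite {p : ℕ} {H : Type u} [Group H] [Finite H] (f : H → ℂ) :
    (galOrb p f).Finite := by
  refine (((Finset.range (Nat.card H)).finite_toSet).image (fun k => tau k f)).subset ?_
  rintro _ ⟨k, -, rfl⟩
  refine ⟨k % Nat.card H, ?_, ?_⟩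
  · simp [Nat.mod_lt _ Nat.card_pos]
  · funext h
    simp only [tau]
    congr 1
    rw [pow_eq_pow_iff_modEq]
    exact (Nat.mod_modEq k _).of_dvd (orderOf_dvd_natCard h)

theorem ncard_galOrb_le {P : Type u} [Group P] [Finite P] {p : ℕ} [hp : Fact p.Prime]
    (hP : IsPGroup p P) {χ : P → ℂ} (hχ : IsCharacter P χ)
    [FiniteDimensional ℚ (IntermediateField.adjoin ℚ (Set.range χ))] :
    (galOrb p χ).ncard ≤ Module.finrank ℚ (IntermediateField.adjoin ℚ (Set.range χ)) := by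
  classical
  set K := IntermediateField.adjoin ℚ (Set.range χ) with hK
  have hmem : ∀ g, χ g ∈ K := fun g => IntermediateField.subset_adjoin ℚ _ ⟨g, rfl⟩
  have h1 : ∀ φ : galOrb p χ, ∃ f : K →ₐ[ℚ] ℂ, ∀ g, f ⟨χ g, hmem g⟩ = φ.1 g := by
    rintro ⟨_, k, hk, rfl⟩
    have hcop : k.Coprime (Nat.card P) := by
      obtain ⟨a, ha⟩ := IsPGroup.iff_card.mp hP
      rw [ha]
      exact Nat.Coprime.pow_right _ ((Nat.Prime.coprime_iff_not_dvd hp.out).mpr hk).symm
    obtain ⟨σ, hσ⟩ := exists_aut_pow Nat.card_pos.ne' hcop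
    refine ⟨((σ : ℂ →+* ℂ).comp (algebraMap K ℂ)).toRatAlgHom, fun g => ?_⟩
    exact map_char_eq hχ g (orderOf_dvd_natCard g) σ hσ
  choose f hf using h1
  have hinj : Function.Injective f := by
    intro a b hab
    apply Subtype.ext
    funext g
    rw [← hf a, ← hf b, hab]
  rw [← Nat.card_coe_set_eq]
  exact (Nat.card_le_card_of_injective f hinj).trans (card_algHom_le_finrank ℚ K ℂ)

end GalOrb

section Step

variable {P : Type u} [Group P] [Fintype P] {p : ℕ} [hp : Fact p.Prime]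

theorem coprime_of_not_dvd (hP : IsPGroup p P) {k : ℕ} (hk : ¬ p ∣ k) : k.Coprime (Nat.card P) := by
  obtain ⟨a, ha⟩ := IsPGroup.iff_card.mp hP
  rw [ha]
  exact Nat.Coprime.pow_right _ ((Nat.Prime.coprime_iff_not_dvd hp.out).mpr hk).symm

theorem exists_inv_exp (hP : IsPGroup p P) {k : ℕ} (hk : ¬ p ∣ k) :
    ∃ l : ℕ, ¬ p ∣ l ∧ l * k ≡ 1 [MOD Nat.card P] := by
  have h1 := Nat.ModEq.pow_totient (coprime_of_not_dvd hP hk)
  have h2 : 0 < (Nat.card P).totient := Nat.totient_pos.mpr Nat.card_pos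
  refine ⟨k ^ ((Nat.card P).totient - 1), fun h => hk (hp.out.dvd_of_dvd_pow h), ?_⟩
  rw [← pow_succ, Nat.sub_add_cancel h2]
  exact h1

variable (H : Subgroup P) [hH : H.Normal] [Fintype H]

theorem pow_notMem (hidx : H.index = p) {g : P} (hg : g ∉ H) {k : ℕ} (hk : ¬ p ∣ k) :
    g ^ k ∉ H := by
  intro h
  apply hg
  have h1 : g ^ p ∈ H := by rw [← hidx]; exact H.pow_index_mem g
  have h2 : (k : ℕ).Coprime p := ((Nat.Prime.coprime_iff_not_dvd hp.out).mpr hk).symm
  have h3 := Nat.gcd_eq_gcd_ab k p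
  rw [h2] at h3
  have h4 : g = (g ^ k) ^ (k.gcdA p) * (g ^ p) ^ (k.gcdB p) := by
    rw [← zpow_natCast, ← zpow_natCast, ← zpow_mul, ← zpow_mul, ← zpow_add, ← h3]
    simp
  rw [h4]
  exact H.mul_mem (H.zpow_mem h _) (H.zpow_mem h1 _)

/-- all data attached to a faithful irreducible character vanishing off a subgroup of index `p`. -/
structure StepData (p : ℕ) (χ : P → ℂ) (ψ : H → ℂ) : Prop where
  hP : IsPGroup p P
  hidx : H.index = p
  hχ : IsIrrCharacter P χ
  hvan : ∀ g, g ∉ H → χ g = 0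
  hψ : IsIrrCharacter H ψ
  hne : classInner (fun n : H => χ n) ψ ≠ 0

variable {H} {χ : P → ℂ} {ψ : H → ℂ}

theorem StepData.tau (h : StepData H p χ ψ) {k : ℕ} (hk : ¬ p ∣ k) :
    StepData H p (tau k χ) (tau k ψ) where
  hP := h.hP
  hidx := h.hidx
  hχ := tau_irr (coprime_of_not_dvd h.hP hk) h.hχ
  hvan := fun g hg => h.hvan _ (pow_notMem H h.hidx hg hk)
  hψ := tau_irr (coprime_of_not_dvd (h.hP.to_subgroup H) hk) h.hψ
  hne := by
    have h1 : (fun n : H => H75.tau k χ n) = H75.tau k (fun n : H => χ n) := rfl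
    rw [h1, classInner_tau (coprime_of_not_dvd (h.hP.to_subgroup H) hk)]
    exact h.hne

theorem StepData.eq_of (h : StepData H p χ ψ) {χ' : P → ℂ} (h' : StepData H p χ' ψ) : χ = χ' := by
  have h1 := (restrict_index_p H h.hidx h.hχ h.hvan h.hψ h.hne).1
  have h2 := (restrict_index_p H h'.hidx h'.hχ h'.hvan h'.hψ h'.hne).1
  funext g
  by_cases hg : g ∈ H
  · have := congrFun (h1.trans h2.symm) ⟨g, hg⟩
    exact this
  · rw [h.hvan g hg, h'.hvan g hg]

theorem StepData.cj (h : StepData H p χ ψ) (g : P) : StepData H p χ (cj H g ψ) where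
  hP := h.hP
  hidx := h.hidx
  hχ := h.hχ
  hvan := h.hvan
  hψ := isIrrCharacter_cj H g h.hψ
  hne := by
    rw [classInner_restrict_cj H (isClassFunction_of_isCharacter (isCharacter_of_isIrr h.hχ))]
    exact h.hne

theorem StepData.conj_of (h : StepData H p χ ψ) {ψ' : H → ℂ} (h' : StepData H p χ ψ') :
    ∃ g : P, Char.cj H g ψ = ψ' :=
  exists_conj_of_constituents H h.hχ h.hψ h'.hψ h.hne h'.hne

/-- the subgroup of elements acting on `ψ` as Galois automorphisms -/
def galStab (hP : IsPGroup p P) (H : Subgroup P) [hH : H.Normal] [Fintype H] (ψ : H → ℂ) :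
    Subgroup P where
  carrier := {g | ∃ k : ℕ, ¬ p ∣ k ∧ Char.cj H g ψ = tau k ψ}
  one_mem' := ⟨1, hp.out.one_lt.ne' ∘ Nat.dvd_one.mp, by
    rw [cj_one]; funext h; simp [tau]⟩
  mul_mem' := by
    rintro g h ⟨k, hk, e1⟩ ⟨l, hl, e2⟩
    refine ⟨k * l, fun hd => (hp.out.dvd_mul.mp hd).elim hk hl, ?_⟩
    rw [cj_mul, e1, cj_tau, e2, tau_tau]
  inv_mem' := by
    rintro g ⟨k, hk, e1⟩
    obtain ⟨l, hl, hkl⟩ := exists_inv_exp hP hk
    refine ⟨l, hl, ?_⟩
    have h1 : H75.tau l (Char.cj H g ψ) = ψ := by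
      rw [e1, tau_tau]
      exact tau_eq_self_of_modEq (Subgroup.card_subgroup_dvd_card H) hkl ψ
    calc Char.cj H g⁻¹ ψ = Char.cj H g⁻¹ (H75.tau l (Char.cj H g ψ)) := by rw [h1]
      _ = H75.tau l ψ := by rw [cj_tau, cj_inv_cj]

theorem mem_galStab {hP : IsPGroup p P} {g : P} :
    g ∈ galStab hP H ψ ↔ ∃ k : ℕ, ¬ p ∣ k ∧ Char.cj H g ψ = tau k ψ := Iff.rfl

theorem StepData.le_galStab (h : StepData H p χ ψ) : H ≤ galStab h.hP H ψ := by
  intro g hg
  refine ⟨1, hp.out.one_lt.ne' ∘ Nat.dvd_one.mp, ?_⟩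
  rw [cj_of_mem H g hg (isClassFunction_of_isCharacter (isCharacter_of_isIrr h.hψ))]
  funext h; simp [H75.tau]

theorem StepData.galStab_eq (h : StepData H p χ ψ) :
    galStab h.hP H ψ = H ∨ galStab h.hP H ψ = ⊤ := by
  have h1 : (galStab h.hP H ψ).index ∣ p :=
    (Subgroup.index_dvd_of_le h.le_galStab).trans (dvd_of_eq h.hidx)
  rcases (Nat.dvd_prime hp.out).mp h1 with h2 | h2
  · right; exact Subgroup.index_eq_one.mp h2
  · left
    symm
    apply Subgroup.eq_of_le_of_card_ge h.le_galStab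
    have e1 := H.card_mul_index
    have e2 := (galStab h.hP H ψ).card_mul_index
    rw [h2] at e2
    rw [h.hidx, ← e2] at e1
    exact (Nat.eq_of_mul_eq_mul_right hp.out.pos e1).ge

open Classical in
/-- the induced function, in a form convenient for counting -/
noncomputable def upFun (H : Subgroup P) [hH : H.Normal] (φ : H → ℂ) : P → ℂ :=
  fun g => if hg : g ∈ H then ∑ φ' ∈ orb H φ, φ' ⟨g, hg⟩ else 0

theorem StepData.upFun_eq (h : StepData H p χ ψ) : upFun H ψ = χ := by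
  classical
  have h1 := (restrict_index_p H h.hidx h.hχ h.hvan h.hψ h.hne).1
  funext g
  unfold upFun
  split_ifs with hg
  · have := congrFun h1 ⟨g, hg⟩
    rw [Finset.sum_apply] at this
    exact this.symm
  · exact (h.hvan g hg).symm

theorem StepData.ncard_le_of_eq (h : StepData H p χ ψ) (hD : galStab h.hP H ψ = H) :
    (galOrb p ψ).ncard ≤ (galOrb p χ).ncard := by
  classical
  refine Set.ncard_le_ncard_of_injOn (upFun H) ?_ ?_ (galOrb_finite χ)
  · rintro _ ⟨k, hk, rfl⟩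
    exact ⟨k, hk, (h.tau hk).upFun_eq⟩
  · rintro _ ⟨k, hk, rfl⟩ _ ⟨l, hl, rfl⟩ hkl
    rw [(h.tau hk).upFun_eq, (h.tau hl).upFun_eq] at hkl
    have h1 := h.tau hk
    have h2 := h.tau hl
    rw [← hkl] at h2
    obtain ⟨g, hg⟩ := h1.conj_of h2
    rw [cj_tau] at hg
    obtain ⟨k', hk', hkk⟩ := exists_inv_exp h.hP hk
    have h3 : Char.cj H g ψ = H75.tau (k' * l) ψ := by
      rw [← tau_tau, ← hg, tau_tau]
      exact (tau_eq_self_of_modEq (Subgroup.card_subgroup_dvd_card H) hkk _).symm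
    have h4 : g ∈ galStab h.hP H ψ :=
      ⟨k' * l, fun hd => (hp.out.dvd_mul.mp hd).elim hk' hl, h3⟩
    rw [hD] at h4
    rw [cj_of_mem H g h4 (isClassFunction_of_isCharacter (isCharacter_of_isIrr h.hψ))] at hg
    exact hg

theorem StepData.ncard_le_mul (h : StepData H p χ ψ) :
    (galOrb p ψ).ncard ≤ p * (galOrb p χ).ncard := by
  classical
  set S := (galOrb_finite (p := p) ψ).toFinset with hS
  set T := (galOrb_finite (p := p) χ).toFinset with hT
  have h1 : S.card = (galOrb p ψ).ncard := (Set.ncard_eq_toFinset_card _ _).symm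
  have h2 : T.card = (galOrb p χ).ncard := (Set.ncard_eq_toFinset_card _ _).symm
  rw [← h1, ← h2]
  have h3 : S.card ≤ p * (S.image (upFun H)).card := by
    refine Finset.card_le_mul_card_image S p fun b hb => ?_
    obtain ⟨φ, hφ, rfl⟩ := Finset.mem_image.mp hb
    obtain ⟨k, hk, rfl⟩ := (Set.Finite.mem_toFinset _).mp hφ
    have h5 := h.tau hk
    rw [← (restrict_index_p H h5.hidx h5.hχ h5.hvan h5.hψ h5.hne).2]
    apply Finset.card_le_card
    intro φ' hφ'
    rw [Finset.mem_filter] at hφ'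
    obtain ⟨l, hl, rfl⟩ := (Set.Finite.mem_toFinset _).mp hφ'.1
    have h6 := hφ'.2
    rw [(h.tau hl).upFun_eq, (h.tau hk).upFun_eq] at h6
    have h7 := h.tau hl
    rw [h6] at h7
    obtain ⟨g, hg⟩ := h5.conj_of h7
    exact (mem_orb H).mpr ⟨g, hg⟩
  refine h3.trans (Nat.mul_le_mul_left p (Finset.card_le_card ?_))
  intro b hb
  obtain ⟨φ, hφ, rfl⟩ := Finset.mem_image.mp hb
  obtain ⟨k, hk, rfl⟩ := (Set.Finite.mem_toFinset _).mp hφ
  rw [hT, Set.Finite.mem_toFinset]
  exact ⟨k, hk, (h.tau hk).upFun_eq⟩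

theorem StepData.eq_one_of_forall (h : StepData H p χ ψ) (hf : ∀ g : P, χ g = χ 1 → g = 1) {x : H}
    (hx : ∀ φ ∈ orb H ψ, φ x = φ 1) : x = 1 := by
  classical
  have h1 := (restrict_index_p H h.hidx h.hχ h.hvan h.hψ h.hne).1
  have e1 := congrFun h1 x
  have e2 := congrFun h1 1
  rw [Finset.sum_apply] at e1 e2
  have e3 : χ x = χ ((1 : H) : P) := by
    rw [e1, e2]
    exact Finset.sum_congr rfl hx
  exact Subtype.ext (hf _ e3)

/-- if all conjugates are Galois conjugates then `ψ` is faithful -/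
theorem StepData.faithful_of_top (h : StepData H p χ ψ) (hf : ∀ g : P, χ g = χ 1 → g = 1)
    (hD : galStab h.hP H ψ = ⊤) (x : H) (hx : ψ x = ψ 1) : x = 1 := by
  refine h.eq_one_of_forall hf fun φ hφ => ?_
  obtain ⟨g, rfl⟩ := (mem_orb H).mp hφ
  have hg : g ∈ galStab h.hP H ψ := by rw [hD]; trivial
  obtain ⟨k, -, hk⟩ := hg
  rw [hk, tau_apply, tau_apply, one_pow]
  have hc := isCharacter_of_isIrr h.hψ
  have h1 : x ∈ charKer hc := hx
  exact (charKer hc).pow_mem h1 k

theorem StepData.card_le (h : StepData H p χ ψ) (hf : ∀ g : P, χ g = χ 1 → g = 1) :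
    Nat.card H ≤ (charKer (isCharacter_of_isIrr h.hψ)).index ^ p := by
  classical
  have hc := isCharacter_of_isIrr h.hψ
  let K : orb H ψ → Subgroup H := fun φ => charKer (χ := φ.1) (by
    obtain ⟨g, hg⟩ := (mem_orb H).mp φ.2
    rw [← hg]
    exact isCharacter_cj H g hc)
  have hmem : ∀ (φ : orb H ψ) (x : H), x ∈ K φ ↔ φ.1 x = φ.1 1 := fun φ x => Iff.rfl
  have hidx : ∀ φ, (K φ).index = (charKer hc).index := by
    intro φ
    obtain ⟨g, hg⟩ := (mem_orb H).mp φ.2
    have : K φ = (charKer hc).comap (cjEquiv H g).toMonoidHom := by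
      ext x
      rw [hmem, ← hg, Subgroup.mem_comap, mem_charKer, cj_eq_comp]
      simp
    rw [this]
    exact Subgroup.index_comap_of_surjective _ (cjEquiv H g).surjective
  have h1 : (⨅ φ, K φ) = ⊥ := by
    rw [eq_bot_iff]
    intro x hx
    rw [Subgroup.mem_iInf] at hx
    rw [Subgroup.mem_bot]
    exact h.eq_one_of_forall hf fun φ hφ => (hmem ⟨φ, hφ⟩ x).mp (hx ⟨φ, hφ⟩)
  have h2 := Subgroup.index_iInf_le K
  rw [h1, Subgroup.index_bot, Finset.prod_congr rfl fun φ _ => hidx φ, Finset.prod_const,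
    Finset.card_univ, Fintype.card_coe,
    (restrict_index_p H h.hidx h.hχ h.hvan h.hψ h.hne).2] at h2
  exact h2

/-- `ψ` is not trivial -/
theorem StepData.ker_ne_top (h : StepData H p χ ψ) :
    charKer (isCharacter_of_isIrr h.hψ) ≠ ⊤ := by
  classical
  intro ht
  have h1 : ∀ x, ψ x = ψ 1 := fun x => by
    have : x ∈ charKer (isCharacter_of_isIrr h.hψ) := by rw [ht]; trivial
    exact this
  have h2 : orb H ψ = {ψ} := by
    ext φ
    rw [mem_orb, Finset.mem_singleton]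
    constructor
    · rintro ⟨g, rfl⟩
      funext x
      rw [cj_apply, h1, h1 x]
    · rintro rfl; exact ⟨1, cj_one H _⟩
  have h3 := (restrict_index_p H h.hidx h.hχ h.hvan h.hψ h.hne).2
  rw [h2, Finset.card_singleton] at h3
  exact hp.out.one_lt.ne h3

end Step

section Main

variable {p : ℕ} [hp : Fact p.Prime]

theorem linear_bound {P : Type u} [Group P] [Fintype P] {a : ℕ} (hcard : Nat.card P = p ^ (a + 1))
    (χ : IrrCharacter P) (hf : ∀ g : P, (χ : P → ℂ) g = (χ : P → ℂ) 1 → g = 1)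
    (h1 : (χ : P → ℂ) 1 = 1) : (p - 1) * p ^ a ≤ (galOrb p (χ : P → ℂ)).ncard := by
  classical
  have hmul := linChar_mul (irr_isCharacter χ) h1
  let f : P →* ℂ := { toFun := (χ : P → ℂ), map_one' := h1, map_mul' := hmul }
  have hinj : Function.Injective f := by
    intro x y hxy
    have e1 : (χ : P → ℂ) x = (χ : P → ℂ) y := hxy
    have h2 : (χ : P → ℂ) (x * y⁻¹) = (χ : P → ℂ) 1 := by
      rw [hmul, e1, ← hmul, mul_inv_cancel]
    exact mul_inv_eq_one.mp (hf _ h2)
  haveI : IsCyclic P := isCyclic_of_injective_ringHom f hinj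
  obtain ⟨g, hg⟩ := IsCyclic.exists_generator (α := P)
  have hord : orderOf g = p ^ (a + 1) := by
    rw [← hcard]; exact orderOf_eq_card_of_forall_mem_zpowers hg
  have hcardf : ((Finset.range (p ^ (a + 1))).filter (fun j => ¬ p ∣ j)).card = (p - 1) * p ^ a := by
    have h2 := card_filter_not_dvd hp.out a
    have h3 : ((((p - 1) * p ^ a : ℕ)) : ℂ) = (p : ℂ) ^ a * (p - 1) := by
      push_cast [Nat.cast_sub hp.out.one_le]; ring
    rw [← h3] at h2
    exact_mod_cast h2
  rw [← hcardf, ← Set.ncard_coe_finset]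
  refine Set.ncard_le_ncard_of_injOn (fun k => tau k (χ : P → ℂ)) ?_ ?_ (galOrb_finite _)
  · intro k hk
    have := (Finset.mem_filter.mp (Finset.mem_coe.mp hk)).2
    exact ⟨k, this, rfl⟩
  · intro k hk l hl hkl
    have hk' := Finset.mem_range.mp (Finset.mem_filter.mp (Finset.mem_coe.mp hk)).1
    have hl' := Finset.mem_range.mp (Finset.mem_filter.mp (Finset.mem_coe.mp hl)).1
    have h2 : (χ : P → ℂ) (g ^ k) = (χ : P → ℂ) (g ^ l) := congrFun hkl g
    have h3 : g ^ k = g ^ l := hinj h2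
    rw [pow_inj_mod, hord, Nat.mod_eq_of_lt hk', Nat.mod_eq_of_lt hl'] at h3
    exact h3

theorem arith1 {p m a a' t : ℕ} (hp : 2 ≤ p) (h1 : a ≤ p * a')
    (h2 : (p - 1) * a' ≤ (p ^ m - 1) + (p - 1) * (t + 1) * p ^ m) :
    (p - 1) * (a + 1) ≤ (p ^ (m + 1) - 1) + (p - 1) * (t + 1) * p ^ (m + 1) := by
  obtain ⟨q, rfl⟩ : ∃ q, p = q + 1 := ⟨p - 1, by omega⟩
  have e : q + 1 - 1 = q := by omega
  rw [e] at h2 ⊢
  obtain ⟨r, hr⟩ : ∃ r, (q + 1) ^ m = r + 1 := ⟨(q + 1) ^ m - 1, by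
    have : 0 < (q + 1) ^ m := pow_pos (by omega) _
    omega⟩
  have e2 : r + 1 - 1 = r := by omega
  rw [hr, e2] at h2
  rw [pow_succ, hr]
  have h3 : (r + 1) * (q + 1) - 1 = r * (q + 1) + q := by
    have : (r + 1) * (q + 1) = r * (q + 1) + q + 1 := by ring
    omega
  rw [h3]
  nlinarith [Nat.mul_le_mul_left q h1, Nat.mul_le_mul_left (q + 1) h2]

theorem arith2 {p m a' t : ℕ} (hp : 2 ≤ p)
    (h2 : (p - 1) * a' ≤ (p ^ m - 1) + (p - 1) * (t + 2) * p ^ m) :
    (p - 1) * (a' + 1) ≤ (p ^ (m + 1) - 1) + (p - 1) * (t + 1) * p ^ (m + 1) := by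
  obtain ⟨q, rfl⟩ : ∃ q, p = q + 1 := ⟨p - 1, by omega⟩
  have e : q + 1 - 1 = q := by omega
  rw [e] at h2 ⊢
  obtain ⟨r, hr⟩ : ∃ r, (q + 1) ^ m = r + 1 := ⟨(q + 1) ^ m - 1, by
    have : 0 < (q + 1) ^ m := pow_pos (by omega) _
    omega⟩
  have e2 : r + 1 - 1 = r := by omega
  rw [hr, e2] at h2
  rw [pow_succ, hr]
  have h3 : (r + 1) * (q + 1) - 1 = r * (q + 1) + q := by
    have : (r + 1) * (q + 1) = r * (q + 1) + q + 1 := by ring
    omega
  rw [h3]
  have hq : 1 ≤ q := by omega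
  have h4 : q * (t + 2) * (r + 1) ≤ q * (t + 1) * ((r + 1) * (q + 1)) := by
    have : (t + 2) ≤ (t + 1) * (q + 1) := by nlinarith
    calc q * (t + 2) * (r + 1) ≤ q * ((t + 1) * (q + 1)) * (r + 1) :=
          Nat.mul_le_mul_right _ (Nat.mul_le_mul_left _ this)
      _ = _ := by ring
  have h5 : q * (a' + 1) = q * a' + q := by ring
  rw [h5]
  have h6 : r ≤ r * (q + 1) := Nat.le_mul_of_pos_right r (by omega)
  omega

theorem field_bound_aux (m : ℕ) : ∀ (P : Type u) [Group P] [Fintype P] (a t : ℕ)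
    (χ : IrrCharacter P), Nat.card P = p ^ a → 0 < a →
    (∀ g : P, (χ : P → ℂ) g = (χ : P → ℂ) 1 → g = 1) → (χ : P → ℂ) 1 = ((p ^ m : ℕ) : ℂ) →
    (galOrb p (χ : P → ℂ)).ncard ≤ (p - 1) * p ^ t →
    (p - 1) * a ≤ (p ^ m - 1) + (p - 1) * (t + 1) * p ^ m := by
  classical
  have hp1 : 0 < p - 1 := Nat.sub_pos_of_lt hp.out.one_lt
  induction m with
  | zero =>
    intro P _ _ a t χ hcard ha hf h1 hR
    obtain ⟨b, rfl⟩ : ∃ b, a = b + 1 := ⟨a - 1, by omega⟩
    have h2 := (linear_bound hcard χ hf (by simpa using h1)).trans hR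
    have h3 := Nat.le_of_mul_le_mul_left h2 hp1
    have h4 : b ≤ t := (Nat.pow_le_pow_iff_right hp.out.one_lt).mp h3
    simp only [pow_zero, Nat.sub_self, zero_add, mul_one]
    exact Nat.mul_le_mul_left _ (by omega)
  | succ m ih =>
    intro P _ _ a t χ hcard ha hf h1 hR
    obtain ⟨b, rfl⟩ : ∃ b, a = b + 1 := ⟨a - 1, by omega⟩
    have hP : IsPGroup p P := IsPGroup.of_card hcard
    have hd : (χ : P → ℂ) 1 ≠ 1 := by
      rw [h1]
      intro h
      have h2 : p ^ (m + 1) = 1 := by exact_mod_cast h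
      have h3 : 1 < p ^ (m + 1) := Nat.one_lt_pow (by omega) hp.out.one_lt
      omega
    obtain ⟨H, hHn, hidx, hvan⟩ := exists_index_vanish hP χ hf hd
    haveI := Fintype.ofFinite H
    obtain ⟨ψ, hψ, hne⟩ := exists_constituent_restrict H (irr_isCharacter χ)
      (irr_one_ne_zero χ.2)
    have h : StepData H p (χ : P → ℂ) ψ := ⟨hP, hidx, χ.2, hvan, hψ, hne⟩
    have hcardH : Nat.card H = p ^ b := by
      have e1 := H.card_mul_index
      rw [hidx, hcard, pow_succ] at e1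
      exact Nat.eq_of_mul_eq_mul_right hp.out.pos e1
    have hψ1 : ψ 1 = ((p ^ m : ℕ) : ℂ) := by
      have e1 := (restrict_index_p H h.hidx h.hχ h.hvan h.hψ h.hne)
      have e2 := congrFun e1.1 1
      rw [Finset.sum_apply] at e2
      have e3 : ∀ φ ∈ orb H ψ, φ 1 = ψ 1 := by
        intro φ hφ
        obtain ⟨g, rfl⟩ := (mem_orb H).mp hφ
        exact cj_one_apply H g ψ
      rw [Finset.sum_congr rfl e3, Finset.sum_const, e1.2, nsmul_eq_mul] at e2
      have e4 : (χ : P → ℂ) ((1 : H) : P) = ((p ^ (m + 1) : ℕ) : ℂ) := h1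
      rw [e4, pow_succ'] at e2
      push_cast at e2 ⊢
      exact (mul_left_cancel₀ (by exact_mod_cast hp.out.ne_zero) e2).symm
    set N := charKer (isCharacter_of_isIrr h.hψ) with hN
    haveI hNn : N.Normal := charKer_normal _
    haveI := Fintype.ofFinite (H ⧸ N)
    obtain ⟨ψ', hψ', hdef⟩ := exists_deflate_irr N hψ (fun n hn => hn)
    obtain ⟨a', ha'⟩ := IsPGroup.iff_card.mp ((hP.to_subgroup H).to_quotient N)
    have hNidx : N.index = p ^ a' := ha'
    have ha'pos : 0 < a' := by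
      rcases Nat.eq_zero_or_pos a' with h0 | h0
      · exfalso
        apply h.ker_ne_top
        rw [h0, pow_zero] at hNidx
        exact Subgroup.index_eq_one.mp hNidx
      · exact h0
    have hf' : ∀ x : H ⧸ N, ψ' x = ψ' 1 → x = 1 := by
      intro x
      obtain ⟨y, rfl⟩ := QuotientGroup.mk_surjective x
      intro hy
      have e0 : (1 : H ⧸ N) = QuotientGroup.mk 1 := rfl
      rw [e0, hdef, hdef] at hy
      exact (QuotientGroup.eq_one_iff y).mpr hy
    have hψ'1 : ψ' 1 = ((p ^ m : ℕ) : ℂ) := by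
      have e0 : (1 : H ⧸ N) = QuotientGroup.mk 1 := rfl
      rw [e0, hdef, hψ1]
    have hR' : (galOrb p ψ').ncard ≤ (galOrb p ψ).ncard := by
      refine Set.ncard_le_ncard_of_injOn (fun φ (y : H) => φ (QuotientGroup.mk y)) ?_ ?_
        (galOrb_finite _)
      · rintro _ ⟨k, hk, rfl⟩
        refine ⟨k, hk, ?_⟩
        funext y
        simp only [tau]
        rw [← QuotientGroup.mk_pow, hdef]
      · intro φ _ φ' _ hφ
        funext x
        obtain ⟨y, rfl⟩ := QuotientGroup.mk_surjective x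
        exact congrFun hφ y
    have key : ∀ t' : ℕ, (galOrb p ψ).ncard ≤ (p - 1) * p ^ t' →
        (p - 1) * a' ≤ (p ^ m - 1) + (p - 1) * (t' + 1) * p ^ m := fun t' ht' =>
      ih (H ⧸ N) a' t' ⟨ψ', hψ'⟩ ha' ha'pos hf' hψ'1 (hR'.trans ht')
    rcases h.galStab_eq with hD | hD
    · have h2 := key t ((h.ncard_le_of_eq hD).trans hR)
      have h3 := h.card_le hf
      rw [← hN, hNidx, hcardH, ← pow_mul] at h3
      have h4 := (Nat.pow_le_pow_iff_right hp.out.one_lt).mp h3
      exact arith1 hp.out.two_le (by rw [mul_comm]; exact h4) h2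
    · have h2 := key (t + 1) (by
        refine h.ncard_le_mul.trans ((Nat.mul_le_mul_left p hR).trans (le_of_eq ?_))
        rw [pow_succ]; ring)
      have hNbot : N = ⊥ := by
        rw [eq_bot_iff]
        intro x hx
        exact Subgroup.mem_bot.mpr (h.faithful_of_top hf hD x hx)
      have hab : a' = b := by
        rw [hNbot, Subgroup.index_bot, hcardH] at hNidx
        exact (Nat.pow_right_injective hp.out.two_le hNidx).symm
      subst hab
      exact arith2 hp.out.two_le h2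

end Main

end Cfsg.Agent.H75
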