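import Cfsg.Agent.Blk.Local
import Cfsg.Agent.Char.Galois

/-!
# Integrality from local integrality of all conjugates (owner: helper75)
-/

set_option autoImplicit false
set_option linter.style.haveILetI false
set_option linter.unusedSectionVars false

namespace Cfsg.Agent.H75

open scoped ComplexConjugate
open Cfsg Cfsg.Agent.CharBase Cfsg.Agent.Blk Polynomial

/-- Let `z` be an element of the `n`-th cyclotomic field with `q`-power denominator, all of whose
conjugates are local integers at `M` (over `q`). Then `z` is an algebraic integer. -/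
theorem isIntegral_of_conj_local {q : ℕ} {M : Ideal AlgInt} (hM : IsPModular q M) {n : ℕ}
    (hn : n ≠ 0) (z : ℂ) (b : ℕ) (hz : (q : ℂ) ^ b * z ∈ Subring.closure {ζ : ℂ | ζ ^ n = 1})
    (hloc : ∀ (k : ℕ) (σ : ℂ ≃+* ℂ), k.Coprime n → (∀ ζ : ℂ, ζ ^ n = 1 → σ ζ = ζ ^ k) →
      MemLocalRing M (σ z)) : IsIntegral ℤ z := by
  classical
  haveI : M.IsPrime := hM.2.1.isPrime
  haveI : NeZero n := ⟨hn⟩
  have hq0 : (q : ℂ) ≠ 0 := Nat.cast_ne_zero.mpr hM.1.ne_zero
  set D : Subring ℂ := Subring.closure {ζ : ℂ | ζ ^ n = 1} with hD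
  -- automorphisms agree on z when they agree on roots of unity
  have hagree : ∀ σ σ' : ℂ ≃+* ℂ, (∀ ζ : ℂ, ζ ^ n = 1 → σ ζ = σ' ζ) → σ z = σ' z := by
    intro σ σ' h
    have h1 : Set.EqOn (σ : ℂ →+* ℂ) (σ' : ℂ →+* ℂ) (Subring.closure {ζ : ℂ | ζ ^ n = 1}) :=
      RingHom.eqOn_set_closure (fun ζ hζ => h ζ hζ)
    have h2 : σ ((q : ℂ) ^ b * z) = σ' ((q : ℂ) ^ b * z) := h1 hz
    rw [map_mul, map_mul, map_pow, map_pow, map_natCast, map_natCast] at h2
    exact mul_left_cancel₀ (pow_ne_zero _ hq0) h2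
  have hex : ∀ u : (ZMod n)ˣ, ∃ σ : ℂ ≃+* ℂ, ∀ ζ : ℂ, ζ ^ n = 1 → σ ζ = ζ ^ (u : ZMod n).val :=
    fun u => Char.exists_aut_pow hn (ZMod.val_coe_unit_coprime u)
  choose s hs using hex
  set P : ℂ[X] := ∏ u : (ZMod n)ˣ, (X - C (s u z)) with hP
  have hmonic : P.Monic := monic_prod_of_monic _ _ fun u _ => monic_X_sub_C _
  have heval : P.eval z = 0 := by
    rw [hP, eval_prod]
    refine Finset.prod_eq_zero (Finset.mem_univ (1 : (ZMod n)ˣ)) ?_
    have : s 1 z = z := by
      have := hagree (s 1) (RingEquiv.refl ℂ) (fun ζ hζ => by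
        rw [hs 1 ζ hζ, RingEquiv.refl_apply]
        have h1 : ζ ^ ((1 : (ZMod n)ˣ) : ZMod n).val = ζ ^ 1 := by
          refine pow_eq_pow_of_modEq ?_ hζ
          have := ZMod.natCast_eq_natCast_iff ((1 : (ZMod n)ˣ) : ZMod n).val 1 n
          rw [← this, ZMod.natCast_zmod_val]; simp
        rw [h1, pow_one])
      exact this
    rw [eval_sub, eval_X, eval_C, this, sub_self]
  -- invariance
  have hinv : ∀ (k : ℕ) (σ : ℂ ≃+* ℂ), k.Coprime n → (∀ ζ : ℂ, ζ ^ n = 1 → σ ζ = ζ ^ k) →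
      P.map (σ : ℂ →+* ℂ) = P := by
    intro k σ hk hσ
    rw [hP, Polynomial.map_prod]
    have h1 : ∀ u : (ZMod n)ˣ, (X - C (s u z)).map (σ : ℂ →+* ℂ) =
        X - C (s (ZMod.unitOfCoprime k hk * u) z) := by
      intro u
      rw [Polynomial.map_sub, map_X, map_C]
      congr 2
      change σ (s u z) = _
      exact hagree ((s u).trans σ) (s (ZMod.unitOfCoprime k hk * u)) (fun ζ hζ => by
        change σ (s u ζ) = _
        rw [hs u ζ hζ, map_pow, hσ ζ hζ, hs _ ζ hζ, ← pow_mul]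
        refine pow_eq_pow_of_modEq ?_ hζ
        rw [← ZMod.natCast_eq_natCast_iff]
        rw [ZMod.natCast_zmod_val]
        push_cast
        rw [ZMod.natCast_zmod_val]
        rfl)
    rw [Finset.prod_congr rfl fun u _ => h1 u]
    exact Equiv.prod_comp (Equiv.mulLeft (ZMod.unitOfCoprime k hk))
      (fun u : (ZMod n)ˣ => (X - C (s u z)))
  -- local coefficients
  have hloc' : ∀ i, MemLocalRing M (P.coeff i) := by
    have h1 : P ∈ liftsRing (locRing M).subtype := by
      rw [hP]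
      refine Subring.prod_mem _ fun u _ => Subring.sub_mem _ ?_ ?_
      · exact ⟨X, by simp⟩
      · exact ⟨C ⟨s u z, hloc _ (s u) (ZMod.val_coe_unit_coprime u) (hs u)⟩, by simp⟩
    rw [← lifts_iff_liftsRing, lifts_iff_coeff_lifts] at h1
    intro i
    obtain ⟨⟨a, ha⟩, hai⟩ := h1 i
    rw [← hai]; exact ha
  -- coefficients with denominators cleared
  set N := Fintype.card (ZMod n)ˣ with hN
  have hden : ∀ i, (q : ℂ) ^ (b * N) * P.coeff i ∈ D := by
    have h1 : C ((q : ℂ) ^ (b * N)) * P ∈ liftsRing D.subtype := by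
      have h2 : C ((q : ℂ) ^ (b * N)) * P =
          ∏ u : (ZMod n)ˣ, (C ((q : ℂ) ^ b) * X - C (s u ((q : ℂ) ^ b * z))) := by
        have h3 : ∀ u : (ZMod n)ˣ, (C ((q : ℂ) ^ b) * X - C (s u ((q : ℂ) ^ b * z))) =
            C ((q : ℂ) ^ b) * (X - C (s u z)) := by
          intro u
          rw [map_mul (s u), map_pow (s u), map_natCast (s u), C_mul, mul_sub]
        rw [Finset.prod_congr rfl fun u _ => h3 u, Finset.prod_mul_distrib, Finset.prod_const,
          Finset.card_univ, ← hP, ← C_pow, ← pow_mul]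
      rw [h2]
      refine Subring.prod_mem _ fun u _ => Subring.sub_mem _ ?_ ?_
      · exact ⟨C ⟨(q : ℂ) ^ b, D.pow_mem (natCast_mem D q) b⟩ * X, by simp⟩
      · have h4 : s u ((q : ℂ) ^ b * z) ∈ D := by
          have h5 : Subring.closure {ζ : ℂ | ζ ^ n = 1} ≤ D.comap ((s u : ℂ ≃+* ℂ) : ℂ →+* ℂ) := by
            rw [Subring.closure_le]
            intro ζ hζ
            have hζ' : ζ ^ n = 1 := hζ
            change s u ζ ∈ D
            rw [hs u ζ hζ']
            apply Subring.subset_closure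
            change (ζ ^ (u : ZMod n).val) ^ n = 1
            rw [← pow_mul, mul_comm, pow_mul, hζ', one_pow]
          exact h5 hz
        exact ⟨C ⟨s u ((q : ℂ) ^ b * z), h4⟩, by simp⟩
    rw [← lifts_iff_liftsRing, lifts_iff_coeff_lifts] at h1
    intro i
    obtain ⟨⟨a, ha⟩, hai⟩ := h1 i
    rw [coeff_C_mul] at hai
    rw [← hai]; exact ha
  -- integer coefficients
  have hint : ∀ i, ∃ m : ℤ, P.coeff i = m := by
    intro i
    obtain ⟨m, hm⟩ := Char.exists_int_of_fixed hn _ (hden i) (fun k σ hk hσ => by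
      have h1 := congrArg (fun Q => Polynomial.coeff Q i) (hinv k σ hk hσ)
      simp only [coeff_map] at h1
      rw [map_mul, map_pow, map_natCast]
      congr 1)
    have h2 : P.coeff i = (m : ℂ) / (q : ℂ) ^ (b * N) := by
      rw [← hm]; field_simp
    have h3 := (mlr_int_div_pow_iff hM m (b * N)).mp (by rw [← h2]; exact hloc' i)
    obtain ⟨r, hr⟩ := h3
    refine ⟨r, ?_⟩
    rw [h2, hr]
    push_cast
    field_simp
  have hl : P ∈ lifts (Int.castRingHom ℂ) := by
    rw [lifts_iff_coeff_lifts]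
    intro i
    obtain ⟨m, hm⟩ := hint i
    exact ⟨m, hm.symm⟩
  obtain ⟨Q, hQ1, -, hQ2⟩ := lifts_and_degree_eq_and_monic hl hmonic
  refine ⟨Q, hQ2, ?_⟩
  rw [← eval_map]
  change (Q.map (Int.castRingHom ℂ)).eval z = 0
  rw [hQ1, heval]

end Cfsg.Agent.H75
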