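import Cfsg.Agent.BlkC.SumSq
import Cfsg.Agent.BlkC.DefectOrder
import Cfsg.Agent.BlkC.BrauerFeit

/-!
# Min-max: block idempotents and classes of defect `d` (owner: helper75)
-/

set_option autoImplicit false
set_option linter.style.haveILetI false
set_option linter.unusedSectionVars false

namespace Cfsg.Agent.H75

open scoped ComplexConjugate
open Cfsg Cfsg.Agent.CharBase Cfsg.Agent.Blk Cfsg.Agent.BlkC

universe u

variable {G : Type u} [Group G] [Fintype G] {p : ℕ} [hp : Fact p.Prime] {M : Ideal AlgInt}
  {B : Set (IrrCharacter G)}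

/-- the coefficient of the block idempotent is in the ideal at classes of large defect -/
theorem mli_blockCoeff_of_lt (hM : IsPModular p M) (hB : IsPBlock M B) {y : G}
    (hlt : blockDefect p B < (Nat.card (Subgroup.centralizer ({y} : Set G))).factorization p) :
    MemLocalIdeal M (blockCoeff B y) := by
  classical
  haveI := isPrime_of_isPModular hM
  haveI := Fintype.ofFinite (IrrCharacter G)
  by_cases hyp' : p ∣ orderOf y
  · rw [blockCoeff_eq_zero_of_dvd hM hB hyp']; exact mli_zero
  have hyp : ¬ p ∣ orderOf y := hyp'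
  obtain ⟨Q⟩ : Nonempty (Sylow p (Subgroup.centralizer ({y} : Set G))) := inferInstance
  obtain ⟨hP, hPy, m, hm, hcm⟩ := sylow_centralizer_spec (p := p) Q
  set P := (Q : Subgroup (Subgroup.centralizer ({y} : Set G))).map
      (Subgroup.centralizer ({y} : Set G)).subtype with hPdef
  haveI : Fintype P := Fintype.ofFinite _
  obtain ⟨k, hk⟩ := (IsPGroup.iff_card).mp hP
  have hm0 : m ≠ 0 := by rintro rfl; simp at hm
  have hkc : (Nat.card (Subgroup.centralizer ({y} : Set G))).factorization p = k := by
    rw [← hcm, hk, Nat.factorization_mul (pow_ne_zero _ hp.out.ne_zero) hm0]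
    simp only [Finsupp.add_apply, Nat.Prime.factorization_pow hp.out, Finsupp.single_eq_same]
    rw [Nat.factorization_eq_zero_of_not_dvd hm]
    omega
  have hdm := defect_add_nuMin (p := p) (block_nonempty hB)
  rw [hkc] at hlt
  have hlt' : (Nat.card G).factorization p < k + nuMin p B := by omega
  have hvan : ∀ g : G, p ∣ orderOf g → blockCoeff B g = 0 := fun g hg =>
    blockCoeff_eq_zero_of_dvd hM hB hg
  have hsum : blockCoeff B y = ∑ u : P, blockCoeff B (y * (u : G)) := by
    rw [Finset.sum_eq_single (1 : P)]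
    · simp
    · intro u _ hu
      apply hvan
      have hu1 : (u : G) ≠ 1 := fun h => hu (Subtype.ext h)
      obtain ⟨l, hl⟩ := (IsPGroup.iff_orderOf.mp hP) u
      rw [← Subgroup.orderOf_coe] at hl
      exact dvd_orderOf_mul (hPy u u.2) hyp hu1 hl
    · intro h; exact absurd (Finset.mem_univ _) h
  have hbc : ∀ g : G, blockCoeff B g = ∑ χ : IrrCharacter G, if χ ∈ B then
      (Nat.card G : ℂ)⁻¹ * ((χ : G → ℂ) 1 * conj ((χ : G → ℂ) g)) else 0 := by
    intro g
    unfold blockCoeff
    rw [finsum_mem_eq_sum_ite, Finset.mul_sum]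
    exact Finset.sum_congr rfl fun χ _ => by split_ifs <;> simp
  have hsum2 : blockCoeff B y = ∑ χ : IrrCharacter G, if χ ∈ B then
      (Nat.card G : ℂ)⁻¹ * ((χ : G → ℂ) 1 * ((Nat.card P : ℂ) *
        conj (avgVal P y (χ : G → ℂ)))) else 0 := by
    rw [hsum]
    simp_rw [hbc]
    rw [Finset.sum_comm]
    refine Finset.sum_congr rfl fun χ _ => ?_
    split_ifs
    · rw [← Finset.mul_sum, ← Finset.mul_sum]
      congr 2
      have hP0 : (Nat.card P : ℂ) ≠ 0 := by exact_mod_cast Nat.card_pos.ne'
      unfold avgVal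
      rw [map_mul, map_inv₀, Complex.conj_natCast, map_sum, ← mul_assoc, mul_inv_cancel₀ hP0,
        one_mul]
    · simp
  have hsum3 : blockCoeff B y = (p : ℂ) ^ (k + nuMin p B - (Nat.card G).factorization p) *
      ((gp' G p : ℂ)⁻¹ * ∑ χ : IrrCharacter G, if χ ∈ B then
        ((charDegree (χ : G → ℂ) / p ^ nuMin p B : ℕ) : ℂ) *
          conj (avgVal P y (χ : G → ℂ)) else 0) := by
    rw [hsum2, Finset.mul_sum, Finset.mul_sum]
    refine Finset.sum_congr rfl fun χ _ => ?_
    split_ifs with hχ
    · have hdeg : charDegree (χ : G → ℂ) = p ^ nuMin p B *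
          (charDegree (χ : G → ℂ) / p ^ nuMin p B) := by
        rw [Nat.mul_div_cancel']
        exact (pow_dvd_pow _ (nuMin_le hχ)).trans (pow_nu_dvd_degree χ)
      have hG' : (Nat.card G : ℂ) = (p : ℂ) ^ (Nat.card G).factorization p * (gp' G p : ℂ) := by
        rw [← Nat.cast_pow, ← Nat.cast_mul, ppow_mul_gp']
      have hp0 : (p : ℂ) ≠ 0 := by exact_mod_cast hp.out.ne_zero
      have hg0 : (gp' G p : ℂ) ≠ 0 := by
        have : gp' G p ≠ 0 := by
          intro h
          have := ppow_mul_gp' (G := G) (p := p)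
          rw [h, mul_zero] at this
          exact Nat.card_pos.ne' this.symm
        exact_mod_cast this
      have hpk : (p : ℂ) ^ k * (p : ℂ) ^ nuMin p B =
          (p : ℂ) ^ (k + nuMin p B - (Nat.card G).factorization p) *
            (p : ℂ) ^ (Nat.card G).factorization p := by
        rw [← pow_add, ← pow_add]
        congr 1
        omega
      rw [charDegree_spec]
      nth_rewrite 1 [hdeg]
      rw [hG', hk]
      push_cast
      rw [mul_inv]
      have hpa : ((p : ℂ) ^ (Nat.card G).factorization p) ≠ 0 := pow_ne_zero _ hp0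
      field_simp
      linear_combination ((charDegree (χ : G → ℂ) / p ^ nuMin p B : ℕ) : ℂ) *
          conj (avgVal P y (χ : G → ℂ)) * hpk
    · simp
  rw [hsum3]
  refine mli_p_pow_mul hM (by omega) (mlr_mul (mlr_natCast_inv hM not_dvd_gp')
    (mlr_sum _ _ fun χ _ => ?_))
  split_ifs
  · exact mlr_mul (mlr_natCast _) (mlr_of_isIntegral (isIntegral_conj
      (isIntegral_avg P hPy (irr_isCharacter χ))))
  · exact mlr_zero

/-- central characters are in the ideal at classes of small defect -/
theorem mli_centralChar_of_defect_lt (hM : IsPModular p M) (hB : IsPBlock M B) {χ : IrrCharacter G}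
    (hχ : χ ∈ B) {y : G}
    (hlt : (Nat.card (Subgroup.centralizer ({y} : Set G))).factorization p < blockDefect p B) :
    MemLocalIdeal M (centralChar (χ : G → ℂ) y) := by
  haveI := isPrime_of_isPModular hM
  obtain ⟨χ₀, hχ₀, h0⟩ := exists_nuMin (p := p) (block_nonempty hB)
  have hdm := defect_add_nuMin (p := p) (block_nonempty hB)
  have h1 : (Nat.card G).factorization p =
      (Nat.card (Subgroup.centralizer ({y} : Set G))).factorization p +
        (Subgroup.centralizer ({y} : Set G)).index.factorization p := by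
    rw [← Subgroup.card_mul_index (Subgroup.centralizer ({y} : Set G)),
      Nat.factorization_mul Nat.card_pos.ne' Subgroup.index_ne_zero_of_finite]
    rfl
  have h2 := mli_centralChar_of_lt hM χ₀ y (by omega)
  have h3 := BlkC.sameBlock_of_mem hB hχ hχ₀ y
  have h4 : centralChar (χ : G → ℂ) y = (centralChar (χ : G → ℂ) y - centralChar (χ₀ : G → ℂ) y) +
      centralChar (χ₀ : G → ℂ) y := by ring
  rw [h4]
  exact mli_add h3 h2

/-- a representative of a conjugacy class -/
noncomputable def crep {G : Type u} [Group G] (c : ConjClasses G) : G :=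
  (ConjClasses.exists_rep c).choose

theorem mk_crep {G : Type u} [Group G] (c : ConjClasses G) : ConjClasses.mk (crep c) = c :=
  (ConjClasses.exists_rep c).choose_spec

theorem omega_eq_sum_crep [Fintype (ConjClasses G)] {f : G → ℂ} (hf : IsClassFunction G f)
    (θ : IrrCharacter G) :
    omega (θ : G → ℂ) f = ∑ c : ConjClasses G, f (crep c) * centralChar (θ : G → ℂ) (crep c) := by
  classical
  rw [omega_eq_sum_classes hf θ]
  have h3 : (Finset.univ.image (fun g : G => ConjClasses.mk g)) =
      (Finset.univ : Finset (ConjClasses G)) := by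
    apply Finset.eq_univ_of_forall
    intro c
    rw [Finset.mem_image]
    exact ⟨Quotient.out c, Finset.mem_univ _, Quotient.out_eq c⟩
  rw [h3]
  refine Finset.sum_congr rfl fun c _ => ?_
  have h4 : IsConj (Quotient.out c : G) (crep c) := by
    rw [← ConjClasses.mk_eq_mk_iff_isConj, mk_crep]
    exact Quotient.out_eq c
  rw [classFun_eq_of_isConj hf h4, centralChar_eq_of_isConj θ h4]

end Cfsg.Agent.H75
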