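import Cfsg.Agent.H92.RtPhi
import Cfsg.Agent.CharBase.Ortho

/-!
# Pieces (CA), (CB) of S2755 (owner: helper75)
-/

set_option autoImplicit false
set_option linter.unusedVariables false
set_option linter.style.haveILetI false
set_option linter.unusedSectionVars false

namespace Cfsg.Agent.H75.RtCA

open Cfsg Cfsg.Agent Cfsg.Agent.CharBase
open scoped ComplexConjugate BigOperators

section basic

variable {G : Type*} [Group G] {t : G} {K : Subgroup G}

theorem t_odd (t2 : t * t = 1) {n : ℕ} (hn : Odd n) : t ^ n = t := by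
  obtain ⟨j, rfl⟩ := hn
  rw [pow_succ, pow_mul, pow_two, t2, one_pow, one_mul]

theorem t_comm (cent : ∀ g : G, g * t = t * g ↔ ∃ y : K, g = (y : G) ∨ g = t * (y : G)) (y : K) :
    t * (y : G) = (y : G) * t := ((cent y).mpr ⟨y, Or.inl rfl⟩).symm

theorem key1 (t2 : t * t = 1)
    (cent : ∀ g : G, g * t = t * g ↔ ∃ y : K, g = (y : G) ∨ g = t * (y : G)) (y y' : K)
    (hy : Odd (orderOf y)) (hy' : Odd (orderOf y')) (z : G)
    (h : z * (t * (y : G)) * z⁻¹ = t * (y' : G)) : z * t = t * z := by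
  have hn : Odd (orderOf y * orderOf y') := hy.mul hy'
  have h1 : (z * (t * (y : G)) * z⁻¹) ^ (orderOf y * orderOf y') = z * t * z⁻¹ := by
    rw [conj_pow, (show Commute t (y : G) from t_comm cent y).mul_pow, t_odd t2 hn]
    have : (y : G) ^ (orderOf y * orderOf y') = 1 := by
      rw [pow_mul, ← Subgroup.coe_pow, pow_orderOf_eq_one, Subgroup.coe_one, one_pow]
    rw [this, mul_one]
  have h2 : (t * (y' : G)) ^ (orderOf y * orderOf y') = t := by
    rw [(show Commute t (y' : G) from t_comm cent y').mul_pow, t_odd t2 hn]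
    have : (y' : G) ^ (orderOf y * orderOf y') = 1 := by
      rw [mul_comm, pow_mul, ← Subgroup.coe_pow, pow_orderOf_eq_one, Subgroup.coe_one, one_pow]
    rw [this, mul_one]
  rw [h, h2] at h1
  rw [eq_mul_inv_iff_mul_eq] at h1
  exact h1.symm

theorem key2 (t2 : t * t = 1) (tK : t ∉ K)
    (cent : ∀ g : G, g * t = t * g ↔ ∃ y : K, g = (y : G) ∨ g = t * (y : G)) (y : K) (g : G)
    (hg : Odd (orderOf g)) (h : IsConj g (t * (y : G))) : False := by
  have h1 : orderOf (t * (y : G)) = orderOf g := by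
    obtain ⟨c, hc⟩ := isConj_iff.mp h
    rw [← hc]
    have := orderOf_injective (MulAut.conj c).toMonoidHom (MulAut.conj c).injective g
    simpa using this
  have h2 : (t * (y : G)) ^ orderOf g = 1 := by rw [← h1, pow_orderOf_eq_one]
  rw [(show Commute t (y : G) from t_comm cent y).mul_pow, t_odd t2 hg] at h2
  apply tK
  rw [mul_eq_one_iff_eq_inv] at h2
  rw [h2]
  exact K.inv_mem (K.pow_mem y.2 _)

theorem card_cent [Finite G] (t2 : t * t = 1) (tK : t ∉ K)
    (cent : ∀ g : G, g * t = t * g ↔ ∃ y : K, g = (y : G) ∨ g = t * (y : G)) :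
    Nat.card {z : G // z * t = t * z} = 2 * Nat.card K := by
  have hinl : ∀ y : K, (y : G) * t = t * y := fun y => (t_comm cent y).symm
  have hinr : ∀ y : K, (t * (y : G)) * t = t * (t * y) := fun y => by
    rw [mul_assoc, hinl]
  let f : K ⊕ K → {z : G // z * t = t * z} :=
    Sum.elim (fun y => ⟨y, hinl y⟩) (fun y => ⟨t * y, hinr y⟩)
  have hf : Function.Bijective f := by
    constructor
    · rintro (a | a) (b | b) hab
      · have : (a : G) = b := congrArg (fun w : {z : G // z * t = t * z} => (w : G)) hab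
        rw [Subtype.ext this]
      · exfalso
        have : (a : G) = t * b := congrArg Subtype.val hab
        apply tK
        have h1 : t = (a : G) * (b : G)⁻¹ := by rw [this]; group
        rw [h1]
        exact K.mul_mem a.2 (K.inv_mem b.2)
      · exfalso
        have : t * (a : G) = b := congrArg Subtype.val hab
        apply tK
        have h1 : t = (b : G) * (a : G)⁻¹ := by rw [← this]; group
        rw [h1]
        exact K.mul_mem b.2 (K.inv_mem a.2)
      · have : t * (a : G) = t * b := congrArg Subtype.val hab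
        rw [Subtype.ext (mul_left_cancel this)]
    · rintro ⟨z, hz⟩
      obtain ⟨y, hy | hy⟩ := (cent z).mp hz
      · exact ⟨Sum.inl y, Subtype.ext hy.symm⟩
      · exact ⟨Sum.inr y, Subtype.ext hy.symm⟩
  rw [← Nat.card_congr (Equiv.ofBijective f hf), Nat.card_sum, two_mul]

end basic

/-- [CA] -/
theorem exists_F {G : Type*} [Group G] [Fintype G] {t : G} {K : Subgroup G} [Fintype K] (t1 : t ≠ 1) (t2 : t * t = 1)
    (tK : t ∉ K) (cent : ∀ g : G, g * t = t * g ↔ ∃ y : K, g = (y : G) ∨ g = t * (y : G))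
    (φ : K → ℂ) (hcl : ∀ g y : K, φ (g * y * g⁻¹) = φ y) (hsup : ∀ y : K, ¬ Odd (orderOf y) → φ y = 0) :
    ∃ F : G → ℂ, IsClassFunction G F ∧ (∀ y : K, Odd (orderOf y) → F (t * (y : G)) = 4 * φ y) ∧
      (∀ g : G, F g ≠ 0 → ∃ y : K, Odd (orderOf y) ∧ IsConj g (t * (y : G))) ∧
      (∀ g : G, Odd (orderOf g) → F g = 0) ∧
      ∀ ψ : G → ℂ, IsClassFunction G ψ →
        classInner F ψ * (Nat.card K : ℂ) = 2 * ∑ y : K, φ y * conj (ψ (t * (y : G))) := by
  classical
  let φ0 : G → ℂ := fun h => if hh : h ∈ K then φ ⟨h, hh⟩ else 0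
  have φ0K : ∀ y : K, φ0 (y : G) = φ y := by
    intro y
    show (if hh : (y : G) ∈ K then φ ⟨y, hh⟩ else 0) = φ y
    rw [dif_pos y.2]
  have φ0ne : ∀ h, φ0 h ≠ 0 → ∃ y : K, h = (y : G) ∧ Odd (orderOf y) := by
    intro h hh
    by_cases hK : h ∈ K
    · refine ⟨⟨h, hK⟩, rfl, ?_⟩
      by_contra hodd
      apply hh
      have := φ0K ⟨h, hK⟩
      rw [this]
      exact hsup _ hodd
    · exfalso
      apply hh
      show (if hh : h ∈ K then φ ⟨h, hh⟩ else 0) = 0
      rw [dif_neg hK]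
  have hKc : (Nat.card K : ℂ) ≠ 0 := by exact_mod_cast Nat.card_pos.ne'
  have hGc : (Nat.card G : ℂ) ≠ 0 := by exact_mod_cast Nat.card_pos.ne'
  let F : G → ℂ := fun g => (2 / (Nat.card K : ℂ)) * ∑ z : G, φ0 (t * (z * g * z⁻¹))
  have hF : ∀ g, F g = (2 / (Nat.card K : ℂ)) * ∑ z : G, φ0 (t * (z * g * z⁻¹)) := fun g => rfl
  have tt : ∀ x : G, t * (t * x) = x := fun x => by rw [← mul_assoc, t2, one_mul]
  have hsupp : ∀ g : G, F g ≠ 0 → ∃ y : K, Odd (orderOf y) ∧ IsConj g (t * (y : G)) := by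
    intro g hg
    have h1 : ∑ z : G, φ0 (t * (z * g * z⁻¹)) ≠ 0 := by
      intro h0
      apply hg
      rw [hF, h0, mul_zero]
    obtain ⟨z, -, hz⟩ := Finset.exists_ne_zero_of_sum_ne_zero h1
    obtain ⟨y, hy, hodd⟩ := φ0ne _ hz
    refine ⟨y, hodd, isConj_iff.mpr ⟨z, ?_⟩⟩
    rw [← hy, tt]
  refine ⟨F, ?_, ?_, hsupp, ?_, ?_⟩
  · intro g h
    rw [hF, hF]
    congr 1
    refine Fintype.sum_equiv (Equiv.mulRight h) _ _ (fun z => ?_)
    congr 1
    show t * (z * (h * g * h⁻¹) * z⁻¹) = t * ((z * h) * g * (z * h)⁻¹)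
    group
  · intro y hy
    rw [hF]
    have h1 : ∀ z : G, φ0 (t * (z * (t * (y : G)) * z⁻¹)) = if z * t = t * z then φ y else 0 := by
      intro z
      by_cases hz : z * t = t * z
      · rw [if_pos hz]
        have h2 : t * (z * (t * (y : G)) * z⁻¹) = z * y * z⁻¹ := by
          rw [← mul_assoc z, hz, mul_assoc t, mul_assoc t, tt]
        rw [h2]
        obtain ⟨k, hk | hk⟩ := (cent z).mp hz
        · rw [hk]
          have := φ0K (k * y * k⁻¹)
          rw [hcl] at this
          exact this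
        · have h3 : z * (y : G) * z⁻¹ = ((k * y * k⁻¹ : K) : G) := by
            rw [hk]
            push_cast
            have e1 := t_comm cent (k * y * k⁻¹)
            push_cast at e1
            calc t * (k : G) * y * (t * (k : G))⁻¹ = (t * ((k : G) * y * (k : G)⁻¹)) * t⁻¹ := by group
              _ = ((k : G) * y * (k : G)⁻¹) * t * t⁻¹ := by rw [e1]
              _ = _ := by group
          rw [h3, φ0K, hcl]
      · rw [if_neg hz]
        by_contra hne
        obtain ⟨y', hy', hodd⟩ := φ0ne _ hne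
        apply hz
        apply key1 t2 cent y y' hy hodd z
        rw [← hy', tt]
    rw [Finset.sum_congr rfl (fun z _ => h1 z), ← Finset.sum_filter, Finset.sum_const, nsmul_eq_mul]
    have h2 : ((Finset.univ.filter (fun z : G => z * t = t * z)).card) = 2 * Nat.card K := by
      rw [← card_cent t2 tK cent, Nat.card_eq_fintype_card, Fintype.card_subtype]
    rw [h2]
    push_cast
    field_simp
    ring
  · intro g hg
    by_contra hne
    obtain ⟨y, -, hc⟩ := hsupp g hne
    exact key2 t2 tK cent y g hg hc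
  · intro ψ hψ
    have h1 : ∑ g : G, F g * conj (ψ g) =
        (2 / (Nat.card K : ℂ)) * ∑ z : G, ∑ g : G, φ0 (t * (z * g * z⁻¹)) * conj (ψ g) := by
      rw [Finset.sum_comm, Finset.mul_sum]
      refine Finset.sum_congr rfl (fun g _ => ?_)
      rw [hF, mul_assoc, Finset.sum_mul]
    have h2 : ∀ z : G, ∑ g : G, φ0 (t * (z * g * z⁻¹)) * conj (ψ g) =
        ∑ y : K, φ y * conj (ψ (t * (y : G))) := by
      intro z
      have h3 : ∑ g : G, φ0 (t * (z * g * z⁻¹)) * conj (ψ g) =
          ∑ g : G, φ0 g * conj (ψ (t * g)) := by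
        refine Fintype.sum_equiv (((MulAut.conj z).toEquiv).trans (Equiv.mulLeft t)) _ _ (fun g => ?_)
        have e : (((MulAut.conj z).toEquiv).trans (Equiv.mulLeft t)) g = t * (z * g * z⁻¹) := rfl
        rw [e, tt, hψ]
      rw [h3]
      have h4 : ∑ g : G, φ0 g * conj (ψ (t * g)) =
          ∑ g ∈ Finset.univ.filter (fun g => g ∈ K), φ0 g * conj (ψ (t * g)) := by
        symm
        apply Finset.sum_subset (Finset.subset_univ _)
        intro g _ hg
        rw [Finset.mem_filter, not_and] at hg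
        have h5 : g ∉ K := hg (Finset.mem_univ _)
        have h6 : φ0 g = 0 := by
          show (if hh : g ∈ K then φ ⟨g, hh⟩ else 0) = 0
          rw [dif_neg h5]
        rw [h6, zero_mul]
      rw [h4]
      have h5 := Finset.sum_subtype (p := fun g => g ∈ K) (F := (inferInstance : Fintype K)) (Finset.univ.filter (fun g => g ∈ K))
        (fun g => by rw [Finset.mem_filter]; exact ⟨fun h => h.2, fun h => ⟨Finset.mem_univ _, h⟩⟩)
        (fun g => φ0 g * conj (ψ (t * g)))
      rw [h5]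
      refine Finset.sum_congr rfl (fun y _ => ?_)
      show φ0 (y : G) * _ = _
      rw [φ0K]
    unfold classInner
    rw [h1, Finset.sum_congr rfl (fun z _ => h2 z), Finset.sum_const, Finset.card_univ, nsmul_eq_mul,
      ← Nat.card_eq_fintype_card]
    field_simp

/-- [CB] (uses CA) -/
theorem norm_lt {G : Type*} [Group G] [Fintype G] {t : G} {K : Subgroup G} [Fintype K] (t1 : t ≠ 1) (t2 : t * t = 1)
    (tK : t ∉ K) (cent : ∀ g : G, g * t = t * g ↔ ∃ y : K, g = (y : G) ∨ g = t * (y : G))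
    (χ : IrrCharacter G) (f : K → ℂ) (hf : ∀ y : K, Odd (orderOf y) → f y = (χ : G → ℂ) (t * (y : G)))
    (hf' : ∀ y : K, ¬ Odd (orderOf y) → f y = 0) :
    ∑ y : K, ‖f y‖ ^ 2 < 2 * (Nat.card K : ℝ) := by
  classical
  have hχcl : IsClassFunction G (χ : G → ℂ) := irr_isClassFunction χ
  have hcl : ∀ g y : K, f (g * y * g⁻¹) = f y := by
    intro g y
    have ho : orderOf (g * y * g⁻¹) = orderOf y := by
      have := orderOf_injective (MulAut.conj g).toMonoidHom (MulAut.conj g).injective y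
      simpa using this
    by_cases hy : Odd (orderOf y)
    · rw [hf y hy, hf _ (ho ▸ hy)]
      have h1 : t * ((g * y * g⁻¹ : K) : G) = (g : G) * (t * (y : G)) * (g : G)⁻¹ := by
        push_cast
        rw [← mul_assoc (g : G) t, ← t_comm cent g]
        group
      rw [h1, hχcl]
    · rw [hf' y hy, hf' _ (ho ▸ hy)]
  obtain ⟨F, hFcl, hFt, hFsup, hFodd, hFin⟩ := exists_F t1 t2 tK cent f hcl hf'
  have hFχ : ∀ g, F g ≠ 0 → F g = 4 * (χ : G → ℂ) g := by
    intro g hg
    obtain ⟨y, hy, hc⟩ := hFsup g hg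
    obtain ⟨z, hz⟩ := isConj_iff.mp hc
    have h1 := hFcl g z
    have h2 := hχcl g z
    rw [hz] at h1 h2
    rw [← h1, ← h2, hFt y hy, hf y hy]
  have hF1 : F 1 = 0 := hFodd 1 (by rw [orderOf_one]; exact odd_one)
  -- norms
  have hKc : (Nat.card K : ℂ) ≠ 0 := by exact_mod_cast Nat.card_pos.ne'
  have hGc : (Nat.card G : ℂ) ≠ 0 := by exact_mod_cast Nat.card_pos.ne'
  have e1 := hFin F hFcl
  have e2 : ∑ y : K, f y * conj (F (t * (y : G))) = ((4 * ∑ y : K, ‖f y‖ ^ 2 : ℝ) : ℂ) := by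
    push_cast
    rw [Finset.mul_sum]
    refine Finset.sum_congr rfl (fun y _ => ?_)
    by_cases hy : Odd (orderOf y)
    · rw [hFt y hy, map_mul, Complex.conj_ofNat]
      rw [mul_left_comm, Complex.mul_conj, Complex.normSq_eq_norm_sq]
      push_cast
      ring
    · rw [hf' y hy]; simp
  have e3 : ∑ g : G, F g * conj (F g) = ((∑ g : G, ‖F g‖ ^ 2 : ℝ) : ℂ) := by
    push_cast
    refine Finset.sum_congr rfl (fun g _ => ?_)
    rw [Complex.mul_conj, Complex.normSq_eq_norm_sq]
    push_cast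
    rfl
  have e4 : (∑ g : G, ‖F g‖ ^ 2) * (Nat.card K : ℝ) = 8 * (∑ y : K, ‖f y‖ ^ 2) * (Nat.card G : ℝ) := by
    rw [e2] at e1
    unfold classInner at e1
    rw [e3] at e1
    have e5 : (((∑ g : G, ‖F g‖ ^ 2) * (Nat.card K : ℝ) : ℝ) : ℂ) =
        ((8 * (∑ y : K, ‖f y‖ ^ 2) * (Nat.card G : ℝ) : ℝ) : ℂ) := by
      push_cast at e1 ⊢
      rw [inv_mul_eq_div, div_mul_eq_mul_div, div_eq_iff hGc] at e1
      rw [e1]
      ring
    exact_mod_cast e5
  have e6 : ∑ g : G, ‖(χ : G → ℂ) g‖ ^ 2 = (Nat.card G : ℝ) := by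
    have h1 := classInner_irr_self χ
    unfold classInner at h1
    have h2 : ∑ g : G, (χ : G → ℂ) g * conj ((χ : G → ℂ) g) =
        ((∑ g : G, ‖(χ : G → ℂ) g‖ ^ 2 : ℝ) : ℂ) := by
      push_cast
      refine Finset.sum_congr rfl (fun g _ => ?_)
      rw [Complex.mul_conj, Complex.normSq_eq_norm_sq]
      push_cast
      rfl
    rw [h2, inv_mul_eq_one₀ hGc] at h1
    exact_mod_cast h1.symm
  have e7 : ∑ g : G, ‖F g‖ ^ 2 < ∑ g : G, 16 * ‖(χ : G → ℂ) g‖ ^ 2 := by
    apply Finset.sum_lt_sum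
    · intro g _
      by_cases hg : F g = 0
      · rw [hg, norm_zero, zero_pow two_ne_zero]
        positivity
      · rw [hFχ g hg, norm_mul, mul_pow]
        norm_num
    · refine ⟨1, Finset.mem_univ _, ?_⟩
      rw [hF1, norm_zero, zero_pow two_ne_zero]
      have h1 : 0 < ‖(χ : G → ℂ) 1‖ := norm_pos_iff.mpr (irr_one_ne_zero χ.2)
      positivity
  rw [← Finset.mul_sum, e6] at e7
  have hKpos : (0 : ℝ) < (Nat.card K : ℝ) := by exact_mod_cast Nat.card_pos
  have hGpos : (0 : ℝ) < (Nat.card G : ℝ) := by exact_mod_cast Nat.card_pos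
  have e8 : 8 * (∑ y : K, ‖f y‖ ^ 2) * (Nat.card G : ℝ) < 16 * (Nat.card G : ℝ) * (Nat.card K : ℝ) := by
    rw [← e4]
    exact mul_lt_mul_of_pos_right e7 hKpos
  have e9 : (Nat.card G : ℝ) * (8 * ∑ y : K, ‖f y‖ ^ 2) < (Nat.card G : ℝ) * (16 * (Nat.card K : ℝ)) := by
    nlinarith [e8]
  have e10 := lt_of_mul_lt_mul_left e9 hGpos.le
  linarith

end Cfsg.Agent.H75.RtCA
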