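import Cfsg.Agent.H75.Frob
import Cfsg.Agent.Solv.Core

/-!
# Groups with a self-centralizing element of prime order (owner: helper75)
-/

set_option autoImplicit false
set_option linter.style.haveILetI false

namespace Cfsg.Agent.H75

open Cfsg
open scoped commutatorElement

universe u

section

variable {G : Type u} [Group G]

theorem zpowers_eq_of_prime {p : ℕ} (hp : p.Prime) {x y : G} (hx : orderOf x = p)
    (hy : y ∈ Subgroup.zpowers x) (h1 : y ≠ 1) : Subgroup.zpowers y = Subgroup.zpowers x := by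
  haveI : Fact p.Prime := ⟨hp⟩
  have hcx : Nat.card (Subgroup.zpowers x) = p := by rw [Nat.card_zpowers, hx]
  have hfin : Finite (Subgroup.zpowers x) := Nat.finite_of_card_ne_zero (by
    rw [hcx]; exact hp.ne_zero)
  have hle : Subgroup.zpowers y ≤ Subgroup.zpowers x := (Subgroup.zpowers_le).mpr hy
  apply Subgroup.eq_of_le_of_card_ge hle
  rw [hcx]
  have hdvd : Nat.card (Subgroup.zpowers y) ∣ p := by
    rw [← hcx]; exact Subgroup.card_dvd_of_le hle
  rcases (Nat.dvd_prime hp).mp hdvd with h | h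
  · exfalso
    apply h1
    rw [Nat.card_zpowers, orderOf_eq_one_iff] at h
    exact h
  · exact h.ge

theorem orderOf_eq_of_mem_zpowers {p : ℕ} (hp : p.Prime) {x y : G} (hx : orderOf x = p)
    (hy : y ∈ Subgroup.zpowers x) (h1 : y ≠ 1) : orderOf y = p := by
  rw [← Nat.card_zpowers, zpowers_eq_of_prime hp hx hy h1, Nat.card_zpowers, hx]

/-- centralizers of non-trivial powers -/
theorem commute_of_mem_zpowers {p : ℕ} (hp : p.Prime) {x y g : G} (hx : orderOf x = p)
    (hy : y ∈ Subgroup.zpowers x) (h1 : y ≠ 1) (hg : g * y = y * g) : g * x = x * g := by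
  have hx' : x ∈ Subgroup.zpowers y := by
    rw [zpowers_eq_of_prime hp hx hy h1]; exact Subgroup.mem_zpowers x
  obtain ⟨k, hk⟩ := Subgroup.mem_zpowers_iff.mp hx'
  have hc : Commute g y := hg
  rw [← hk]
  exact (hc.zpow_right k).eq

theorem mem_zpowers_of_commute {x : G}
    (hC : Subgroup.centralizer ({x} : Set G) = Subgroup.zpowers x) {g : G}
    (hg : g * x = x * g) : g ∈ Subgroup.zpowers x := by
  rw [← hC, Subgroup.mem_centralizer_singleton_iff]
  exact hg

theorem commute_of_mem_zpowers' {x g : G} (hg : g ∈ Subgroup.zpowers x) : g * x = x * g := by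
  obtain ⟨k, rfl⟩ := Subgroup.mem_zpowers_iff.mp hg
  exact ((Commute.refl x).zpow_left k).eq

end

namespace SC

variable {G : Type u} [Group G] [Finite G] {p : ℕ} (hp : p.Prime) {x : G} (hx : orderOf x = p)
  (hC : Subgroup.centralizer ({x} : Set G) = Subgroup.zpowers x)

include hp hx hC

/-- `⟨x⟩` is a Sylow subgroup -/
theorem exists_sylow : ∃ Q : Sylow p G, (Q : Subgroup G) = Subgroup.zpowers x := by
  haveI : Fact p.Prime := ⟨hp⟩
  have hPp : IsPGroup p (Subgroup.zpowers x) := by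
    apply IsPGroup.of_card (n := 1)
    rw [Nat.card_zpowers, hx, pow_one]
  obtain ⟨Q, hQ⟩ := hPp.exists_le_sylow
  refine ⟨Q, le_antisymm ?_ hQ⟩
  have hxQ : x ∈ (Q : Subgroup G) := hQ (Subgroup.mem_zpowers x)
  haveI : Nontrivial Q := by
    refine ⟨⟨⟨x, hxQ⟩, 1, ?_⟩⟩
    intro h
    have h1 : x = 1 := congrArg Subtype.val h
    rw [h1, orderOf_one] at hx
    exact hp.one_lt.ne hx
  haveI := Q.isPGroup'.center_nontrivial
  obtain ⟨⟨z, hz⟩, hz1⟩ := exists_ne (1 : Subgroup.center Q)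
  have hz1' : (z : G) ≠ 1 := by
    intro h
    apply hz1
    apply Subtype.ext
    apply Subtype.ext
    exact h
  have hzx : (z : G) * x = x * z := by
    have := (Subgroup.mem_center_iff.mp hz) ⟨x, hxQ⟩
    exact (congrArg Subtype.val this).symm
  have hzP : (z : G) ∈ Subgroup.zpowers x := mem_zpowers_of_commute hC hzx
  intro q hq
  apply mem_zpowers_of_commute hC
  apply commute_of_mem_zpowers hp hx hzP hz1'
  exact congrArg Subtype.val ((Subgroup.mem_center_iff.mp hz) ⟨q, hq⟩)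

/-- subgroups of order `p` are conjugate to `⟨x⟩`; element version. -/
theorem exists_conj {y : G} (hy : orderOf y = p) :
    ∃ g : G, g * y * g⁻¹ ∈ Subgroup.zpowers x := by
  haveI : Fact p.Prime := ⟨hp⟩
  obtain ⟨Q, hQ⟩ := exists_sylow hp hx hC
  have hPp : IsPGroup p (Subgroup.zpowers y) := by
    apply IsPGroup.of_card (n := 1)
    rw [Nat.card_zpowers, hy, pow_one]
  obtain ⟨R, hR⟩ := hPp.exists_le_sylow
  obtain ⟨g, hg⟩ := MulAction.exists_smul_eq G R Q
  refine ⟨g, ?_⟩
  rw [← hQ, ← hg, Sylow.coe_subgroup_smul]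
  have := Subgroup.smul_mem_pointwise_smul y (MulAut.conj g) (R : Subgroup G)
    (hR (Subgroup.mem_zpowers y))
  simpa using this

theorem not_sq_dvd : ¬ p ^ 2 ∣ Nat.card G := by
  haveI : Fact p.Prime := ⟨hp⟩
  obtain ⟨Q, hQ⟩ := exists_sylow hp hx hC
  intro h
  have h1 : Nat.card Q = p := by
    rw [hQ, Nat.card_zpowers, hx]
  have h2 := Q.card_eq_multiplicity
  rw [h1] at h2
  have h3 : 2 ≤ (Nat.card G).factorization p :=
    (hp.pow_dvd_iff_le_factorization Nat.card_pos.ne').mp h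
  have h4 : p ^ 2 ≤ p := by
    calc p ^ 2 ≤ p ^ (Nat.card G).factorization p := Nat.pow_le_pow_right hp.pos h3
      _ = p := h2.symm
  have := hp.one_lt
  nlinarith

/-- commutators of elements normalizing `⟨x⟩` lie in `⟨x⟩` -/
theorem commutator_mem {a b : G} (ha : a ∈ Subgroup.normalizer (Subgroup.zpowers x : Set G))
    (hb : b ∈ Subgroup.normalizer (Subgroup.zpowers x : Set G)) :
    ⁅a, b⁆ ∈ Subgroup.zpowers x := by
  have key : ∀ {c : G}, c ∈ Subgroup.normalizer (Subgroup.zpowers x : Set G) →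
      ∃ i : ℤ, x ^ i = c * x * c⁻¹ := by
    intro c hc
    have := (Subgroup.mem_normalizer_iff.mp hc x).mp (Subgroup.mem_zpowers x)
    exact Subgroup.mem_zpowers_iff.mp this
  obtain ⟨i, hi⟩ := key ha
  obtain ⟨j, hj⟩ := key hb
  have h1 : (a * b) * x * (a * b)⁻¹ = x ^ (i * j) := by
    calc (a * b) * x * (a * b)⁻¹ = a * (b * x * b⁻¹) * a⁻¹ := by group
      _ = (a * x * a⁻¹) ^ j := by rw [← hj, conj_zpow]
      _ = x ^ (i * j) := by rw [← hi, zpow_mul]
  have h2 : (b * a) * x * (b * a)⁻¹ = x ^ (i * j) := by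
    calc (b * a) * x * (b * a)⁻¹ = b * (a * x * a⁻¹) * b⁻¹ := by group
      _ = (b * x * b⁻¹) ^ i := by rw [← hi, conj_zpow]
      _ = x ^ (i * j) := by rw [← hj, mul_comm i j, zpow_mul]
  have h3 : ((b * a)⁻¹ * (a * b)) * x = x * ((b * a)⁻¹ * (a * b)) := by
    have h4 : (a * b) * x * (a * b)⁻¹ = (b * a) * x * (b * a)⁻¹ := h1.trans h2.symm
    have h5 := congrArg (fun t => (b * a)⁻¹ * t * (a * b)) h4
    calc ((b * a)⁻¹ * (a * b)) * x = (b * a)⁻¹ * (a * b * x * (a * b)⁻¹) * (a * b) := by group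
      _ = (b * a)⁻¹ * (b * a * x * (b * a)⁻¹) * (a * b) := h5
      _ = x * ((b * a)⁻¹ * (a * b)) := by group
  have h6 := mem_zpowers_of_commute hC h3
  have h7 : b * a ∈ Subgroup.normalizer (Subgroup.zpowers x : Set G) := mul_mem hb ha
  have h8 := (Subgroup.mem_normalizer_iff.mp h7 _).mp h6
  have h9 : ⁅a, b⁆ = (b * a) * ((b * a)⁻¹ * (a * b)) * (b * a)⁻¹ := by
    rw [commutatorElement_def]; group
  rw [h9]
  exact h8

/-- a normal subgroup of order divisible by `p` contains `x` -/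
theorem mem_of_dvd {S : Subgroup G} [hS : S.Normal] (h : p ∣ Nat.card S) : x ∈ S := by
  haveI : Fact p.Prime := ⟨hp⟩
  obtain ⟨y, hy⟩ := exists_prime_orderOf_dvd_card' p h
  have hy' : orderOf (y : G) = p := by rw [Subgroup.orderOf_coe, hy]
  obtain ⟨g, hg⟩ := exists_conj hp hx hC hy'
  have h1 : g * (y : G) * g⁻¹ ≠ 1 := by
    intro h1
    have h2 : (y : G) = 1 := by
      rw [mul_inv_eq_one] at h1
      exact mul_eq_left.mp h1
    rw [h2, orderOf_one] at hy'
    exact hp.one_lt.ne hy'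
  have h3 := zpowers_eq_of_prime hp hx hg h1
  have h4 : x ∈ Subgroup.zpowers (g * (y : G) * g⁻¹) := by
    rw [h3]; exact Subgroup.mem_zpowers x
  exact (Subgroup.zpowers_le.mpr (hS.conj_mem _ y.2 g)) h4

/-- Frattini argument -/
theorem sup_normalizer_eq_top {S : Subgroup G} [hS : S.Normal] (h : x ∈ S) :
    S ⊔ Subgroup.normalizer (Subgroup.zpowers x : Set G) = ⊤ := by
  haveI : Fact p.Prime := ⟨hp⟩
  obtain ⟨Q, hQ⟩ := exists_sylow hp hx hC
  have h1 : (Q : Subgroup G) ≤ S := by
    rw [hQ]; exact Subgroup.zpowers_le.mpr h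
  have := Sylow.normalizer_sup_eq_top' (N := S) Q h1
  change Subgroup.normalizer ((Q : Subgroup G) : Set G) ⊔ S = ⊤ at this
  rw [hQ, sup_comm] at this
  exact this

/-- S4496 (a) -/
theorem commutator_le_of_mem {S : Subgroup G} [hS : S.Normal] (h : x ∈ S) :
    commutator G ≤ S := by
  have htop := sup_normalizer_eq_top hp hx hC h
  rw [commutator_def, Subgroup.commutator_le]
  intro g₁ _ g₂ _
  have hd : ∀ g : G, ∃ n ∈ Subgroup.normalizer (Subgroup.zpowers x : Set G),
      (QuotientGroup.mk' S g) = QuotientGroup.mk' S n := by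
    intro g
    have hg : g ∈ S ⊔ Subgroup.normalizer (Subgroup.zpowers x : Set G) := by rw [htop]; trivial
    obtain ⟨s, hs, n, hn, rfl⟩ := Subgroup.mem_sup_of_normal_left.mp hg
    refine ⟨n, hn, ?_⟩
    rw [map_mul, (QuotientGroup.eq_one_iff s).mpr hs |> (fun h => (show QuotientGroup.mk' S s = 1
      from h)), one_mul]
  obtain ⟨n₁, hn₁, h₁⟩ := hd g₁
  obtain ⟨n₂, hn₂, h₂⟩ := hd g₂
  have h3 : QuotientGroup.mk' S ⁅g₁, g₂⁆ = 1 := by
    rw [map_commutatorElement, h₁, h₂, ← map_commutatorElement]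
    exact (QuotientGroup.eq_one_iff _).mpr
      ((Subgroup.zpowers_le.mpr h) (commutator_mem hp hx hC hn₁ hn₂))
  exact (QuotientGroup.eq_one_iff _).mp h3

theorem commutator_le_of_dvd {S : Subgroup G} [hS : S.Normal] (h : p ∣ Nat.card S) :
    commutator G ≤ S :=
  commutator_le_of_mem hp hx hC (mem_of_dvd hp hx hC h)

theorem not_mem_of_not_dvd {S : Subgroup G} (h : ¬ p ∣ Nat.card S) {y : G}
    (hy : y ∈ Subgroup.zpowers x) (hyS : y ∈ S) : y = 1 := by
  by_contra h1
  apply h
  rw [← orderOf_eq_of_mem_zpowers hp hx hy h1, ← Nat.card_zpowers]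
  exact Subgroup.card_dvd_of_le (Subgroup.zpowers_le.mpr hyS)

theorem fpf {S : Subgroup G} (h : ¬ p ∣ Nat.card S) :
    ∀ h ∈ Subgroup.zpowers x, h ≠ 1 → ∀ k ∈ S, h * k = k * h → k = 1 := by
  intro y hy h1 k hk hc
  have h2 := mem_zpowers_of_commute hC (commute_of_mem_zpowers hp hx hy h1 hc.symm)
  exact not_mem_of_not_dvd hp hx hC h h2 hk

/-- a normal `p'`-subgroup meets the normalizer trivially -/
theorem inf_normalizer_eq_bot {S : Subgroup G} [hS : S.Normal] (h : ¬ p ∣ Nat.card S) {s : G}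
    (hs : s ∈ S) (hsN : s ∈ Subgroup.normalizer (Subgroup.zpowers x : Set G)) : s = 1 := by
  have h1 : s * x * s⁻¹ ∈ Subgroup.zpowers x :=
    (Subgroup.mem_normalizer_iff.mp hsN x).mp (Subgroup.mem_zpowers x)
  have h2 : s * x * s⁻¹ * x⁻¹ ∈ Subgroup.zpowers x :=
    mul_mem h1 (inv_mem (Subgroup.mem_zpowers x))
  have h3 : s * x * s⁻¹ * x⁻¹ ∈ S := by
    have : s * x * s⁻¹ * x⁻¹ = s * (x * s⁻¹ * x⁻¹) := by group
    rw [this]
    exact mul_mem hs (hS.conj_mem _ (inv_mem hs) x)
  have h4 := not_mem_of_not_dvd hp hx hC h h2 h3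
  have h5 : s * x = x * s := by
    rw [mul_inv_eq_one, mul_inv_eq_iff_eq_mul] at h4
    exact h4
  exact not_mem_of_not_dvd hp hx hC h (mem_zpowers_of_commute hC h5) hs

theorem card_mul_card_dvd {S : Subgroup G} [hS : S.Normal] (h : ¬ p ∣ Nat.card S) :
    Nat.card S * Nat.card (Subgroup.normalizer (Subgroup.zpowers x : Set G)) ∣ Nat.card G := by
  set N := Subgroup.normalizer (Subgroup.zpowers x : Set G) with hN
  have h1 : Nat.card N ∣ Nat.card (G ⧸ S) := by
    apply Subgroup.card_dvd_of_injective ((QuotientGroup.mk' S).comp N.subtype)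
    rw [injective_iff_map_eq_one]
    intro n hn
    have h2 : (n : G) ∈ S := (QuotientGroup.eq_one_iff _).mp hn
    exact Subtype.ext (inf_normalizer_eq_bot hp hx hC h h2 n.2)
  rw [Subgroup.card_eq_card_quotient_mul_card_subgroup S, mul_comm]
  exact Nat.mul_dvd_mul_right h1 _

theorem card_dvd_index {S : Subgroup G} [hS : S.Normal] (h : ¬ p ∣ Nat.card S) :
    Nat.card S ∣ (Subgroup.normalizer (Subgroup.zpowers x : Set G)).index := by
  have h1 := card_mul_card_dvd hp hx hC h
  rw [← Subgroup.index_mul_card (Subgroup.normalizer (Subgroup.zpowers x : Set G))] at h1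
  exact Nat.dvd_of_mul_dvd_mul_right Nat.card_pos h1

/-- number of subgroups of order `p` -/
theorem card_subgroups :
    Nat.card {H : Subgroup G // Nat.card H = p} =
      (Subgroup.normalizer (Subgroup.zpowers x : Set G)).index := by
  haveI : Fact p.Prime := ⟨hp⟩
  obtain ⟨Q, hQ⟩ := exists_sylow hp hx hC
  have hQc : Nat.card Q = p := by
    change Nat.card (Q : Subgroup G) = p
    rw [hQ, Nat.card_zpowers, hx]
  have hcc := Sylow.card_eq_index_normalizer Q
  change _ = (Subgroup.normalizer ((Q : Subgroup G) : Set G)).index at hcc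
  rw [hQ] at hcc
  rw [← hcc]
  apply Nat.card_congr
  refine ⟨fun H => ?_, fun R => ⟨R, ?_⟩, ?_, ?_⟩
  · exact Sylow.ofCard H.1 (by rw [H.2, ← Q.card_eq_multiplicity, hQc])
  · change Nat.card R = p
    rw [R.card_eq_multiplicity, ← Q.card_eq_multiplicity, hQc]
  · intro H
    apply Subtype.ext
    rfl
  · intro R
    apply Sylow.ext
    rfl

theorem card_mod_eq_one {S : Subgroup G} [hS : S.Normal] (h : ¬ p ∣ Nat.card S) :
    Nat.card S % p = 1 := by
  haveI : Fact p.Prime := ⟨hp⟩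
  have hPp : IsPGroup p (Subgroup.zpowers x) := by
    apply IsPGroup.of_card (n := 1)
    rw [Nat.card_zpowers, hx, pow_one]
  letI : MulAction (Subgroup.zpowers x) S :=
    MulAction.compHom S ((MulAut.conjNormal (H := S)).comp (Subgroup.zpowers x).subtype)
  have h1 := hPp.card_modEq_card_fixedPoints (α := S)
  have h2 : Nat.card (MulAction.fixedPoints (Subgroup.zpowers x) S) = 1 := by
    rw [Nat.card_eq_one_iff_unique]
    constructor
    · constructor
      intro a b
      have key : ∀ a : MulAction.fixedPoints (Subgroup.zpowers x) S, (a : S) = 1 := by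
        intro a
        have ha := a.2 ⟨x, Subgroup.mem_zpowers x⟩
        have ha' : x * ((a : S) : G) * x⁻¹ = ((a : S) : G) := congrArg Subtype.val ha
        have ha2 : x * ((a : S) : G) = ((a : S) : G) * x := mul_inv_eq_iff_eq_mul.mp ha'
        apply Subtype.ext
        refine fpf hp hx hC h x (Subgroup.mem_zpowers x) ?_ _ (a : S).2 ha2
        rintro rfl
        rw [orderOf_one] at hx
        exact hp.one_lt.ne hx
      apply Subtype.ext
      rw [key a, key b]
    · refine ⟨⟨1, ?_⟩⟩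
      intro m
      apply Subtype.ext
      change (m : G) * 1 * (m : G)⁻¹ = 1
      simp
  rw [h2] at h1
  rw [h1, Nat.mod_eq_of_lt hp.one_lt]

theorem orderOf_mk {S : Subgroup G} [hS : S.Normal] (h : ¬ p ∣ Nat.card S) :
    orderOf (QuotientGroup.mk x : G ⧸ S) = p := by
  haveI : Fact p.Prime := ⟨hp⟩
  apply orderOf_eq_prime
  · rw [← QuotientGroup.mk_pow, ← hx, pow_orderOf_eq_one]; rfl
  · intro h1
    have h2 := not_mem_of_not_dvd hp hx hC h (Subgroup.mem_zpowers x)
      ((QuotientGroup.eq_one_iff x).mp h1)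
    rw [h2, orderOf_one] at hx
    exact hp.one_lt.ne hx

theorem centralizer_mk {S : Subgroup G} [hS : S.Normal] (h : ¬ p ∣ Nat.card S) :
    Subgroup.centralizer ({(QuotientGroup.mk x : G ⧸ S)} : Set (G ⧸ S)) =
      Subgroup.zpowers (QuotientGroup.mk x : G ⧸ S) := by
  apply le_antisymm
  · intro g hg
    rw [Subgroup.mem_centralizer_singleton_iff] at hg
    induction g using QuotientGroup.induction_on with
    | H g =>
      have h1 : g * x * g⁻¹ * x⁻¹ ∈ S := by
        rw [← QuotientGroup.eq_one_iff]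
        change (QuotientGroup.mk g : G ⧸ S) * QuotientGroup.mk x * (QuotientGroup.mk g)⁻¹ *
          (QuotientGroup.mk x)⁻¹ = 1
        rw [hg]
        group
      have hx1 : x ≠ 1 := by
        rintro rfl
        rw [orderOf_one] at hx
        exact hp.one_lt.ne hx
      obtain ⟨y, hy, hyx⟩ := frob_coset S (Subgroup.zpowers x) (fpf hp hx hC h)
        (Subgroup.mem_zpowers x) hx1 h1
      have h2 : (y⁻¹ * g) * x = x * (y⁻¹ * g) := by
        have h3 : g * x * g⁻¹ = y * x * y⁻¹ := by rw [← hyx]; group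
        calc (y⁻¹ * g) * x = y⁻¹ * (g * x * g⁻¹) * g := by group
          _ = y⁻¹ * (y * x * y⁻¹) * g := by rw [h3]
          _ = x * (y⁻¹ * g) := by group
      obtain ⟨k, hk⟩ := Subgroup.mem_zpowers_iff.mp (mem_zpowers_of_commute hC h2)
      rw [Subgroup.mem_zpowers_iff]
      refine ⟨k, ?_⟩
      rw [← QuotientGroup.mk_zpow, hk]
      rw [QuotientGroup.eq]
      have : (y⁻¹ * g)⁻¹ * g = g⁻¹ * y * g⁻¹⁻¹ := by group
      rw [this]
      exact hS.conj_mem _ hy _
  · rw [Subgroup.zpowers_le, Subgroup.mem_centralizer_singleton_iff]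

/-- normal `p'`-subgroups lie in the derived group (indeed in `[S, x]`) -/
theorem exists_commutator {S : Subgroup G} [hS : S.Normal] (h : ¬ p ∣ Nat.card S) {s : G}
    (hs : s ∈ S) : ∃ y ∈ S, s = ⁅y, x⁆ := by
  have hx1 : x ≠ 1 := by
    rintro rfl
    rw [orderOf_one] at hx
    exact hp.one_lt.ne hx
  obtain ⟨y, hy, hyx⟩ := frob_coset S (Subgroup.zpowers x) (fpf hp hx hC h)
    (Subgroup.mem_zpowers x) hx1 hs
  refine ⟨y, hy, ?_⟩
  rw [commutatorElement_def, ← hyx]
  group

theorem le_commutator_of_not_dvd {S : Subgroup G} [hS : S.Normal] (h : ¬ p ∣ Nat.card S) :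
    S ≤ commutator G := by
  intro s hs
  obtain ⟨y, hy, rfl⟩ := exists_commutator hp hx hC h hs
  exact Subgroup.commutator_mem_commutator (Subgroup.mem_top _) (Subgroup.mem_top _)

end SC

end Cfsg.Agent.H75
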