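import Cfsg.Agent.H75.SelfCent

/-!
# Groups with a self-centralizing element of prime order, II (owner: helper75)
-/

set_option autoImplicit false
set_option linter.style.haveILetI false
set_option linter.unusedSectionVars false

namespace Cfsg.Agent.H75

open Cfsg
open scoped commutatorElement

universe u

theorem card_eq_mul_of_fibers {A : Type*} {B : Type*} [Finite A] [Finite B] (f : A → B) (m : ℕ)
    (h : ∀ b, Nat.card {a // f a = b} = m) : Nat.card A = Nat.card B * m := by
  classical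
  haveI := Fintype.ofFinite A
  haveI := Fintype.ofFinite B
  rw [← Nat.card_congr (Equiv.sigmaFiberEquiv f), Nat.card_sigma]
  simp_rw [h]
  rw [Finset.sum_const, Finset.card_univ, Nat.card_eq_fintype_card, smul_eq_mul]

namespace SC

variable {G : Type u} [Group G] [Finite G] {p : ℕ} (hp : p.Prime) {x : G} (hx : orderOf x = p)
  (hC : Subgroup.centralizer ({x} : Set G) = Subgroup.zpowers x)

include hp hx hC

theorem card_fiber_normalizer {y z : G} (hy : y ∈ Subgroup.zpowers x) (hy1 : y ≠ 1)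
    (hz : z ∈ Subgroup.zpowers x) (hyz : ConjClasses.mk z = ConjClasses.mk y) :
    Nat.card {n : Subgroup.normalizer (Subgroup.zpowers x : Set G) //
      (n : G) * y * (n : G)⁻¹ = z} = p := by
  have hle : Subgroup.zpowers x ≤ Subgroup.normalizer (Subgroup.zpowers x : Set G) :=
    Subgroup.le_normalizer
  have hz1 : z ≠ 1 := by
    rintro rfl
    apply hy1
    rw [ConjClasses.mk_eq_mk_iff_isConj] at hyz
    exact (isConj_one_right.mp hyz)
  obtain ⟨g, hg⟩ : ∃ g : G, g * y * g⁻¹ = z := by
    rw [ConjClasses.mk_eq_mk_iff_isConj, isConj_comm, isConj_iff] at hyz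
    exact hyz
  have hgN : g ∈ Subgroup.normalizer (Subgroup.zpowers x : Set G) := by
    rw [Subgroup.mem_normalizer_iff]
    have h1 : Subgroup.zpowers z = Subgroup.zpowers x := zpowers_eq_of_prime hp hx hz hz1
    have h2 : Subgroup.zpowers y = Subgroup.zpowers x := zpowers_eq_of_prime hp hx hy hy1
    intro h
    constructor
    · intro hh
      rw [← h2] at hh
      obtain ⟨k, rfl⟩ := Subgroup.mem_zpowers_iff.mp hh
      rw [← h1, Subgroup.mem_zpowers_iff]
      exact ⟨k, by rw [← hg, conj_zpow]⟩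
    · intro hh
      rw [← h1] at hh
      obtain ⟨k, hk⟩ := Subgroup.mem_zpowers_iff.mp hh
      rw [← h2, Subgroup.mem_zpowers_iff]
      refine ⟨k, ?_⟩
      rw [← hg, conj_zpow] at hk
      exact mul_left_cancel (mul_right_cancel hk)
  have hcard : Nat.card (Subgroup.zpowers x) = p := by rw [Nat.card_zpowers, hx]
  rw [← hcard]
  apply Nat.card_congr
  refine ⟨fun n => ⟨g⁻¹ * n, ?_⟩, fun h => ⟨⟨g * h, mul_mem hgN (hle h.2)⟩, ?_⟩, ?_, ?_⟩
  · apply mem_zpowers_of_commute hC
    apply commute_of_mem_zpowers hp hx hy hy1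
    have h3 : (n.1 : G) * y * (n.1 : G)⁻¹ = g * y * g⁻¹ := n.2.trans hg.symm
    calc g⁻¹ * (n.1 : G) * y = g⁻¹ * ((n.1 : G) * y * (n.1 : G)⁻¹) * n.1 := by group
      _ = g⁻¹ * (g * y * g⁻¹) * n.1 := by rw [h3]
      _ = y * (g⁻¹ * n.1) := by group
  · have h4 : (h : G) * y = y * h := by
      obtain ⟨i, hi⟩ := Subgroup.mem_zpowers_iff.mp h.2
      obtain ⟨j, hj⟩ := Subgroup.mem_zpowers_iff.mp hy
      rw [← hi, ← hj, ← zpow_add, ← zpow_add, add_comm]
    change (g * (h : G)) * y * (g * h)⁻¹ = z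
    rw [← hg]
    calc (g * (h : G)) * y * (g * h)⁻¹ = g * (h * y) * (h : G)⁻¹ * g⁻¹ := by group
      _ = g * y * g⁻¹ := by rw [h4]; group
  · intro n
    apply Subtype.ext
    apply Subtype.ext
    change g * (g⁻¹ * (n.1 : G)) = n.1
    group
  · intro h
    apply Subtype.ext
    change g⁻¹ * (g * (h : G)) = h
    group

theorem card_orbit_mul {y : G} (hy : y ∈ Subgroup.zpowers x) (hy1 : y ≠ 1) :
    Nat.card {z : G // z ∈ Subgroup.zpowers x ∧ ConjClasses.mk z = ConjClasses.mk y} * p =
      Nat.card (Subgroup.normalizer (Subgroup.zpowers x : Set G)) := by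
  symm
  let f : Subgroup.normalizer (Subgroup.zpowers x : Set G) →
      {z : G // z ∈ Subgroup.zpowers x ∧ ConjClasses.mk z = ConjClasses.mk y} := fun n =>
    ⟨n * y * (n : G)⁻¹, (Subgroup.mem_normalizer_iff.mp n.2 y).mp hy, by
      rw [ConjClasses.mk_eq_mk_iff_isConj, isConj_comm, isConj_iff]
      exact ⟨n, rfl⟩⟩
  apply card_eq_mul_of_fibers f
  intro z
  rw [← card_fiber_normalizer hp hx hC hy hy1 z.2.1 z.2.2]
  apply Nat.card_congr
  apply Equiv.subtypeEquivRight
  intro n
  exact ⟨fun h => congrArg Subtype.val h, fun h => Subtype.ext h⟩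

/-- the basic counting formula `t |N| = p (p - 1)` -/
theorem card_classes_mul :
    Nat.card {C : ConjClasses G // ∃ g ∈ C.carrier, orderOf g = p} *
      Nat.card (Subgroup.normalizer (Subgroup.zpowers x : Set G)) = (p - 1) * p := by
  obtain ⟨m, hm⟩ : ∃ m, Nat.card (Subgroup.normalizer (Subgroup.zpowers x : Set G)) = m * p := by
    have h1 : Nat.card (Subgroup.zpowers x) ∣
        Nat.card (Subgroup.normalizer (Subgroup.zpowers x : Set G)) :=
      Subgroup.card_dvd_of_le Subgroup.le_normalizer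
    rw [Nat.card_zpowers, hx] at h1
    obtain ⟨m, hm⟩ := h1
    exact ⟨m, by rw [hm, mul_comm]⟩
  have hmem : ∀ y : {y : G // y ∈ Subgroup.zpowers x ∧ y ≠ 1},
      ∃ g ∈ (ConjClasses.mk (y : G)).carrier, orderOf g = p := fun y =>
    ⟨y, ConjClasses.mem_carrier_mk, orderOf_eq_of_mem_zpowers hp hx y.2.1 y.2.2⟩
  have h2 : Nat.card {y : G // y ∈ Subgroup.zpowers x ∧ y ≠ 1} =
      Nat.card {C : ConjClasses G // ∃ g ∈ C.carrier, orderOf g = p} * m := by
    apply card_eq_mul_of_fibers (fun y : {y : G // y ∈ Subgroup.zpowers x ∧ y ≠ 1} =>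
      (⟨ConjClasses.mk (y : G), hmem y⟩ :
      {C : ConjClasses G // ∃ g ∈ C.carrier, orderOf g = p}))
    intro C
    obtain ⟨g, hg, hgp⟩ := C.2
    obtain ⟨a, ha⟩ := exists_conj hp hx hC hgp
    have hy1 : a * g * a⁻¹ ≠ 1 := by
      intro h1
      have h2 : g = 1 := by
        rw [mul_inv_eq_one] at h1
        exact mul_eq_left.mp h1
      rw [h2, orderOf_one] at hgp
      exact hp.one_lt.ne hgp
    have hCy : C.1 = ConjClasses.mk (a * g * a⁻¹) := by
      rw [ConjClasses.mem_carrier_iff_mk_eq] at hg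
      rw [← hg, ConjClasses.mk_eq_mk_iff_isConj, isConj_iff]
      exact ⟨a, rfl⟩
    have h3 := card_orbit_mul hp hx hC ha hy1
    rw [hm] at h3
    have h4 := Nat.eq_of_mul_eq_mul_right hp.pos h3
    rw [← h4]
    apply Nat.card_congr
    refine ⟨fun y => ⟨y.1, y.1.2.1, ?_⟩, fun z => ⟨⟨z, z.2.1, ?_⟩, ?_⟩, ?_, ?_⟩
    · rw [← hCy]
      exact congrArg Subtype.val y.2
    · intro hz
      have h5 := z.2.2
      rw [hz, ConjClasses.mk_eq_mk_iff_isConj] at h5
      exact hy1 (isConj_one_right.mp h5)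
    · apply Subtype.ext
      rw [hCy]
      exact z.2.2
    · intro y; rfl
    · intro z; rfl
  have h3 : Nat.card {y : G // y ∈ Subgroup.zpowers x ∧ y ≠ 1} = p - 1 := by
    have h4 : Nat.card (Subgroup.zpowers x) = p := by rw [Nat.card_zpowers, hx]
    have h5 : Nat.card {y : G // y ∈ Subgroup.zpowers x ∧ y ≠ 1} =
        Nat.card {y : Subgroup.zpowers x // y ≠ 1} := by
      apply Nat.card_congr
      refine ⟨fun y => ⟨⟨y, y.2.1⟩, fun h => y.2.2 (congrArg Subtype.val h)⟩,
        fun y => ⟨y.1, y.1.2, fun h => y.2 (Subtype.ext h)⟩, ?_, ?_⟩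
      · intro y; rfl
      · intro y; rfl
    classical
    haveI := Fintype.ofFinite (Subgroup.zpowers x)
    rw [h5, Nat.card_eq_fintype_card, Fintype.card_subtype_compl, ← Nat.card_eq_fintype_card, h4]
    simp
  rw [hm, ← mul_assoc, ← h2, h3]

/-- if `N_G(⟨x⟩) ≠ ⟨x⟩` then `x ∈ G'` -/
theorem mem_commutator (hN : Nat.card (Subgroup.normalizer (Subgroup.zpowers x : Set G)) ≠ p) :
    x ∈ commutator G := by
  have hne : ¬ (Subgroup.normalizer (Subgroup.zpowers x : Set G)) ≤ Subgroup.zpowers x := by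
    intro h
    apply hN
    rw [le_antisymm h Subgroup.le_normalizer, Nat.card_zpowers, hx]
  obtain ⟨n, hn, hnx⟩ := SetLike.not_le_iff_exists.mp hne
  have h1 := commutator_mem hp hx hC hn
    (Subgroup.le_normalizer (H := Subgroup.zpowers x) (Subgroup.mem_zpowers x))
  have h2 : ⁅n, x⁆ ≠ 1 := by
    intro h
    rw [commutatorElement_eq_one_iff_mul_comm] at h
    exact hnx (mem_zpowers_of_commute hC h)
  have h3 := zpowers_eq_of_prime hp hx h1 h2
  have h4 : x ∈ Subgroup.zpowers ⁅n, x⁆ := by rw [h3]; exact Subgroup.mem_zpowers x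
  exact (Subgroup.zpowers_le.mpr (Subgroup.commutator_mem_commutator (Subgroup.mem_top _)
    (Subgroup.mem_top _))) h4

/-- if `N_G(⟨x⟩) = ⟨x⟩` there is a normal complement -/
theorem exists_complement
    (hN : Nat.card (Subgroup.normalizer (Subgroup.zpowers x : Set G)) = p) :
    ∃ K : Subgroup G, K.Normal ∧ ¬ p ∣ Nat.card K ∧ K.index = p := by
  haveI : Fact p.Prime := ⟨hp⟩
  obtain ⟨Q, hQ⟩ := exists_sylow hp hx hC
  have h0 : Subgroup.normalizer (Subgroup.zpowers x : Set G) = Subgroup.zpowers x := by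
    symm
    apply Subgroup.eq_of_le_of_card_ge Subgroup.le_normalizer
    rw [hN, Nat.card_zpowers, hx]
  have h1 : Subgroup.normalizer ((Q : Subgroup G) : Set G) ≤
      Subgroup.centralizer ((Q : Subgroup G) : Set G) := by
    rw [hQ, h0]
    intro a ha
    rw [Subgroup.mem_centralizer_iff]
    intro b hb
    obtain ⟨i, hi⟩ := Subgroup.mem_zpowers_iff.mp ha
    obtain ⟨j, hj⟩ := Subgroup.mem_zpowers_iff.mp hb
    rw [← hi, ← hj, ← zpow_add, ← zpow_add, add_comm]
  have h2 := MonoidHom.ker_transferSylow_isComplement' Q h1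
  refine ⟨(MonoidHom.transferSylow Q h1).ker, inferInstance, ?_, ?_⟩
  · have := MonoidHom.not_dvd_card_ker_transferSylow Q h1
    exact this
  · rw [h2.symm.index_eq_card]
    change Nat.card (Q : Subgroup G) = p
    rw [hQ, Nat.card_zpowers, hx]

theorem commutator_index_eq
    (hN : Nat.card (Subgroup.normalizer (Subgroup.zpowers x : Set G)) = p) :
    (commutator G).index = p ∧ ¬ p ∣ Nat.card (commutator G) := by
  obtain ⟨K, hK, hKp, hKi⟩ := exists_complement hp hx hC hN
  have h1 : K ≤ commutator G := le_commutator_of_not_dvd hp hx hC hKp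
  have h2 : commutator G ≤ K := by
    have hcard : Nat.card (G ⧸ K) = p := hKi
    haveI : Fact p.Prime := ⟨hp⟩
    haveI : IsCyclic (G ⧸ K) := isCyclic_of_prime_card hcard
    rw [commutator_def, Subgroup.commutator_le]
    intro a _ b _
    rw [← QuotientGroup.eq_one_iff]
    change QuotientGroup.mk' K ⁅a, b⁆ = 1
    rw [map_commutatorElement, commutatorElement_eq_one_iff_mul_comm]
    exact (IsCyclic.commGroup (α := G ⧸ K)).mul_comm _ _
  have h3 : commutator G = K := le_antisymm h2 h1
  rw [h3]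
  exact ⟨hKi, hKp⟩

/-- index of the derived group in terms of `N` -/
theorem commutator_index_dvd
    (hN : Nat.card (Subgroup.normalizer (Subgroup.zpowers x : Set G)) ≠ p) :
    (commutator G).index * p ∣ Nat.card (Subgroup.normalizer (Subgroup.zpowers x : Set G)) := by
  have h0 := mem_commutator hp hx hC hN
  have htop := sup_normalizer_eq_top hp hx hC h0
  set N := Subgroup.normalizer (Subgroup.zpowers x : Set G) with hNdef
  let f : N →* G ⧸ commutator G := (QuotientGroup.mk' (commutator G)).comp N.subtype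
  have hsurj : Function.Surjective f := by
    intro q
    induction q using QuotientGroup.induction_on with
    | H g =>
      have hg : g ∈ commutator G ⊔ N := by rw [htop]; trivial
      obtain ⟨s, hs, n, hn, rfl⟩ := Subgroup.mem_sup_of_normal_left.mp hg
      refine ⟨⟨n, hn⟩, ?_⟩
      change (QuotientGroup.mk n : G ⧸ commutator G) = QuotientGroup.mk (s * n)
      rw [QuotientGroup.mk_mul, (QuotientGroup.eq_one_iff s).mpr hs, one_mul]
  have h1 : Nat.card (G ⧸ commutator G) * Nat.card f.ker = Nat.card N := by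
    rw [← Subgroup.index_mul_card f.ker, Subgroup.index_ker]
    congr 1
    rw [MonoidHom.range_eq_top.mpr hsurj]
    exact (Nat.card_congr Subgroup.topEquiv.toEquiv).symm
  have h2 : p ∣ Nat.card f.ker := by
    have hxN : x ∈ N := Subgroup.le_normalizer (H := Subgroup.zpowers x) (Subgroup.mem_zpowers x)
    have hxk : (⟨x, hxN⟩ : N) ∈ f.ker := by
      rw [MonoidHom.mem_ker]
      exact (QuotientGroup.eq_one_iff x).mpr h0
    have h3 : orderOf (⟨x, hxN⟩ : N) = p := by rw [← hx]; exact Subgroup.orderOf_mk x hxN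
    rw [← h3, ← Nat.card_zpowers]
    exact Subgroup.card_dvd_of_le (Subgroup.zpowers_le.mpr hxk)
  rw [← h1]
  exact Nat.mul_dvd_mul_left _ h2

end SC

end Cfsg.Agent.H75
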