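import Cfsg.Agent.H75.SelfCent2

/-!
# Groups with a self-centralizing element of prime order, III (owner: helper75)
-/

set_option autoImplicit false
set_option linter.style.haveILetI false
set_option linter.unusedSectionVars false

namespace Cfsg.Agent.H75

open Cfsg
open scoped commutatorElement

universe u

namespace SC

variable {G : Type u} [Group G] [Finite G] {p : ℕ} (hp : p.Prime) {x : G} (hx : orderOf x = p)
  (hC : Subgroup.centralizer ({x} : Set G) = Subgroup.zpowers x)

include hp hx hC

theorem not_dvd_core : ¬ p ∣ Nat.card (pPrimeCore p G) := by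
  rw [← Nat.Prime.coprime_iff_not_dvd hp]
  exact (Cfsg.Agent.Solv.pPrimeCore_card_coprime p).symm

theorem core_le : pPrimeCore p G ≤ commutator G :=
  le_commutator_of_not_dvd hp hx hC (not_dvd_core hp hx hC)

/-- `M ≤ G'` normalized by `G'`, of order divisible by `p`, is `G'`. -/
theorem eq_commutator {M : Subgroup G} (hM : M ≤ commutator G)
    (hMn : ∀ m ∈ M, ∀ g ∈ commutator G, g * m * g⁻¹ ∈ M) (hdvd : p ∣ Nat.card M) :
    M = commutator G := by
  haveI : Fact p.Prime := ⟨hp⟩
  -- all elements of order p are in M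
  have hxG : x ∈ commutator G := by
    apply mem_of_dvd hp hx hC
    exact hdvd.trans (Subgroup.card_dvd_of_le hM)
  obtain ⟨y, hy⟩ := exists_prime_orderOf_dvd_card' p hdvd
  have hy' : orderOf (y : G) = p := by rw [Subgroup.orderOf_coe, hy]
  have hall : ∀ z : G, orderOf z = p → z ∈ M := by
    intro z hz
    -- z and y in the normal subgroup G'; Sylow's theorem inside G'
    have hzG : z ∈ commutator G := by
      obtain ⟨g, hg⟩ := exists_conj hp hx hC hz
      have h1 : g * z * g⁻¹ ∈ commutator G := (Subgroup.zpowers_le.mpr hxG) hg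
      have h2 := (inferInstance : (commutator G).Normal).conj_mem _ h1 g⁻¹
      have h3 : g⁻¹ * (g * z * g⁻¹) * g⁻¹⁻¹ = z := by group
      rwa [h3] at h2
    have hyG : (y : G) ∈ commutator G := hM y.2
    have hzo : orderOf (⟨z, hzG⟩ : commutator G) = p := by
      rw [← hz]; exact Subgroup.orderOf_mk z hzG
    have hyo : orderOf (⟨y, hyG⟩ : commutator G) = p := by
      rw [← hy']; exact Subgroup.orderOf_mk (y : G) hyG
    have hnsq : ¬ p ^ 2 ∣ Nat.card (commutator G) := fun h =>
      not_sq_dvd hp hx hC (h.trans (Subgroup.card_subgroup_dvd_card _))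
    have hfac : (Nat.card (commutator G)).factorization p = 1 := by
      have h1 : p ∣ Nat.card (commutator G) := hdvd.trans (Subgroup.card_dvd_of_le hM)
      have h2 : 1 ≤ (Nat.card (commutator G)).factorization p :=
        (hp.dvd_iff_one_le_factorization Nat.card_pos.ne').mp h1
      have h3 : ¬ 2 ≤ (Nat.card (commutator G)).factorization p := fun h =>
        hnsq ((hp.pow_dvd_iff_le_factorization Nat.card_pos.ne').mpr h)
      omega
    let P₁ : Sylow p (commutator G) := Sylow.ofCard (Subgroup.zpowers (⟨z, hzG⟩ : commutator G))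
      (by rw [Nat.card_zpowers, hzo, hfac, pow_one])
    let P₂ : Sylow p (commutator G) := Sylow.ofCard (Subgroup.zpowers (⟨y, hyG⟩ : commutator G))
      (by rw [Nat.card_zpowers, hyo, hfac, pow_one])
    obtain ⟨g, hg⟩ := MulAction.exists_smul_eq (commutator G) P₂ P₁
    have h4 : (⟨z, hzG⟩ : commutator G) ∈ (g • P₂ : Sylow p (commutator G)) := by
      rw [hg]; exact Subgroup.mem_zpowers _
    have h5 : (⟨z, hzG⟩ : commutator G) ∈ ((g • P₂ : Sylow p (commutator G)) :
      Subgroup (commutator G)) := h4
    rw [Sylow.coe_subgroup_smul, Subgroup.mem_pointwise_smul_iff_inv_smul_mem] at h5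
    obtain ⟨k, hk⟩ := Subgroup.mem_zpowers_iff.mp h5
    have h6 : (y : G) ^ k = (g : G)⁻¹ * z * g := by
      have := congrArg (Subtype.val) hk
      simpa using this
    have h7 : z = g * (y : G) ^ k * (g : G)⁻¹ := by rw [h6]; group
    rw [h7]
    exact hMn _ (M.zpow_mem y.2 k) g g.2
  let L : Subgroup G := Subgroup.normalClosure {x}
  have hL : L ≤ M := by
    intro z hz
    refine Subgroup.closure_induction (p := fun z _ => z ∈ M) ?_ (one_mem _)
      (fun a b _ _ ha hb => mul_mem ha hb) (fun a _ ha => inv_mem ha) hz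
    intro w hw
    obtain ⟨a, ha, hwa⟩ := Group.mem_conjugatesOfSet_iff.mp hw
    rw [Set.mem_singleton_iff] at ha
    subst ha
    apply hall
    obtain ⟨c, hc⟩ := isConj_iff.mp hwa
    rw [← hc, ← hx]
    exact (orderOf_injective (MulAut.conj c).toMonoidHom (MulAut.conj c).injective a)
  have hxL : x ∈ L := Subgroup.subset_normalClosure rfl
  exact le_antisymm hM ((commutator_le_of_mem hp hx hC hxL).trans hL)

theorem le_core {M : Subgroup G} (hM : M ≤ commutator G)
    (hMn : ∀ m ∈ M, ∀ g ∈ commutator G, g * m * g⁻¹ ∈ M) (hdvd : ¬ p ∣ Nat.card M) :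
    M ≤ pPrimeCore p G := by
  have h1 : (M.subgroupOf (commutator G)).Normal := by
    constructor
    intro n hn g
    exact hMn _ hn _ g.2
  have h2 : (Nat.card (M.subgroupOf (commutator G))).Coprime p := by
    rw [← Subgroup.card_map_of_injective (commutator G).subtype_injective,
      Subgroup.subgroupOf_map_subtype, inf_eq_left.mpr hM]
    exact ((Nat.Prime.coprime_iff_not_dvd hp).mpr hdvd).symm
  have h3 := Cfsg.Agent.Solv.le_pPrimeCore h1 h2
  have h4 := Subgroup.map_mono (f := (commutator G).subtype) h3
  rw [Subgroup.subgroupOf_map_subtype, inf_eq_left.mpr hM] at h4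
  exact h4.trans (Cfsg.Agent.Solv.map_subtype_pPrimeCore_le p _)

theorem isSimple_quotient (hxG : x ∈ commutator G)
    (h : ((pPrimeCore p G).subgroupOf (commutator G)).Normal) :
    IsSimpleGroup (commutator G ⧸ (pPrimeCore p G).subgroupOf (commutator G)) := by
  have hx1 : x ≠ 1 := by
    rintro rfl
    rw [orderOf_one] at hx
    exact hp.one_lt.ne hx
  have hxR : x ∉ pPrimeCore p G := fun hh => hx1
    (not_mem_of_not_dvd hp hx hC (not_dvd_core hp hx hC) (Subgroup.mem_zpowers x) hh)
  refine { exists_pair_ne := ⟨(QuotientGroup.mk ⟨x, hxG⟩), 1, ?_⟩,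
           eq_bot_or_eq_top_of_normal := ?_ }
  · intro hh
    have h2 : (⟨x, hxG⟩ : commutator G) ∈ (pPrimeCore p G).subgroupOf (commutator G) :=
      (QuotientGroup.eq_one_iff _).mp hh
    exact hxR h2
  · intro H hH
    set K : Subgroup (commutator G) := H.comap (QuotientGroup.mk' _) with hK
    have hKn : K.Normal := inferInstance
    set M : Subgroup G := K.map (commutator G).subtype with hMdef
    have hM : M ≤ commutator G := Subgroup.map_subtype_le _
    have hMn : ∀ m ∈ M, ∀ g ∈ commutator G, g * m * g⁻¹ ∈ M := by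
      rintro _ ⟨m, hm, rfl⟩ g hg
      exact ⟨⟨g, hg⟩ * m * ⟨g, hg⟩⁻¹, hKn.conj_mem m hm ⟨g, hg⟩, rfl⟩
    have hKM : ∀ k : commutator G, (k : G) ∈ M ↔ k ∈ K := by
      intro k
      rw [hMdef, Subgroup.mem_map]
      constructor
      · rintro ⟨k', hk', h'⟩
        rwa [← Subtype.ext (a1 := k') (a2 := k) h']
      · intro hk; exact ⟨k, hk, rfl⟩
    by_cases hd : p ∣ Nat.card M
    · right
      have h1 := eq_commutator hp hx hC hM hMn hd
      rw [Subgroup.eq_top_iff']
      intro q
      induction q using QuotientGroup.induction_on with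
      | H g =>
        have h2 : (g : G) ∈ M := by rw [h1]; exact g.2
        exact (hKM g).mp h2
    · left
      have h1 := le_core hp hx hC hM hMn hd
      rw [Subgroup.eq_bot_iff_forall]
      intro q hq
      induction q using QuotientGroup.induction_on with
      | H g =>
        have h2 : (g : G) ∈ M := (hKM g).mpr hq
        exact (QuotientGroup.eq_one_iff g).mpr (h1 h2)

end SC

end Cfsg.Agent.H75
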