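import Cfsg.Agent.H75.SelfCent3

/-!
# Groups with a self-centralizing element of prime order, IV (owner: helper75)
-/

set_option autoImplicit false
set_option linter.style.haveILetI false
set_option linter.unusedSectionVars false

namespace Cfsg.Agent.H75

open Cfsg
open scoped commutatorElement

universe u

namespace SC

variable {G : Type u} [Group G] [Finite G] {p : ℕ} (hp : p.Prime) {x : G} (hx : orderOf x = p)
  (hC : Subgroup.centralizer ({x} : Set G) = Subgroup.zpowers x)

include hp hx hC

theorem card_mul_card_of_surj {D : Subgroup G} [hD : D.Normal] (hdvd : ¬ p ∣ Nat.card D)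
    (h : ∀ g : G, ∃ n ∈ Subgroup.normalizer (Subgroup.zpowers x : Set G),
      (QuotientGroup.mk g : G ⧸ D) = QuotientGroup.mk n) :
    Nat.card D * Nat.card (Subgroup.normalizer (Subgroup.zpowers x : Set G)) = Nat.card G := by
  set N := Subgroup.normalizer (Subgroup.zpowers x : Set G) with hN
  let f : N → G ⧸ D := fun n => QuotientGroup.mk (n : G)
  have hinj : Function.Injective f := by
    intro a b hab
    have h1 : ((a : G)⁻¹ * b) ∈ D := (QuotientGroup.eq).mp hab
    have h2 := inf_normalizer_eq_bot hp hx hC hdvd h1 (mul_mem (inv_mem a.2) b.2)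
    exact Subtype.ext (inv_mul_eq_one.mp h2)
  have hsurj : Function.Surjective f := by
    intro q
    induction q using QuotientGroup.induction_on with
    | H g =>
      obtain ⟨n, hn, hg⟩ := h g
      exact ⟨⟨n, hn⟩, hg.symm⟩
  have h3 : Nat.card N = Nat.card (G ⧸ D) := Nat.card_congr (Equiv.ofBijective f ⟨hinj, hsurj⟩)
  rw [h3, Subgroup.card_eq_card_quotient_mul_card_subgroup D, mul_comm]

theorem surj_of_card_mul_card {D : Subgroup G} [hD : D.Normal] (hdvd : ¬ p ∣ Nat.card D)
    (h : Nat.card D * Nat.card (Subgroup.normalizer (Subgroup.zpowers x : Set G)) = Nat.card G)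
    (g : G) : ∃ n ∈ Subgroup.normalizer (Subgroup.zpowers x : Set G),
      (QuotientGroup.mk g : G ⧸ D) = QuotientGroup.mk n := by
  set N := Subgroup.normalizer (Subgroup.zpowers x : Set G) with hN
  let f : N → G ⧸ D := fun n => QuotientGroup.mk (n : G)
  have hinj : Function.Injective f := by
    intro a b hab
    have h1 : ((a : G)⁻¹ * b) ∈ D := (QuotientGroup.eq).mp hab
    have h2 := inf_normalizer_eq_bot hp hx hC hdvd h1 (mul_mem (inv_mem a.2) b.2)
    exact Subtype.ext (inv_mul_eq_one.mp h2)
  have h3 : Nat.card N = Nat.card (G ⧸ D) := by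
    rw [Subgroup.card_eq_card_quotient_mul_card_subgroup D, mul_comm] at h
    exact Nat.eq_of_mul_eq_mul_right Nat.card_pos h
  have hbij : Function.Bijective f := by
    haveI := Fintype.ofFinite N
    haveI := Fintype.ofFinite (G ⧸ D)
    rw [Fintype.bijective_iff_injective_and_card]
    exact ⟨hinj, by rw [← Nat.card_eq_fintype_card, ← Nat.card_eq_fintype_card, h3]⟩
  obtain ⟨n, hn⟩ := hbij.2 (QuotientGroup.mk g)
  exact ⟨n, n.2, hn.symm⟩

theorem derived_two (hxG : x ∈ commutator G)
    (hne : ⁅commutator G, commutator G⁆ ≠ commutator G) :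
    ¬ p ∣ Nat.card (⁅commutator G, commutator G⁆ : Subgroup G) ∧
    Nat.card (⁅commutator G, commutator G⁆ : Subgroup G) *
      Nat.card (Subgroup.normalizer (Subgroup.zpowers x : Set G)) = Nat.card G ∧
    Nat.card (commutator G) = p * Nat.card (⁅commutator G, commutator G⁆ : Subgroup G) := by
  set D := ⁅commutator G, commutator G⁆ with hDdef
  have hDn : D.Normal := inferInstance
  have hDle : D ≤ commutator G := Subgroup.commutator_le_left _ _
  have hdvd : ¬ p ∣ Nat.card D := fun h =>
    hne (le_antisymm hDle (commutator_le_of_dvd hp hx hC h))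
  have hcen := centralizer_mk hp hx hC hdvd
  -- every element of G' is in D ⟨x⟩
  have h1 : ∀ g ∈ commutator G, ∃ y ∈ Subgroup.zpowers x,
      (QuotientGroup.mk g : G ⧸ D) = QuotientGroup.mk y := by
    intro g hg
    have h2 : (QuotientGroup.mk g : G ⧸ D) ∈
        Subgroup.centralizer ({(QuotientGroup.mk x : G ⧸ D)} : Set (G ⧸ D)) := by
      rw [Subgroup.mem_centralizer_singleton_iff]
      have h3 : ⁅g, x⁆ ∈ D := Subgroup.commutator_mem_commutator hg hxG
      have h4 : QuotientGroup.mk' D ⁅g, x⁆ = 1 := (QuotientGroup.eq_one_iff _).mpr h3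
      rw [map_commutatorElement, commutatorElement_eq_one_iff_mul_comm] at h4
      exact h4
    rw [hcen] at h2
    obtain ⟨k, hk⟩ := Subgroup.mem_zpowers_iff.mp h2
    exact ⟨x ^ k, Subgroup.zpow_mem_zpowers x k, by rw [← hk, QuotientGroup.mk_zpow]⟩
  have h2 := card_mul_card_of_surj hp hx hC hdvd (fun g => by
    have hg : g ∈ commutator G ⊔ Subgroup.normalizer (Subgroup.zpowers x : Set G) := by
      rw [sup_normalizer_eq_top hp hx hC hxG]; trivial
    obtain ⟨s, hs, n, hn, rfl⟩ := Subgroup.mem_sup_of_normal_left.mp hg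
    obtain ⟨y, hy, hys⟩ := h1 s hs
    refine ⟨y * n, mul_mem (Subgroup.le_normalizer hy) hn, ?_⟩
    rw [QuotientGroup.mk_mul, QuotientGroup.mk_mul, hys])
  refine ⟨hdvd, h2, ?_⟩
  -- |G'| = p |D|
  have h3 : Nat.card (commutator G) = Nat.card (commutator G ⧸ D.subgroupOf (commutator G)) *
      Nat.card (D.subgroupOf (commutator G)) := Subgroup.card_eq_card_quotient_mul_card_subgroup _
  have h4 : Nat.card (D.subgroupOf (commutator G)) = Nat.card D := by
    rw [← Subgroup.card_map_of_injective (commutator G).subtype_injective,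
      Subgroup.subgroupOf_map_subtype, inf_eq_left.mpr hDle]
  rw [h3, h4]
  congr 1
  have h5 : Nat.card (Subgroup.zpowers x) = p := by rw [Nat.card_zpowers, hx]
  rw [← h5]
  symm
  let f : Subgroup.zpowers x → commutator G ⧸ D.subgroupOf (commutator G) := fun y =>
    QuotientGroup.mk ⟨(y : G), (Subgroup.zpowers_le.mpr hxG) y.2⟩
  apply Nat.card_congr
  apply Equiv.ofBijective f
  constructor
  · intro a b hab
    have h6 : ((a : G)⁻¹ * b) ∈ D :=
      (QuotientGroup.eq (s := D.subgroupOf (commutator G))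
        (a := ⟨(a : G), (Subgroup.zpowers_le.mpr hxG) a.2⟩)
        (b := ⟨(b : G), (Subgroup.zpowers_le.mpr hxG) b.2⟩)).mp hab
    have h7 := not_mem_of_not_dvd hp hx hC hdvd (mul_mem (inv_mem a.2) b.2) h6
    exact Subtype.ext (inv_mul_eq_one.mp h7)
  · intro q
    induction q using QuotientGroup.induction_on with
    | H g =>
      obtain ⟨y, hy, hys⟩ := h1 g g.2
      refine ⟨⟨y, hy⟩, ?_⟩
      change (QuotientGroup.mk _ : commutator G ⧸ D.subgroupOf (commutator G)) = QuotientGroup.mk g
      rw [QuotientGroup.eq]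
      exact (QuotientGroup.eq (s := D) (a := y) (b := (g : G))).mp hys.symm

theorem derived_ne (hxG : x ∈ commutator G) {S : Subgroup G} [hS : S.Normal]
    (hdvd : ¬ p ∣ Nat.card S)
    (h : Nat.card S * Nat.card (Subgroup.normalizer (Subgroup.zpowers x : Set G)) = Nat.card G) :
    ⁅commutator G, commutator G⁆ ≠ commutator G := by
  have h0 := surj_of_card_mul_card hp hx hC hdvd h
  have h1 : ∀ g ∈ commutator G,
      (QuotientGroup.mk g : G ⧸ S) ∈ Subgroup.zpowers (QuotientGroup.mk x : G ⧸ S) := by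
    have h2 : commutator G ≤ (Subgroup.zpowers (QuotientGroup.mk x : G ⧸ S)).comap
        (QuotientGroup.mk' S) := by
      rw [commutator_def, Subgroup.commutator_le]
      intro a _ b _
      rw [Subgroup.mem_comap, map_commutatorElement]
      obtain ⟨m, hm, ham⟩ := h0 a
      obtain ⟨n, hn, hbn⟩ := h0 b
      change ⁅(QuotientGroup.mk a : G ⧸ S), (QuotientGroup.mk b : G ⧸ S)⁆ ∈ _
      rw [ham, hbn]
      change ⁅QuotientGroup.mk' S m, QuotientGroup.mk' S n⁆ ∈ _
      rw [← map_commutatorElement]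
      obtain ⟨k, hk⟩ := Subgroup.mem_zpowers_iff.mp (commutator_mem hp hx hC hm hn)
      rw [← hk, Subgroup.mem_zpowers_iff]
      exact ⟨k, (QuotientGroup.mk_zpow S x k).symm⟩
    intro g hg
    exact h2 hg
  have h2 : ⁅commutator G, commutator G⁆ ≤ S := by
    rw [Subgroup.commutator_le]
    intro a ha b hb
    rw [← QuotientGroup.eq_one_iff]
    change QuotientGroup.mk' S ⁅a, b⁆ = 1
    rw [map_commutatorElement, commutatorElement_eq_one_iff_mul_comm]
    obtain ⟨i, hi⟩ := Subgroup.mem_zpowers_iff.mp (h1 a ha)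
    obtain ⟨j, hj⟩ := Subgroup.mem_zpowers_iff.mp (h1 b hb)
    change (QuotientGroup.mk a : G ⧸ S) * QuotientGroup.mk b = QuotientGroup.mk b *
      QuotientGroup.mk a
    rw [← hi, ← hj, ← zpow_add, ← zpow_add, add_comm]
  intro h3
  rw [h3] at h2
  have h4 := not_mem_of_not_dvd hp hx hC hdvd (Subgroup.mem_zpowers x) (h2 hxG)
  rw [h4, orderOf_one] at hx
  exact hp.one_lt.ne hx

end SC

end Cfsg.Agent.H75
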