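import Cfsg.Agent.H75.SelfCent4
import Cfsg.Agent.H75.Cyc3
import Cfsg.Agent.H75.DetChar
import Cfsg.Agent.Char.AvgN

/-!
# Groups with a self-centralizing element of prime order, V: characters (owner: helper75)
-/

set_option autoImplicit false
set_option linter.style.haveILetI false
set_option linter.unusedSectionVars false

namespace Cfsg.Agent.H75

open Cfsg Cfsg.Agent.CharBase
open scoped commutatorElement BigOperators

universe u

namespace SC

variable {G : Type u} [Group G] [Finite G] {p : ℕ} (hp : p.Prime) {x : G} (hx : orderOf x = p)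
  (hC : Subgroup.centralizer ({x} : Set G) = Subgroup.zpowers x)

include hp hx hC

/-- elements of `N_G(⟨x⟩)` outside `⟨x⟩` act fixed point freely -/
theorem eq_one_of_commute {n y : G} (hn : n ∉ Subgroup.zpowers x) (hy : y ∈ Subgroup.zpowers x)
    (h : n * y = y * n) : y = 1 := by
  by_contra h1
  exact hn (mem_zpowers_of_commute hC (commute_of_mem_zpowers hp hx hy h1 h))

theorem exists_normalizer_generator {e : ℕ}
    (he : Nat.card (Subgroup.normalizer (Subgroup.zpowers x : Set G)) = e * p) (he1 : e ≠ 1) :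
    ∃ g ∈ Subgroup.normalizer (Subgroup.zpowers x : Set G), g ^ e = 1 ∧
      ∀ k : ℕ, g ^ k ∈ Subgroup.zpowers x → e ∣ k := by
  have hcP : Nat.card (Subgroup.zpowers x) = p := by rw [Nat.card_zpowers, hx]
  haveI : Fact (Nat.card (Subgroup.zpowers x)).Prime := ⟨by rw [hcP]; exact hp⟩
  set φ := (Subgroup.zpowers x).normalizerMonoidHom with hφ
  have hker : φ.ker = (Subgroup.zpowers x).subgroupOf
      (Subgroup.normalizer (Subgroup.zpowers x : Set G)) := by
    rw [hφ, Subgroup.normalizerMonoidHom_ker]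
    congr 1
    ext a
    rw [Subgroup.mem_centralizer_iff]
    constructor
    · intro h
      exact mem_zpowers_of_commute hC (h x (Subgroup.mem_zpowers x)).symm
    · intro h b hb
      obtain ⟨i, hi⟩ := Subgroup.mem_zpowers_iff.mp h
      obtain ⟨j, hj⟩ := Subgroup.mem_zpowers_iff.mp hb
      rw [← hi, ← hj, ← zpow_add, ← zpow_add, add_comm]
  have hcyc : IsCyclic φ.range := by
    apply isCyclic_of_injective (((IsCyclic.mulAutMulEquiv (Subgroup.zpowers x)).toMonoidHom).comp
      φ.range.subtype)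
    rw [MonoidHom.coe_comp]
    exact (IsCyclic.mulAutMulEquiv (Subgroup.zpowers x)).injective.comp Subtype.val_injective
  obtain ⟨⟨_, g, rfl⟩, hg⟩ := hcyc.exists_generator
  have hmem : ∀ n : Subgroup.normalizer (Subgroup.zpowers x : Set G),
      φ n = 1 ↔ (n : G) ∈ Subgroup.zpowers x := by
    intro n
    rw [← MonoidHom.mem_ker, hker]; rfl
  have hcardker : Nat.card φ.ker = p := by
    rw [hker, ← hcP]
    exact Nat.card_congr (Subgroup.subgroupOfEquivOfLe Subgroup.le_normalizer).toEquiv
  have hcardrange : Nat.card φ.range = e := by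
    have h1 := Subgroup.index_mul_card φ.ker
    rw [Subgroup.index_ker, hcardker, he] at h1
    exact Nat.eq_of_mul_eq_mul_right hp.pos h1
  have hord : orderOf (φ g) = e := by
    have h1 := orderOf_eq_card_of_forall_mem_zpowers hg
    rw [hcardrange] at h1
    rw [← h1]
    exact (Subgroup.orderOf_mk _ _).symm
  have hdvd : ∀ k : ℕ, (g : G) ^ k ∈ Subgroup.zpowers x ↔ e ∣ k := by
    intro k
    rw [← hord, orderOf_dvd_iff_pow_eq_one, ← map_pow, hmem]
    rfl
  refine ⟨g, g.2, ?_, fun k hk => (hdvd k).mp hk⟩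
  apply eq_one_of_commute hp hx hC (n := (g : G)) _ ((hdvd e).mpr dvd_rfl)
  · exact ((Commute.refl (g : G)).pow_right e).eq
  · intro hgx
    have := (hdvd 1).mp (by rw [pow_one]; exact hgx)
    exact he1 (Nat.dvd_one.mp this)

/-- a character of `G` whose restriction to `⟨x⟩` does not contain the trivial character vanishes on
`N_G(⟨x⟩) \ ⟨x⟩`. -/
theorem char_vanish {χ : G → ℂ} (hχ : IsCharacter G χ) [Fintype (Subgroup.zpowers x)]
    (h0 : ∑ y : Subgroup.zpowers x, χ y = 0) {n : G}
    (hn : n ∈ Subgroup.normalizer (Subgroup.zpowers x : Set G)) (hnx : n ∉ Subgroup.zpowers x) :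
    χ n = 0 := by
  classical
  set N := Subgroup.normalizer (Subgroup.zpowers x : Set G) with hN
  haveI : Fintype N := Fintype.ofFinite N
  set P' := (Subgroup.zpowers x).subgroupOf N with hP'
  haveI : P'.Normal := Subgroup.normal_in_normalizer
  haveI : Fintype P' := Fintype.ofFinite P'
  have hle : Subgroup.zpowers x ≤ N := Subgroup.le_normalizer
  let eP : P' ≃ Subgroup.zpowers x := (Subgroup.subgroupOfEquivOfLe hle).toEquiv
  have h1 := Char.avgN_isCharacter P' (isCharacter_restrict hχ N)
  have h2 : Char.avgN P' (fun n : N => χ n) 1 = 0 := by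
    rw [Char.avgN_apply]
    have : ∑ m : P', χ (((m : N) * 1 : N) : G) = ∑ y : Subgroup.zpowers x, χ y := by
      apply Fintype.sum_equiv eP
      intro m
      rw [mul_one]
      rfl
    rw [this, h0, mul_zero]
  have h3 := Char.eq_zero_of_degree_zero h1 h2
  have h4 := congrFun h3 ⟨n, hn⟩
  rw [Char.avgN_apply] at h4
  have h5 : ∀ m : P', χ (((m : N) * ⟨n, hn⟩ : N) : G) = χ n := by
    intro m
    have hmx : ((m : N) : G) ∈ Subgroup.zpowers x := m.2
    -- `m n` is conjugate to `n` under `⟨x⟩`
    have hmem : ∀ y : Subgroup.zpowers x, (y : G) * n * (y : G)⁻¹ * n⁻¹ ∈ Subgroup.zpowers x := by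
      intro y
      have h6 : (y : G) * n * (y : G)⁻¹ * n⁻¹ = (y : G) * (n * (y : G)⁻¹ * n⁻¹) := by group
      rw [h6]
      exact mul_mem y.2 ((Subgroup.mem_normalizer_iff.mp hn _).mp (inv_mem y.2))
    let f : Subgroup.zpowers x → Subgroup.zpowers x := fun y =>
      ⟨(y : G) * n * (y : G)⁻¹ * n⁻¹, hmem y⟩
    have hinj : Function.Injective f := by
      intro y z hyz
      have h7 : (y : G) * n * (y : G)⁻¹ * n⁻¹ = (z : G) * n * (z : G)⁻¹ * n⁻¹ :=
        congrArg Subtype.val hyz
      have h8 : (y : G) * n * (y : G)⁻¹ = (z : G) * n * (z : G)⁻¹ := mul_right_cancel h7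
      have h9 : n * ((z : G)⁻¹ * y) = ((z : G)⁻¹ * y) * n := by
        have := congrArg (fun t => (z : G)⁻¹ * t * (y : G)) h8
        simp only [mul_assoc, inv_mul_cancel, mul_one, inv_mul_cancel_left] at this
        rw [mul_assoc]
        exact this.symm
      have h10 := eq_one_of_commute hp hx hC hnx (mul_mem (inv_mem z.2) y.2) h9
      exact Subtype.ext (inv_mul_eq_one.mp h10).symm
    obtain ⟨y, hy⟩ := (Finite.injective_iff_surjective.mp hinj) ⟨(m : N), hmx⟩
    have h11 : (y : G) * n * (y : G)⁻¹ * n⁻¹ = ((m : N) : G) := congrArg Subtype.val hy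
    change χ (((m : N) : G) * n) = χ n
    rw [← h11]
    have h12 : (y : G) * n * (y : G)⁻¹ * n⁻¹ * n = (y : G) * n * (y : G)⁻¹ := by group
    rw [h12]
    exact (classFun_eq_of_isConj (isClassFunction_of_isCharacter hχ)
      (isConj_iff.mpr ⟨y, rfl⟩)).symm
  simp only [h5, Finset.sum_const, Finset.card_univ, nsmul_eq_mul, Pi.zero_apply] at h4
  rw [← Nat.card_eq_fintype_card, ← mul_assoc, inv_mul_cancel₀, one_mul] at h4
  · exact h4
  · exact_mod_cast Nat.card_pos.ne'

end SC

end Cfsg.Agent.H75
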