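import Mathlib

/-!
# Self-dual irreducible modules of abelian groups over finite fields (owner: helper75)
-/

set_option autoImplicit false
set_option linter.style.haveILetI false
set_option linter.unusedSectionVars false
set_option linter.unusedVariables false

namespace Cfsg.Agent.H75.SD

open Module

section field

variable {F A : Type*} [Field F] [Fintype F] [Field A] [Algebra F A] [FiniteDimensional F A]
  {H : Type*} [CommGroup H] [Finite H] (ψ : H →* A)

/-- the form `λ (x * y ^ (r ^ m))` -/
theorem form_of {m : ℕ} (hm : ∀ h, ψ h ^ (Fintype.card F ^ m + 1) = 1) :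
    ∃ B : LinearMap.BilinForm F A, B.Nondegenerate ∧ ∀ (h : H) (x y : A),
      B (ψ h * x) (ψ h * y) = B x y := by
  classical
  haveI : Finite A := Module.finite_of_finite F
  set φ : A →ₐ[F] A := (FiniteField.frobeniusAlgHom F A) ^ m with hφ
  have hφv : ∀ x, φ x = x ^ (Fintype.card F ^ m) := by
    intro x
    rw [hφ, AlgHom.coe_pow, FiniteField.coe_frobeniusAlgHom, pow_iterate]
  have hφi : Function.Injective φ := φ.toRingHom.injective
  have hφs : Function.Surjective φ := Finite.surjective_of_injective hφi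
  obtain ⟨l, hl⟩ : ∃ l : Dual F A, l 1 ≠ 0 := by
    by_contra hcon
    push Not at hcon
    exact one_ne_zero ((forall_dual_apply_eq_zero_iff F (1 : A)).mp hcon)
  have hl' : ∀ x : A, x ≠ 0 → ∃ y, l (x * y) ≠ 0 := fun x hx =>
    ⟨x⁻¹, by rwa [mul_inv_cancel₀ hx]⟩
  set B : LinearMap.BilinForm F A := ((LinearMap.mul F A).compl₂ φ.toLinearMap).compr₂ l with hB
  have hBv : ∀ x y, B x y = l (x * φ y) := fun x y => rfl
  refine ⟨B, ⟨?_, ?_⟩, ?_⟩
  · intro x hx
    by_contra hx0
    obtain ⟨y, hy⟩ := hl' x hx0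
    obtain ⟨z, rfl⟩ := hφs y
    exact hy (by rw [← hBv]; exact hx z)
  · intro y hy
    by_contra hy0
    have h1 : φ y ≠ 0 := fun h => hy0 (hφi (by rw [h, map_zero]))
    obtain ⟨x, hx⟩ := hl' _ h1
    apply hx
    rw [mul_comm, ← hBv]
    exact hy x
  · intro h x y
    rw [hBv, hBv, map_mul φ, hφv (ψ h)]
    congr 1
    have h1 := hm h
    rw [pow_succ'] at h1
    calc ψ h * x * (ψ h ^ Fintype.card F ^ m * φ y) =
        (ψ h * ψ h ^ Fintype.card F ^ m) * (x * φ y) := by ring
      _ = x * φ y := by rw [h1, one_mul]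

variable {ψ}

theorem of_form (hgen : Algebra.adjoin F (Set.range ψ) = ⊤) {B : LinearMap.BilinForm F A}
    (hB : B.Nondegenerate)
    (hinv : ∀ (h : H) (x y : A), B (ψ h * x) (ψ h * y) = B x y) :
    ∃ j < finrank F A, (∀ h, ψ h ^ (Fintype.card F ^ j + 1) = 1) ∧ (2 * j = 0 ∨ 2 * j = finrank F A) := by
  classical
  haveI : Finite A := Module.finite_of_finite F
  have hinv' : ∀ h, ψ h * ψ h⁻¹ = 1 := fun h => by rw [← map_mul, mul_inv_cancel, map_one]
  obtain ⟨l, hl⟩ : ∃ l : Dual F A, l 1 ≠ 0 := by
    by_contra hcon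
    push Not at hcon
    exact one_ne_zero ((forall_dual_apply_eq_zero_iff F (1 : A)).mp hcon)
  have hl' : ∀ x : A, (∀ y, l (y * x) = 0) → x = 0 := by
    intro x hx
    by_contra hx0
    exact hl (by rw [← inv_mul_cancel₀ hx0]; exact hx _)
  -- every functional is `l (· * a)`
  let T : A →ₗ[F] Dual F A := (LinearMap.mul F A).flip.compr₂ l
  have hTv : ∀ a y, T a y = l (y * a) := fun a y => rfl
  have hTi : Function.Injective T := by
    rw [injective_iff_map_eq_zero]
    intro a ha
    refine hl' a fun y => ?_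
    rw [← hTv, ha]; rfl
  have hTs : Function.Surjective T :=
    (LinearMap.injective_iff_surjective_of_finrank_eq_finrank
      (Subspace.dual_finrank_eq (K := F) (V := A)).symm).mp hTi
  -- the adjoint
  let e : A ≃ₗ[F] Dual F A := LinearEquiv.ofBijective T ⟨hTi, hTs⟩
  let L : A →ₗ[F] A := e.symm.toLinearMap ∘ₗ B.flip
  have hL : ∀ x y, B x y = l (x * L y) := by
    intro x y
    have h1 : T (L y) = B.flip y := e.apply_symm_apply (B.flip y)
    rw [← hTv, h1]; rfl
  have hLinj : Function.Injective L := by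
    rw [injective_iff_map_eq_zero]
    intro y hy
    refine hB.2 y fun x => ?_
    rw [hL, hy, mul_zero, map_zero]
  have hL1 : L 1 ≠ 0 := fun h => one_ne_zero (hLinj (h.trans (map_zero L).symm))
  have hLh : ∀ h y, L (ψ h * y) = ψ h⁻¹ * L y := by
    intro h y
    have h1 : ψ h * L (ψ h * y) - L y = 0 := by
      refine hl' _ fun x => ?_
      rw [mul_sub, map_sub, ← hL x y, ← hinv h x y, hL, sub_eq_zero]
      congr 1
      ring
    rw [sub_eq_zero] at h1
    rw [← h1, ← mul_assoc, mul_comm (ψ h⁻¹), hinv', one_mul]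
  -- multiplicativity
  have hmul : ∀ a y : A, L 1 * L (a * y) = L a * L y := by
    intro a
    have ha : a ∈ Algebra.adjoin F (Set.range ψ) := by rw [hgen]; exact Algebra.mem_top
    induction ha using Algebra.adjoin_induction with
    | mem x hx =>
      obtain ⟨h, rfl⟩ := hx
      intro y
      rw [hLh, show L (ψ h) = L (ψ h * 1) by rw [mul_one], hLh]
      ring
    | algebraMap r =>
      intro y
      rw [show algebraMap F A r = r • (1 : A) by rw [Algebra.smul_def, mul_one], smul_mul_assoc, one_mul,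
        map_smul, map_smul]
      rw [smul_mul_assoc, mul_smul_comm]
    | add a b _ _ iha ihb =>
      intro y
      rw [add_mul, map_add, map_add, mul_add, iha, ihb, add_mul]
    | mul a b _ _ iha ihb =>
      intro y
      have h1 := iha (b * y)
      have h2 := ihb y
      have h3 := iha b
      have h4 : L 1 * (L 1 * L (a * b * y)) = L 1 * (L (a * b) * L y) := by
        rw [mul_assoc, h1]
        calc L 1 * (L a * L (b * y)) = L a * (L 1 * L (b * y)) := by ring
          _ = L a * (L b * L y) := by rw [h2]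
          _ = (L a * L b) * L y := by ring
          _ = (L 1 * L (a * b)) * L y := by rw [h3]
          _ = _ := by ring
      exact mul_left_cancel₀ hL1 h4
  -- the algebra endomorphism
  let σ : A →ₐ[F] A := AlgHom.ofLinearMap (LinearMap.mulLeft F (L 1)⁻¹ ∘ₗ L)
    (by show (L 1)⁻¹ * L 1 = 1; exact inv_mul_cancel₀ hL1)
    (by
      intro x y
      show (L 1)⁻¹ * L (x * y) = (L 1)⁻¹ * L x * ((L 1)⁻¹ * L y)
      have h1 := hmul x y
      have h2 : L (x * y) = (L 1)⁻¹ * (L x * L y) := by
        rw [← h1, inv_mul_cancel_left₀ hL1]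
      rw [h2]; ring)
  have hσ : ∀ h, σ (ψ h) = ψ h⁻¹ := by
    intro h
    show (L 1)⁻¹ * L (ψ h) = ψ h⁻¹
    rw [show L (ψ h) = L (ψ h * 1) by rw [mul_one], hLh]
    rw [mul_comm (ψ h⁻¹), inv_mul_cancel_left₀ hL1]
  obtain ⟨⟨j, hj⟩, hjσ⟩ := (FiniteField.bijective_frobeniusAlgHom_pow F A).2 σ
  have hjσ' : (FiniteField.frobeniusAlgHom F A) ^ j = σ := hjσ
  have hval : ∀ h, ψ h ^ (Fintype.card F ^ j) = ψ h⁻¹ := by
    intro h
    rw [← hσ, ← hjσ', AlgHom.coe_pow, FiniteField.coe_frobeniusAlgHom, pow_iterate]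
  refine ⟨j, hj, fun h => ?_, ?_⟩
  · rw [pow_succ', hval, hinv']
  · have h1 : (FiniteField.frobeniusAlgHom F A) ^ (2 * j) = 1 := by
      have h2 : Set.EqOn ((FiniteField.frobeniusAlgHom F A) ^ (2 * j) : A →ₐ[F] A)
          ((1 : A →ₐ[F] A)) (Set.range ψ) := by
        rintro _ ⟨h, rfl⟩
        show ((FiniteField.frobeniusAlgHom F A) ^ (2 * j)) (ψ h) = ψ h
        rw [two_mul, pow_add, hjσ', AlgHom.mul_apply, hσ, hσ, inv_inv]
      exact AlgHom.ext_of_adjoin_eq_top hgen h2
    have h3 := orderOf_dvd_of_pow_eq_one h1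
    rw [FiniteField.orderOf_frobeniusAlgHom] at h3
    obtain ⟨c, hc⟩ := h3
    have h4 : c < 2 := by
      by_contra h5
      have : 2 * finrank F A ≤ finrank F A * c := by nlinarith
      omega
    interval_cases c
    · left; omega
    · right; omega

end field


section rep

universe u

variable {F : Type*} [Field F] [Fintype F] {H : Type*} [CommGroup H] [Finite H] {V : Type u}
  [AddCommGroup V] [Module F V] [FiniteDimensional F V] (ρ : Representation F H V)

theorem exists_field
    (hirr : ∀ U : Submodule F V, (∀ h : H, ∀ u ∈ U, ρ h u ∈ U) → U = ⊥ ∨ U = ⊤)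
    (hn : finrank F V ≠ 0) :
    ∃ (A : Type u) (_ : Field A) (_ : Algebra F A) (_ : FiniteDimensional F A) (ψ : H →* A)
      (e : A ≃ₗ[F] V), Algebra.adjoin F (Set.range ψ) = ⊤ ∧ (∀ h x, e (ψ h * x) = ρ h (e x)) := by
  classical
  haveI : Finite V := Module.finite_of_finite F
  have hcomm : ∀ a ∈ Set.range ρ, ∀ b ∈ Set.range ρ, a * b = b * a := by
    rintro _ ⟨a, rfl⟩ _ ⟨b, rfl⟩
    rw [← map_mul, ← map_mul, mul_comm]
  have hmc := Algebra.isMulCommutative_adjoin F hcomm
  set S := Algebra.adjoin F (Set.range ρ) with hS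
  have hρS : ∀ h, ρ h ∈ S := fun h => Algebra.subset_adjoin ⟨h, rfl⟩
  have hcS' : ∀ s t : S, s * t = t * s := fun s t => hmc.is_comm.comm s t
  have hcS : ∀ s : S, ∀ h, (s : Module.End F V) * ρ h = ρ h * s := by
    intro s h
    exact congrArg Subtype.val (hcS' s ⟨ρ h, hρS h⟩)
  letI : CommRing S := { (inferInstance : Ring S) with mul_comm := hcS' }
  haveI : Nontrivial V := (Module.finrank_pos_iff (R := F)).mp (Nat.pos_of_ne_zero hn)
  haveI : Nontrivial S := ⟨⟨0, 1, fun h => by
    have h1 : (0 : Module.End F V) = 1 := congrArg Subtype.val h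
    obtain ⟨v, hv⟩ := exists_ne (0 : V)
    exact hv (by rw [← Module.End.one_apply (R := F) v, ← h1]; rfl)⟩⟩
  -- nonzero elements are injective
  have hker : ∀ s : S, s ≠ 0 → ∀ v, (s : Module.End F V) v = 0 → v = 0 := by
    intro s hs v hv
    rcases hirr (LinearMap.ker (s : Module.End F V)) (by
      intro h u hu
      rw [LinearMap.mem_ker] at hu ⊢
      have h1 := LinearMap.congr_fun (hcS s h) u
      rw [Module.End.mul_apply, Module.End.mul_apply, hu, map_zero] at h1
      exact h1) with h1 | h1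
    · have h2 : v ∈ LinearMap.ker (s : Module.End F V) := hv
      rw [h1] at h2
      exact (Submodule.mem_bot F).mp h2
    · exfalso
      apply hs
      apply Subtype.ext
      exact LinearMap.ker_eq_top.mp h1
  haveI : NoZeroDivisors S := ⟨fun {a b} hab => by
    by_contra hcon
    push Not at hcon
    apply hcon.2
    apply Subtype.ext
    apply LinearMap.ext
    intro v
    apply hker a hcon.1
    have h1 : (a : Module.End F V) * (b : Module.End F V) = 0 := congrArg Subtype.val hab
    exact LinearMap.congr_fun h1 v⟩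
  haveI : IsDomain S := NoZeroDivisors.to_isDomain S
  haveI : FiniteDimensional F S := inferInstance
  haveI : Finite S := Module.finite_of_finite F
  letI : Field S := (Finite.isField_of_domain S).toField
  obtain ⟨v₀, hv₀⟩ := exists_ne (0 : V)
  let ev : S →ₗ[F] V :=
    { toFun := fun s => (s : Module.End F V) v₀
      map_add' := fun s t => rfl
      map_smul' := fun r s => rfl }
  have hevi : Function.Injective ev := by
    rw [injective_iff_map_eq_zero]
    intro s hs
    by_contra hs0
    exact hv₀ (hker s hs0 v₀ hs)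
  have hevs : Function.Surjective ev := by
    rw [← LinearMap.range_eq_top]
    rcases hirr (LinearMap.range ev) (by
      rintro h _ ⟨s, rfl⟩
      exact ⟨⟨ρ h, hρS h⟩ * s, rfl⟩) with h1 | h1
    · exfalso
      apply hv₀
      have h2 : v₀ ∈ LinearMap.range ev := ⟨1, rfl⟩
      rw [h1] at h2
      exact (Submodule.mem_bot F).mp h2
    · exact h1
  let ψ : H →* S :=
    { toFun := fun h => ⟨ρ h, hρS h⟩
      map_one' := Subtype.ext (map_one ρ)
      map_mul' := fun a b => Subtype.ext (map_mul ρ a b) }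
  refine ⟨S, inferInstance, inferInstance, inferInstance, ψ, LinearEquiv.ofBijective ev ⟨hevi, hevs⟩,
    ?_, ?_⟩
  · have h1 : Set.range ψ = ((↑) : S → Module.End F V) ⁻¹' (Set.range ρ) := by
      ext s
      constructor
      · rintro ⟨h, rfl⟩
        exact ⟨h, rfl⟩
      · rintro ⟨h, hh⟩
        exact ⟨h, Subtype.ext hh⟩
    rw [h1]
    exact Algebra.adjoin_adjoin_coe_preimage
  · intro h x
    rfl

end rep

end Cfsg.Agent.H75.SD
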