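import Cfsg.Agent.H75.Cyc
import Cfsg.Agent.Char.ClassSum

/-!
# Blichfeldt's sixty degree lemma for groups generated by the conjugates of one element
(owner: helper75)

`sixty`: if all eigenvalues of `ρ y` have distance `< 1` from one of them, `ρ` is irreducible and the
conjugates of `y` generate the group, then `ρ y` is scalar.
-/

set_option autoImplicit false
set_option linter.style.haveILetI false
set_option linter.unusedSectionVars false

namespace Cfsg.Agent.H75.Sixty

open scoped BigOperators ComplexConjugate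
open ZMod (stdAddChar)

universe u

section Form

variable {G : Type u} [Group G] [Fintype G] {n : ℕ} (ρ : Representation ℂ G (Fin n → ℂ))

/-- invariant hermitian form -/
noncomputable def hf (v w : Fin n → ℂ) : ℂ := ∑ g : G, ∑ i, conj (ρ g v i) * ρ g w i

/-- its diagonal -/
noncomputable def nn (v : Fin n → ℂ) : ℝ := ∑ g : G, ∑ i, Complex.normSq (ρ g v i)

theorem hf_self (v : Fin n → ℂ) : hf ρ v v = (nn ρ v : ℂ) := by
  unfold hf nn
  push_cast
  refine Finset.sum_congr rfl fun g _ => Finset.sum_congr rfl fun i _ => ?_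
  rw [Complex.normSq_eq_conj_mul_self]

theorem nn_nonneg (v : Fin n → ℂ) : 0 ≤ nn ρ v :=
  Finset.sum_nonneg fun _ _ => Finset.sum_nonneg fun _ _ => Complex.normSq_nonneg _

theorem nn_eq_zero {v : Fin n → ℂ} (h : nn ρ v = 0) : v = 0 := by
  unfold nn at h
  have h1 := (Finset.sum_eq_zero_iff_of_nonneg (fun g _ => Finset.sum_nonneg
    fun i _ => Complex.normSq_nonneg (ρ g v i))).mp h 1 (Finset.mem_univ _)
  have h2 := (Finset.sum_eq_zero_iff_of_nonneg
    (fun i _ => Complex.normSq_nonneg (ρ (1 : G) v i))).mp h1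
  funext i
  have h3 := h2 i (Finset.mem_univ _)
  rw [Complex.normSq_eq_zero, map_one] at h3
  simpa using h3

theorem hf_add_left (u v w : Fin n → ℂ) : hf ρ (u + v) w = hf ρ u w + hf ρ v w := by
  unfold hf
  rw [← Finset.sum_add_distrib]
  refine Finset.sum_congr rfl fun g _ => ?_
  rw [← Finset.sum_add_distrib]
  refine Finset.sum_congr rfl fun i _ => ?_
  rw [map_add, Pi.add_apply, map_add, add_mul]

theorem hf_add_right (u v w : Fin n → ℂ) : hf ρ u (v + w) = hf ρ u v + hf ρ u w := by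
  unfold hf
  rw [← Finset.sum_add_distrib]
  refine Finset.sum_congr rfl fun g _ => ?_
  rw [← Finset.sum_add_distrib]
  refine Finset.sum_congr rfl fun i _ => ?_
  rw [map_add, Pi.add_apply, mul_add]

theorem hf_smul_left (c : ℂ) (v w : Fin n → ℂ) : hf ρ (c • v) w = conj c * hf ρ v w := by
  unfold hf
  rw [Finset.mul_sum]
  refine Finset.sum_congr rfl fun g _ => ?_
  rw [Finset.mul_sum]
  refine Finset.sum_congr rfl fun i _ => ?_
  rw [map_smul, Pi.smul_apply, smul_eq_mul, map_mul, mul_assoc]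

theorem hf_smul_right (c : ℂ) (v w : Fin n → ℂ) : hf ρ v (c • w) = c * hf ρ v w := by
  unfold hf
  rw [Finset.mul_sum]
  refine Finset.sum_congr rfl fun g _ => ?_
  rw [Finset.mul_sum]
  refine Finset.sum_congr rfl fun i _ => ?_
  rw [map_smul, Pi.smul_apply, smul_eq_mul]
  ring

theorem hf_zero_left (w : Fin n → ℂ) : hf ρ 0 w = 0 := by
  have := hf_smul_left ρ 0 0 w
  simpa using this

theorem hf_zero_right (w : Fin n → ℂ) : hf ρ w 0 = 0 := by
  have := hf_smul_right ρ 0 w 0
  simpa using this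

theorem hf_sum_left {ι : Type*} (s : Finset ι) (f : ι → Fin n → ℂ) (w : Fin n → ℂ) :
    hf ρ (∑ i ∈ s, f i) w = ∑ i ∈ s, hf ρ (f i) w := by
  classical
  induction s using Finset.induction_on with
  | empty => simp [hf_zero_left]
  | insert a s ha ih => rw [Finset.sum_insert ha, Finset.sum_insert ha, hf_add_left, ih]

theorem hf_sum_right {ι : Type*} (s : Finset ι) (f : ι → Fin n → ℂ) (w : Fin n → ℂ) :
    hf ρ w (∑ i ∈ s, f i) = ∑ i ∈ s, hf ρ w (f i) := by
  classical
  induction s using Finset.induction_on with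
  | empty => simp [hf_zero_right]
  | insert a s ha ih => rw [Finset.sum_insert ha, Finset.sum_insert ha, hf_add_right, ih]

theorem conj_hf (v w : Fin n → ℂ) : conj (hf ρ v w) = hf ρ w v := by
  unfold hf
  rw [map_sum]
  refine Finset.sum_congr rfl fun g _ => ?_
  rw [map_sum]
  refine Finset.sum_congr rfl fun i _ => ?_
  rw [map_mul, Complex.conj_conj, mul_comm]

theorem hf_inv (g : G) (v w : Fin n → ℂ) : hf ρ (ρ g v) (ρ g w) = hf ρ v w := by
  unfold hf
  rw [← Equiv.sum_comp (Equiv.mulRight g) (fun a => ∑ i, conj (ρ a v i) * ρ a w i)]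
  refine Finset.sum_congr rfl fun a _ => Finset.sum_congr rfl fun i _ => ?_
  simp [map_mul]

theorem nn_inv (g : G) (v : Fin n → ℂ) : nn ρ (ρ g v) = nn ρ v := by
  have := hf_inv ρ g v v
  rw [hf_self, hf_self] at this
  exact_mod_cast this

theorem nn_smul (c : ℂ) (v : Fin n → ℂ) : nn ρ (c • v) = Complex.normSq c * nn ρ v := by
  have h1 := hf_self ρ (c • v)
  rw [hf_smul_left, hf_smul_right, hf_self, ← mul_assoc, ← Complex.normSq_eq_conj_mul_self] at h1
  exact_mod_cast h1.symm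

theorem nn_neg (v : Fin n → ℂ) : nn ρ (-v) = nn ρ v := by
  have := nn_smul ρ (-1) v
  simpa using this

theorem nn_sub_comm (v w : Fin n → ℂ) : nn ρ (v - w) = nn ρ (w - v) := by
  rw [← neg_sub, nn_neg]

/-- Pythagoras -/
theorem nn_sub_of_orth {v w : Fin n → ℂ} (h : hf ρ v w = 0) : nn ρ (v - w) = nn ρ v + nn ρ w := by
  have h' : hf ρ w v = 0 := by rw [← conj_hf, h, map_zero]
  have h1 := hf_self ρ (v - w)
  have h2 : v - w = v + (-1 : ℂ) • w := by
    rw [neg_one_smul, sub_eq_add_neg]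
  rw [h2, hf_add_left, hf_add_right, hf_add_right, hf_smul_right, hf_smul_left, hf_smul_left,
    hf_smul_right, h, h', hf_self, hf_self] at h1
  rw [h2]
  have h3 : (nn ρ v : ℂ) + nn ρ w = (nn ρ (v + (-1 : ℂ) • w) : ℂ) := by
    rw [← h1]; simp
  exact_mod_cast h3.symm

theorem nn_sum {ι : Type*} [Fintype ι] [DecidableEq ι] (f : ι → Fin n → ℂ)
    (h : ∀ i j, i ≠ j → hf ρ (f i) (f j) = 0) : nn ρ (∑ i, f i) = ∑ i, nn ρ (f i) := by
  have h1 := hf_self ρ (∑ i, f i)
  rw [hf_sum_left] at h1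
  have h2 : ∀ i, hf ρ (f i) (∑ j, f j) = nn ρ (f i) := by
    intro i
    rw [hf_sum_right, Finset.sum_eq_single i, hf_self]
    · intro j _ hj
      exact h i j hj.symm
    · intro h; exact absurd (Finset.mem_univ i) h
  rw [Finset.sum_congr rfl fun i _ => h2 i] at h1
  exact_mod_cast h1.symm

end Form

section Spec

variable {n : ℕ} {p : ℕ} [NeZero p] (A : Module.End ℂ (Fin n → ℂ))

/-- spectral projections of an operator of finite order -/
noncomputable def pr (j : ZMod p) : Module.End ℂ (Fin n → ℂ) :=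
  (p : ℂ)⁻¹ • ∑ k : ZMod p, (stdAddChar (-(j * k)) : ℂ) • A ^ k.val

variable {A}

theorem pow_val_succ (hA : A ^ p = 1) (k : ZMod p) : A ^ (k + 1).val = A * A ^ k.val := by
  have h1 : (k + 1).val = (k.val + 1) % p := by
    rw [← ZMod.val_natCast, Nat.cast_add, ZMod.natCast_zmod_val, Nat.cast_one]
  rw [h1, ← pow_succ']
  exact (pow_eq_pow_mod _ hA).symm

theorem mul_pr (hA : A ^ p = 1) (j : ZMod p) : A * pr A j = (stdAddChar j : ℂ) • pr A j := by
  unfold pr
  rw [mul_smul_comm, smul_comm]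
  congr 1
  rw [Finset.mul_sum, Finset.smul_sum,
    ← Equiv.sum_comp (Equiv.addRight (1 : ZMod p)) (fun k : ZMod p => (stdAddChar j : ℂ) •
      (stdAddChar (-(j * k)) : ℂ) • A ^ k.val)]
  refine Finset.sum_congr rfl fun k _ => ?_
  rw [Equiv.coe_addRight, pow_val_succ hA, mul_smul_comm, smul_smul, ← AddChar.map_add_eq_mul]
  congr 3
  ring

theorem sum_pr : ∑ j : ZMod p, pr A j = 1 := by
  unfold pr
  rw [← Finset.smul_sum, Finset.sum_comm]
  have h1 : ∀ k : ZMod p, ∑ j : ZMod p, (stdAddChar (-(j * k)) : ℂ) • A ^ k.val =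
      if k = 0 then (p : ℂ) • (1 : Module.End ℂ (Fin n → ℂ)) else 0 := by
    intro k
    rw [← Finset.sum_smul]
    have h2 : ∑ j : ZMod p, (stdAddChar (-(j * k)) : ℂ) = if k = 0 then (p : ℂ) else 0 := by
      have h3 := sum_stdAddChar (n := p) (-k)
      simp only [mul_neg, neg_eq_zero] at h3
      exact h3
    rw [h2]
    split_ifs with h
    · subst h; simp
    · rw [zero_smul]
  rw [Finset.sum_congr rfl fun k _ => h1 k, Finset.sum_ite_eq' Finset.univ (0 : ZMod p),
    if_pos (Finset.mem_univ _), smul_smul, inv_mul_cancel₀ (Nat.cast_ne_zero.mpr (NeZero.ne p)), one_smul]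

theorem pr_comm {X : Module.End ℂ (Fin n → ℂ)} (h : X * A = A * X) (j : ZMod p) :
    X * pr A j = pr A j * X := by
  unfold pr
  rw [mul_smul_comm, smul_mul_assoc]
  congr 1
  rw [Finset.mul_sum, Finset.sum_mul]
  refine Finset.sum_congr rfl fun k _ => ?_
  rw [mul_smul_comm, smul_mul_assoc]
  congr 1
  exact ((show Commute X A from h).pow_right _).eq

theorem pr_conj {B B' : Module.End ℂ (Fin n → ℂ)} (hB : B' * B = 1) (hB' : B * B' = 1) (j : ZMod p) :
    pr (B * A * B') j = B * pr A j * B' := by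
  unfold pr
  rw [mul_smul_comm, smul_mul_assoc]
  congr 1
  rw [Finset.mul_sum, Finset.sum_mul]
  refine Finset.sum_congr rfl fun k _ => ?_
  rw [mul_smul_comm, smul_mul_assoc]
  congr 1
  induction k.val with
  | zero => simp [hB']
  | succ m ih =>
    rw [pow_succ, ih, pow_succ]
    calc B * A ^ m * B' * (B * A * B') = B * A ^ m * (B' * B) * A * B' := by noncomm_ring
      _ = B * (A ^ m * A) * B' := by rw [hB]; noncomm_ring

theorem apply_pr (hA : A ^ p = 1) (j : ZMod p) (v : Fin n → ℂ) :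
    A (pr A j v) = (stdAddChar j : ℂ) • pr A j v := by
  have := congrArg (fun f : Module.End ℂ (Fin n → ℂ) => f v) (mul_pr hA j)
  simpa using this

theorem sum_pr_apply (v : Fin n → ℂ) : ∑ j : ZMod p, pr A j v = v := by
  have := congrArg (fun f : Module.End ℂ (Fin n → ℂ) => f v) (sum_pr (p := p) (A := A))
  simpa [LinearMap.sum_apply] using this

theorem pr_zero_of_fix {v : Fin n → ℂ} (hv : A v = v) : pr (p := p) A 0 v = v := by
  have hk : ∀ m : ℕ, (A ^ m) v = v := by
    intro m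
    induction m with
    | zero => simp
    | succ m ih => rw [pow_succ, Module.End.mul_apply, hv, ih]
  unfold pr
  simp only [zero_mul, neg_zero, AddChar.map_zero_eq_one, one_smul, LinearMap.smul_apply,
    LinearMap.sum_apply, hk]
  rw [Finset.sum_const, Finset.card_univ, ZMod.card, ← Nat.cast_smul_eq_nsmul ℂ, smul_smul,
    inv_mul_cancel₀ (Nat.cast_ne_zero.mpr (NeZero.ne p)), one_smul]

theorem fix_pr_zero (hA : A ^ p = 1) (v : Fin n → ℂ) : A (pr (p := p) A 0 v) = pr (p := p) A 0 v := by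
  rw [apply_pr hA, AddChar.map_zero_eq_one, one_smul]

theorem pr_zero_idem (hA : A ^ p = 1) (v : Fin n → ℂ) :
    pr (p := p) A 0 (pr (p := p) A 0 v) = pr (p := p) A 0 v :=
  pr_zero_of_fix (fix_pr_zero hA v)

end Spec

section Main

variable {G : Type u} [Group G] [Fintype G] {n : ℕ} (ρ : Representation ℂ G (Fin n → ℂ))
  {p : ℕ} [NeZero p] {A : Module.End ℂ (Fin n → ℂ)}

theorem orth (hU : ∀ u v, hf ρ (A u) (A v) = hf ρ u v) {i j : ZMod p} (hij : i ≠ j)
    {u v : Fin n → ℂ} (hu : A u = (stdAddChar i : ℂ) • u) (hv : A v = (stdAddChar j : ℂ) • v) :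
    hf ρ u v = 0 := by
  have h1 := hU u v
  rw [hu, hv, hf_smul_left, hf_smul_right, conj_stdAddChar, ← mul_assoc, ← AddChar.map_add_eq_mul] at h1
  by_contra h
  have h2 : (stdAddChar (-i + j) : ℂ) = 1 := by
    have : ((stdAddChar (-i + j) : ℂ) - 1) * hf ρ u v = 0 := by rw [sub_mul, h1]; ring
    rcases mul_eq_zero.mp this with h3 | h3
    · exact sub_eq_zero.mp h3
    · exact absurd h3 h
  have h3 : -i + j = 0 := by
    apply ZMod.injective_stdAddChar
    rw [h2, AddChar.map_zero_eq_one]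
  apply hij
  have : j = i := by
    have h4 := congrArg (fun t => i + t) h3
    simpa using h4
  exact this.symm

theorem contraction (hA : A ^ p = 1) (hU : ∀ u v, hf ρ (A u) (A v) = hf ρ u v) {r : ℝ}
    (hr : ∀ (j : ZMod p) (v : Fin n → ℂ), pr A j v ≠ 0 → Complex.normSq ((stdAddChar j : ℂ) - 1) ≤ r)
    (w : Fin n → ℂ) : nn ρ (A w - w) ≤ r * nn ρ w := by
  classical
  have horth : ∀ i j : ZMod p, i ≠ j → hf ρ (pr A i w) (pr A j w) = 0 :=
    fun i j hij => orth ρ hU hij (apply_pr hA i w) (apply_pr hA j w)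
  have hw : nn ρ w = ∑ j : ZMod p, nn ρ (pr A j w) := by
    conv_lhs => rw [← sum_pr_apply (p := p) (A := A) w]
    exact nn_sum ρ _ horth
  have h1 : A w - w = ∑ j : ZMod p, ((stdAddChar j : ℂ) - 1) • pr A j w := by
    have h2 : A w = ∑ j : ZMod p, (stdAddChar j : ℂ) • pr A j w := by
      conv_lhs => rw [← sum_pr_apply (p := p) (A := A) w]
      rw [map_sum]
      exact Finset.sum_congr rfl fun j _ => apply_pr hA j w
    calc A w - w = ∑ j : ZMod p, (stdAddChar j : ℂ) • pr A j w - ∑ j : ZMod p, pr A j w := by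
          rw [h2, sum_pr_apply]
      _ = _ := by
          rw [← Finset.sum_sub_distrib]
          exact Finset.sum_congr rfl fun j _ => by rw [sub_smul, one_smul]
  rw [h1, nn_sum ρ _ (fun i j hij => by
    rw [hf_smul_left, hf_smul_right, horth i j hij, mul_zero, mul_zero]), hw, Finset.mul_sum]
  apply Finset.sum_le_sum
  intro j _
  rw [nn_smul]
  by_cases h : pr A j w = 0
  · rw [h]
    have : nn ρ (0 : Fin n → ℂ) = 0 := by
      have := nn_smul ρ 0 0
      simpa using this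
    rw [this, mul_zero, mul_zero]
  · exact mul_le_mul_of_nonneg_right (hr j w h) (nn_nonneg ρ _)

theorem pr_zero_adj (hA : A ^ p = 1) (hU : ∀ u v, hf ρ (A u) (A v) = hf ρ u v) (u v : Fin n → ℂ) :
    hf ρ (pr (p := p) A 0 u) v = hf ρ u (pr (p := p) A 0 v) := by
  have h1 : hf ρ (pr (p := p) A 0 u) v = hf ρ (pr (p := p) A 0 u) (pr (p := p) A 0 v) := by
    conv_lhs => rw [← sum_pr_apply (p := p) (A := A) v]
    rw [hf_sum_right, Finset.sum_eq_single 0]
    · intro j _ hj
      exact orth ρ hU hj.symm (apply_pr hA 0 u) (apply_pr hA j v)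
    · intro h; exact absurd (Finset.mem_univ _) h
  have h2 : hf ρ u (pr (p := p) A 0 v) = hf ρ (pr (p := p) A 0 u) (pr (p := p) A 0 v) := by
    conv_lhs => rw [← sum_pr_apply (p := p) (A := A) u]
    rw [hf_sum_left, Finset.sum_eq_single 0]
    · intro j _ hj
      exact orth ρ hU hj (apply_pr hA j u) (apply_pr hA 0 v)
    · intro h; exact absurd (Finset.mem_univ _) h
  rw [h1, h2]

theorem commute_of_conj {P U U' : Module.End ℂ (Fin n → ℂ)} (hUU' : U * U' = 1) (hU'U : U' * U = 1)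
    (hPP : ∀ v, P (P v) = P v) (hadj : ∀ u v, hf ρ (P u) v = hf ρ u (P v))
    (hU : ∀ u v, hf ρ (U u) (U v) = hf ρ u v) {r : ℝ} (hr : r < 1)
    (hc : ∀ w, nn ρ (U w - w) ≤ r * nn ρ w)
    (hcomm : P * (U * P * U') = (U * P * U') * P) : P * U = U * P := by
  have e1 : ∀ v, U (U' v) = v := fun v => by
    have := congrArg (fun f : Module.End ℂ (Fin n → ℂ) => f v) hUU'
    simpa using this
  have e2 : ∀ v, U' (U v) = v := fun v => by
    have := congrArg (fun f : Module.End ℂ (Fin n → ℂ) => f v) hU'U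
    simpa using this
  have e3 : ∀ v, P (U (P (U' v))) = U (P (U' (P v))) := fun v => by
    have := congrArg (fun f : Module.End ℂ (Fin n → ℂ) => f v) hcomm
    simpa using this
  have key : ∀ w, hf ρ (U' w) w = 0 → w = 0 := by
    intro w h
    set z := U' w with hz
    have hw : U z = w := e1 w
    have h1 := hc z
    rw [hw, nn_sub_comm, nn_sub_of_orth ρ h] at h1
    have h2 : nn ρ w = nn ρ z := by
      have := hU z z
      rw [hw, hf_self, hf_self] at this
      exact_mod_cast this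
    rw [h2] at h1
    have h3 := nn_nonneg ρ z
    have h4 : nn ρ z = 0 := by nlinarith
    rw [← hw, nn_eq_zero ρ h4, map_zero]
  have k1 : ∀ v, U (P (U' v)) = P (U (P (U' v))) := by
    intro v
    have h := key (U (P (U' v)) - P (U (P (U' v)))) (by
      have hw : P (U (P (U' v)) - P (U (P (U' v)))) = 0 := by
        rw [map_sub, hPP, sub_self]
      have hz : P (U' (U (P (U' v)) - P (U (P (U' v))))) = U' (U (P (U' v)) - P (U (P (U' v)))) := by
        rw [map_sub, e2, e3 v, e2, map_sub, hPP, hPP]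
      rw [← hz, hadj, hw, hf_zero_right])
    exact sub_eq_zero.mp h
  have k2 : ∀ v, P v = P (U (P (U' v))) := by
    intro v
    have h := key (P v - P (U (P (U' v)))) (by
      have hw : P (P v - P (U (P (U' v)))) = P v - P (U (P (U' v))) := by
        rw [map_sub, hPP, hPP]
      have hz : P (U' (P v - P (U (P (U' v))))) = 0 := by
        rw [map_sub, map_sub, e3 v, e2, hPP, sub_self]
      calc hf ρ (U' (P v - P (U (P (U' v))))) (P v - P (U (P (U' v)))) =
          hf ρ (U' (P v - P (U (P (U' v))))) (P (P v - P (U (P (U' v))))) := by rw [hw]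
        _ = hf ρ (P (U' (P v - P (U (P (U' v)))))) (P v - P (U (P (U' v)))) := (hadj _ _).symm
        _ = 0 := by rw [hz, hf_zero_left])
    exact sub_eq_zero.mp h
  refine LinearMap.ext fun v => ?_
  have h1 := k2 (U v)
  rw [← k1, e2] at h1
  exact h1

/-- iterated commutators -/
def cs (y B : G) : ℕ → G
  | 0 => B
  | (k + 1) => cs y B k * y * (cs y B k)⁻¹ * y⁻¹

theorem rho_inv (b : G) (v : Fin n → ℂ) : ρ b (ρ b⁻¹ v) = v := by
  rw [← Module.End.mul_apply, ← map_mul, mul_inv_cancel, map_one, Module.End.one_apply]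

theorem rho_inv' (b : G) (v : Fin n → ℂ) : ρ b⁻¹ (ρ b v) = v := by
  rw [← Module.End.mul_apply, ← map_mul, inv_mul_cancel, map_one, Module.End.one_apply]

theorem rho_inv_mul (b : G) : ρ b⁻¹ * ρ b = 1 := by rw [← map_mul, inv_mul_cancel, map_one]

theorem rho_mul_inv (b : G) : ρ b * ρ b⁻¹ = 1 := by rw [← map_mul, mul_inv_cancel, map_one]

theorem sixty (hirr : ρ.IsIrreducible) (y : G) (hy : Subgroup.normalClosure {y} = ⊤) (hyp : y ^ p = 1)
    {c : ℂ} (hcp : c ^ p = 1) (hev : ∃ v, v ≠ 0 ∧ ρ y v = c • v)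
    (hall : ∀ (μ : ℂ) (v : Fin n → ℂ), v ≠ 0 → ρ y v = μ • v → Complex.normSq (μ - c) < 1)
    (v : Fin n → ℂ) : ρ y v = c • v := by
  classical
  have hp0 : p ≠ 0 := NeZero.ne p
  have hc0 : c ≠ 0 := by
    rintro rfl
    rw [zero_pow hp0] at hcp
    exact zero_ne_one hcp
  have hcn : Complex.normSq c = 1 := by
    have h := Complex.norm_eq_one_of_pow_eq_one hcp hp0
    rw [Complex.normSq_eq_norm_sq, h]; norm_num
  set A : Module.End ℂ (Fin n → ℂ) := c⁻¹ • ρ y with hAdef
  set A' : Module.End ℂ (Fin n → ℂ) := c • ρ y⁻¹ with hA'def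
  have hAA' : A * A' = 1 := by
    rw [hAdef, hA'def, smul_mul_smul_comm, inv_mul_cancel₀ hc0, rho_mul_inv, one_smul]
  have hA'A : A' * A = 1 := by
    rw [hAdef, hA'def, smul_mul_smul_comm, mul_inv_cancel₀ hc0, rho_inv_mul, one_smul]
  have hA : A ^ p = 1 := by
    rw [hAdef, smul_pow, inv_pow, hcp, inv_one, one_smul, ← map_pow, hyp, map_one]
  have hcn' : Complex.normSq c⁻¹ = 1 := by rw [Complex.normSq_inv, hcn, inv_one]
  have hU : ∀ u v, hf ρ (A u) (A v) = hf ρ u v := by
    intro u v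
    rw [hAdef, LinearMap.smul_apply, LinearMap.smul_apply, hf_smul_left, hf_smul_right, hf_inv, ← mul_assoc,
      ← Complex.normSq_eq_conj_mul_self, hcn', Complex.ofReal_one, one_mul]
  -- the contraction constant
  obtain ⟨r, hr0, hr1, hr⟩ : ∃ r : ℝ, 0 ≤ r ∧ r < 1 ∧ ∀ j : ZMod p,
      Complex.normSq ((stdAddChar j : ℂ) - 1) < 1 → Complex.normSq ((stdAddChar j : ℂ) - 1) ≤ r := by
    set s : Finset (ZMod p) := Finset.univ.filter (fun j => Complex.normSq ((stdAddChar j : ℂ) - 1) < 1) with hs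
    obtain ⟨m, hm, hmax⟩ := s.exists_max_image (fun j => Complex.normSq ((stdAddChar j : ℂ) - 1))
      ⟨0, by simp [hs]⟩
    refine ⟨_, Complex.normSq_nonneg _, (Finset.mem_filter.mp hm).2, fun j hj => hmax j ?_⟩
    exact Finset.mem_filter.mpr ⟨Finset.mem_univ _, hj⟩
  have hr' : ∀ (j : ZMod p) (v : Fin n → ℂ), pr A j v ≠ 0 →
      Complex.normSq ((stdAddChar j : ℂ) - 1) ≤ r := by
    intro j v hv
    apply hr
    have h1 : ρ y (pr A j v) = (c * stdAddChar j) • pr A j v := by
      have h2 := apply_pr hA j v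
      rw [hAdef, LinearMap.smul_apply, ← hAdef] at h2
      rw [mul_smul, ← h2, smul_smul, mul_inv_cancel₀ hc0, one_smul]
    have h2 := hall _ _ hv h1
    have h3 : c * (stdAddChar j : ℂ) - c = c * ((stdAddChar j : ℂ) - 1) := by ring
    rwa [h3, map_mul, hcn, one_mul] at h2
  have hcontr := contraction ρ hA hU hr'
  set P : Module.End ℂ (Fin n → ℂ) := pr (p := p) A 0 with hP
  have hPP : ∀ v, P (P v) = P v := pr_zero_idem hA
  have hadj : ∀ u v, hf ρ (P u) v = hf ρ u (P v) := pr_zero_adj ρ hA hU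
  have hAP : A * P = P := LinearMap.ext fun v => fix_pr_zero hA v
  have hPA : P * A = P := by
    rw [← pr_comm (X := A) rfl 0]
    exact hAP
  have hA'P : A' * P = P := by
    calc A' * P = A' * (A * P) := by rw [hAP]
      _ = P := by rw [← mul_assoc, hA'A, one_mul]
  -- conjugates of `A`
  have hUb : ∀ b : G, ∀ u v, hf ρ ((ρ b * A * ρ b⁻¹) u) ((ρ b * A * ρ b⁻¹) v) = hf ρ u v := by
    intro b u v
    simp only [Module.End.mul_apply]
    rw [hf_inv, hU, hf_inv]
  have hcb : ∀ b : G, ∀ w, nn ρ ((ρ b * A * ρ b⁻¹) w - w) ≤ r * nn ρ w := by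
    intro b w
    have h1 : (ρ b * A * ρ b⁻¹) w - w = ρ b (A (ρ b⁻¹ w) - ρ b⁻¹ w) := by
      rw [map_sub, rho_inv]
      rfl
    rw [h1, nn_inv]
    calc _ ≤ r * nn ρ (ρ b⁻¹ w) := hcontr _
      _ = _ := by rw [nn_inv]
  have hT : ∀ B : G, P * (ρ B * A * ρ B⁻¹) = (ρ B * A * ρ B⁻¹) * P := by
    intro B
    -- the descent step
    have hdesc : ∀ k, P * (ρ (cs y B (k + 1)) * P * ρ (cs y B (k + 1))⁻¹) =
        (ρ (cs y B (k + 1)) * P * ρ (cs y B (k + 1))⁻¹) * P →
        P * (ρ (cs y B k) * A * ρ (cs y B k)⁻¹) = (ρ (cs y B k) * A * ρ (cs y B k)⁻¹) * P := by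
      intro k hk
      set b := cs y B k with hb
      have hb1 : ρ (cs y B (k + 1)) = (ρ b * A * ρ b⁻¹) * A' := by
        have : cs y B (k + 1) = b * y * b⁻¹ * y⁻¹ := rfl
        rw [this, map_mul, map_mul, map_mul, hAdef, hA'def]
        simp only [mul_smul_comm, smul_mul_assoc, smul_smul]
        rw [mul_inv_cancel₀ hc0, one_smul]
      have hb2 : ρ (cs y B (k + 1))⁻¹ = A * (ρ b * A' * ρ b⁻¹) := by
        have : (cs y B (k + 1))⁻¹ = y * (b * y⁻¹ * b⁻¹) := by
          change (b * y * b⁻¹ * y⁻¹)⁻¹ = _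
          group
        rw [this, map_mul, map_mul, map_mul, hAdef, hA'def]
        simp only [mul_smul_comm, smul_mul_assoc, smul_smul]
        rw [mul_inv_cancel₀ hc0, one_smul]
      have hb3 : ρ (cs y B (k + 1)) * P * ρ (cs y B (k + 1))⁻¹ =
          (ρ b * A * ρ b⁻¹) * P * (ρ b * A' * ρ b⁻¹) := by
        rw [hb1, hb2]
        calc (ρ b * A * ρ b⁻¹) * A' * P * (A * (ρ b * A' * ρ b⁻¹)) =
            (ρ b * A * ρ b⁻¹) * ((A' * P) * A) * (ρ b * A' * ρ b⁻¹) := by noncomm_ring
          _ = _ := by rw [hA'P, hPA]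
      rw [hb3] at hk
      refine commute_of_conj ρ ?_ ?_ hPP hadj (hUb b) hr1 (hcb b) hk
      · calc ρ b * A * ρ b⁻¹ * (ρ b * A' * ρ b⁻¹) = ρ b * A * (ρ b⁻¹ * ρ b) * A' * ρ b⁻¹ := by noncomm_ring
          _ = ρ b * (A * A') * ρ b⁻¹ := by rw [rho_inv_mul]; noncomm_ring
          _ = 1 := by rw [hAA', mul_one, rho_mul_inv]
      · calc ρ b * A' * ρ b⁻¹ * (ρ b * A * ρ b⁻¹) = ρ b * A' * (ρ b⁻¹ * ρ b) * A * ρ b⁻¹ := by noncomm_ring
          _ = ρ b * (A' * A) * ρ b⁻¹ := by rw [rho_inv_mul]; noncomm_ring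
          _ = 1 := by rw [hA'A, mul_one, rho_mul_inv]
    have hdesc2 : ∀ k, P * (ρ (cs y B k) * A * ρ (cs y B k)⁻¹) = (ρ (cs y B k) * A * ρ (cs y B k)⁻¹) * P →
        P * (ρ (cs y B k) * P * ρ (cs y B k)⁻¹) = (ρ (cs y B k) * P * ρ (cs y B k)⁻¹) * P := by
      intro k hk
      rw [hP, ← pr_conj (rho_inv_mul ρ (cs y B k)) (rho_mul_inv ρ (cs y B k)) 0]
      exact pr_comm (X := P) hk 0
    have hdesc3 : ∀ k, P * (ρ (cs y B (k + 1)) * P * ρ (cs y B (k + 1))⁻¹) =
        (ρ (cs y B (k + 1)) * P * ρ (cs y B (k + 1))⁻¹) * P →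
        P * (ρ B * A * ρ B⁻¹) = (ρ B * A * ρ B⁻¹) * P := by
      intro k
      induction k with
      | zero => exact hdesc 0
      | succ k ih => exact fun h => ih (hdesc2 (k + 1) (hdesc (k + 1) h))
    -- the base
    obtain ⟨C, hC⟩ := Finite.exists_infinite_fiber (cs y B)
    have hest : ∀ v, A v = v → ∀ k, nn ρ (ρ (cs y B k) v - v) ≤ r ^ k * nn ρ (ρ B v - v) := by
      intro v hv k
      induction k with
      | zero => simp [cs]
      | succ k ih =>
        set b := cs y B k with hb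
        have hv' : A' v = v := by
          conv_lhs => rw [← hv]
          rw [← Module.End.mul_apply, hA'A, Module.End.one_apply]
        have h1 : ρ (cs y B (k + 1)) v = ρ b (A (ρ b⁻¹ v)) := by
          have h2 : ρ (cs y B (k + 1)) = (ρ b * A * ρ b⁻¹) * A' := by
            have : cs y B (k + 1) = b * y * b⁻¹ * y⁻¹ := rfl
            rw [this, map_mul, map_mul, map_mul, hAdef, hA'def]
            simp only [mul_smul_comm, smul_mul_assoc, smul_smul]
            rw [mul_inv_cancel₀ hc0, one_smul]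
          rw [h2, Module.End.mul_apply, hv']
          rfl
        have h2 : ρ (cs y B (k + 1)) v - v = ρ b (A (ρ b⁻¹ v) - ρ b⁻¹ v) := by
          rw [map_sub, rho_inv, h1]
        have h3 : A (ρ b⁻¹ v) - ρ b⁻¹ v = A (ρ b⁻¹ v - v) - (ρ b⁻¹ v - v) := by
          rw [map_sub, hv]; abel
        rw [h2, nn_inv, h3]
        have h4 : nn ρ (ρ b⁻¹ v - v) = nn ρ (ρ b v - v) := by
          rw [← nn_inv ρ b (ρ b⁻¹ v - v), map_sub, rho_inv, nn_sub_comm]
        calc nn ρ (A (ρ b⁻¹ v - v) - (ρ b⁻¹ v - v)) ≤ r * nn ρ (ρ b⁻¹ v - v) := hcontr _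
          _ = r * nn ρ (ρ b v - v) := by rw [h4]
          _ ≤ r * (r ^ k * nn ρ (ρ B v - v)) := mul_le_mul_of_nonneg_left ih hr0
          _ = _ := by rw [pow_succ]; ring
    have hfix : ∀ v, A v = v → ρ C v = v := by
      intro v hv
      by_contra hne
      have hpos : 0 < nn ρ (ρ C v - v) := by
        rcases (nn_nonneg ρ (ρ C v - v)).lt_or_eq with h | h
        · exact h
        · exact absurd (sub_eq_zero.mp (nn_eq_zero ρ h.symm)) hne
      set K := nn ρ (ρ B v - v) with hK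
      have hK0 : 0 ≤ K := nn_nonneg ρ _
      obtain ⟨N, hN⟩ := exists_pow_lt_of_lt_one (div_pos hpos (show (0 : ℝ) < K + 1 by linarith)) hr1
      obtain ⟨k, hkN, hk⟩ : ∃ k, N ≤ k ∧ cs y B k = C := by
        have hinf : (cs y B ⁻¹' {C}).Infinite := Set.infinite_coe_iff.mp hC
        obtain ⟨k, hk1, hk2⟩ := hinf.exists_gt N
        exact ⟨k, hk2.le, hk1⟩
      have h1 := hest v hv k
      rw [hk] at h1
      have h2 : r ^ k ≤ r ^ N := pow_le_pow_of_le_one hr0 hr1.le hkN
      have h3 : r ^ k * K ≤ r ^ N * (K + 1) := by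
        apply mul_le_mul h2 (by linarith) hK0 (pow_nonneg hr0 _)
      have h4 : r ^ N * (K + 1) < nn ρ (ρ C v - v) := by
        rwa [lt_div_iff₀ (by linarith)] at hN
      linarith
    obtain ⟨k, hk0, hk⟩ : ∃ k, 0 < k ∧ cs y B k = C := by
      have hinf : (cs y B ⁻¹' {C}).Infinite := Set.infinite_coe_iff.mp hC
      obtain ⟨k, hk1, hk2⟩ := hinf.exists_gt 0
      exact ⟨k, hk2, hk1⟩
    obtain ⟨k, rfl⟩ : ∃ k', k = k' + 1 := ⟨k - 1, by omega⟩
    apply hdesc3 k
    rw [hk]
    have hCP : ρ C * P = P := LinearMap.ext fun v => hfix _ (fix_pr_zero hA v)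
    have hPC : P * ρ C⁻¹ = P := by
      refine LinearMap.ext fun v => ?_
      rw [Module.End.mul_apply]
      have h1 : ∀ u, hf ρ (P (ρ C⁻¹ v) - P v) u = 0 := by
        intro u
        have h2 : hf ρ (P (ρ C⁻¹ v)) u = hf ρ (P v) u := by
          rw [hadj, hadj, ← hf_inv ρ C (ρ C⁻¹ v) (P u), rho_inv]
          have h3 := congrArg (fun f : Module.End ℂ (Fin n → ℂ) => f u) hCP
          rw [show ρ C (P u) = P u from h3]
        rw [sub_eq_add_neg, ← neg_one_smul ℂ (P v), hf_add_left, hf_smul_left, h2]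
        simp
      have h2 := h1 (P (ρ C⁻¹ v) - P v)
      rw [hf_self] at h2
      exact sub_eq_zero.mp (nn_eq_zero ρ (by exact_mod_cast h2))
    have h5 : ρ C * P * ρ C⁻¹ = P := by rw [hCP, hPC]
    rw [h5]
  -- the commuting subgroup
  let H : Subgroup G :=
    { carrier := {g | P * ρ g = ρ g * P}
      one_mem' := by simp
      mul_mem' := by
        intro a b ha hb
        simp only [Set.mem_ofPred_eq] at ha hb ⊢
        rw [map_mul, ← mul_assoc, ha, mul_assoc, hb, mul_assoc]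
      inv_mem' := by
        intro a ha
        simp only [Set.mem_ofPred_eq] at ha ⊢
        calc P * ρ a⁻¹ = ρ a⁻¹ * (ρ a * P) * ρ a⁻¹ := by
              rw [← mul_assoc, rho_inv_mul, one_mul]
          _ = ρ a⁻¹ * (P * ρ a) * ρ a⁻¹ := by rw [ha]
          _ = ρ a⁻¹ * P * (ρ a * ρ a⁻¹) := by noncomm_ring
          _ = _ := by rw [rho_mul_inv, mul_one] }
  have hHtop : H = ⊤ := by
    rw [eq_top_iff, ← hy, Subgroup.normalClosure, Subgroup.closure_le]
    intro g hg
    rw [Group.mem_conjugatesOfSet_iff] at hg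
    obtain ⟨a, ha, hag⟩ := hg
    rw [Set.mem_singleton_iff] at ha
    subst ha
    obtain ⟨B, hB⟩ := isConj_iff.mp hag
    have h1 := hT B
    have h2 : ρ B * A * ρ B⁻¹ = c⁻¹ • ρ g := by
      rw [hAdef, mul_smul_comm, smul_mul_assoc, ← map_mul, ← map_mul, hB]
    rw [h2, mul_smul_comm, smul_mul_assoc] at h1
    have h3 := congrArg (fun f => c • f) h1
    simp only [smul_smul, mul_inv_cancel₀ hc0, one_smul] at h3
    exact h3
  obtain ⟨ω, hω⟩ := Cfsg.Agent.Char.schur_scalar ρ P (fun g v => by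
    have hg : g ∈ H := by rw [hHtop]; trivial
    have := congrArg (fun f : Module.End ℂ (Fin n → ℂ) => f v) (show P * ρ g = ρ g * P from hg)
    simpa using this)
  obtain ⟨v₀, hv₀, hv₁⟩ := hev
  have h1 : A v₀ = v₀ := by
    rw [hAdef, LinearMap.smul_apply, hv₁, smul_smul, inv_mul_cancel₀ hc0, one_smul]
  have h2 : P v₀ = v₀ := pr_zero_of_fix h1
  have h3 : ω = 1 := by
    rw [hω] at h2
    simp only [LinearMap.smul_apply, LinearMap.id_coe, id_eq] at h2
    have h4 : (ω - 1) • v₀ = 0 := by rw [sub_smul, h2, one_smul, sub_self]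
    rcases smul_eq_zero.mp h4 with h5 | h5
    · exact sub_eq_zero.mp h5
    · exact absurd h5 hv₀
  have h4 : P v = v := by
    rw [hω, h3]; simp
  have h5 : A v = v := by
    rw [← h4]
    exact fix_pr_zero hA v
  rw [hAdef, LinearMap.smul_apply] at h5
  rw [← h5, smul_smul, h5, mul_inv_cancel₀ hc0, one_smul]

end Main

end Cfsg.Agent.H75.Sixty
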